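import Cfsg.Agent.Lib.H06.Brauer5
import Cfsg.Agent.Lib.H06.FittingHall
import Cfsg.Agent.Lib.H06.DadeGen1
import Cfsg.Agent.Lib.H18.Nilp

/-!
# Hall decomposition of nilpotent groups and algebraic-integer coefficients
-/

set_option autoImplicit false
set_option linter.style.haveILetI false
set_option linter.unusedSectionVars false
set_option linter.unusedSimpArgs false
set_option linter.unusedVariables false

namespace Cfsg.Agent.H04.Cliff

open Cfsg Cfsg.Agent.H21 Cfsg.Agent.H06
open scoped ComplexConjugate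

universe u

section Split

variable {T : Type*} [Group T] [Finite T] [hnil : Group.IsNilpotent T]

theorem mem_of_pow_coprime_index (A : Subgroup T) [A.Normal] {u : T} {m : ℕ} (hu : u ^ m = 1)
    (hc : Nat.Coprime A.index m) : u ∈ A := by
  have h1 : u ^ A.index ∈ A := Subgroup.pow_index_mem A u
  have hgcd := Nat.gcd_eq_gcd_ab A.index m
  rw [hc.gcd_eq_one] at hgcd
  have h2 : u = (u ^ A.index) ^ (Nat.gcdA A.index m) * (u ^ m) ^ (Nat.gcdB A.index m) := by
    rw [← zpow_natCast u A.index, ← zpow_natCast u m, ← zpow_mul, ← zpow_mul, ← zpow_add, ← hgcd]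
    simp
  rw [h2, hu, one_zpow, mul_one]
  exact A.zpow_mem h1 _

/-- The part of a nilpotent group belonging to `m`. -/
def hallPart (m : ℕ) (T : Type*) [Group T] : Subgroup T :=
  sSup {N | ∃ (p : ℕ) (_ : Fact p.Prime), p ∣ m ∧ ∃ P : Sylow p T, N = (P : Subgroup T)}

theorem sylow_normal {p : ℕ} [Fact p.Prime] (P : Sylow p T) : (P : Subgroup T).Normal :=
  Sylow.normal_of_normalizerCondition (Group.normalizerCondition_of_isNilpotent) P

theorem hallPart_normal (m : ℕ) : (hallPart m T).Normal := by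
  apply Subgroup.sSup_normal
  rintro N ⟨p, hp, -, P, rfl⟩
  exact sylow_normal P

theorem hallPart_coprime {m q : ℕ} (hq : q.Prime) (hqm : ¬ q ∣ m) :
    (Nat.card (hallPart m T)).Coprime q := by
  apply coprime_card_sSup_normal
  rintro N ⟨p, hp, hpm, P, rfl⟩
  refine ⟨sylow_normal P, ?_⟩
  obtain ⟨k, hk⟩ := IsPGroup.iff_card.1 P.isPGroup'
  rw [hk]
  refine Nat.Coprime.pow_left k ?_
  rw [Nat.coprime_primes hp.out hq]
  rintro rfl
  exact hqm hpm

theorem hallPart_index {m : ℕ} : Nat.Coprime (hallPart m T).index m := by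
  apply Nat.coprime_of_dvd
  intro q hq h1 h2
  haveI : Fact q.Prime := ⟨hq⟩
  let P : Sylow q T := default
  have h3 : (P : Subgroup T) ≤ hallPart m T := le_sSup ⟨q, inferInstance, h2, P, rfl⟩
  exact P.not_dvd_index (h1.trans (Subgroup.index_dvd_of_le h3))

theorem coprime_of_prime_not_dvd {a b : ℕ} (h : ∀ q : ℕ, q.Prime → q ∣ b → (a.Coprime q)) :
    a.Coprime b := by
  apply Nat.coprime_of_dvd
  intro q hq h1 h2
  have := h q hq h2
  exact (Nat.Prime.coprime_iff_not_dvd hq).1 this.symm h1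

theorem nil_split {m n : ℕ} (hcop : m.Coprime n) (hcard : Nat.card T ∣ m * n) :
    ∃ A B : Subgroup T, A.Normal ∧ B.Normal ∧ (Nat.card A ∣ m) ∧ (Nat.card B ∣ n) ∧
      (∀ t : T, ∃ a ∈ A, ∃ b ∈ B, t = a * b) := by
  classical
  haveI hA := hallPart_normal (T := T) m
  haveI hB := hallPart_normal (T := T) n
  refine ⟨hallPart m T, hallPart n T, hA, hB, ?_, ?_, ?_⟩
  · have h1 : (Nat.card (hallPart m T)).Coprime n := by
      apply coprime_of_prime_not_dvd
      intro q hq hqn
      refine hallPart_coprime hq fun hqm => ?_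
      exact (Nat.Prime.coprime_iff_not_dvd hq).1 (Nat.Coprime.coprime_dvd_left hqm hcop) hqn
    exact h1.dvd_of_dvd_mul_right ((Subgroup.card_subgroup_dvd_card _).trans hcard)
  · have h1 : (Nat.card (hallPart n T)).Coprime m := by
      apply coprime_of_prime_not_dvd
      intro q hq hqn
      refine hallPart_coprime hq fun hqm => ?_
      exact (Nat.Prime.coprime_iff_not_dvd hq).1 (Nat.Coprime.coprime_dvd_left hqm hcop.symm) hqn
    exact h1.dvd_of_dvd_mul_left ((Subgroup.card_subgroup_dvd_card _).trans hcard)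
  · intro t
    have hgcd := Nat.gcd_eq_gcd_ab m n
    rw [hcop.gcd_eq_one] at hgcd
    have hpow : ∀ x : T, x ^ (m * n) = 1 := fun x => by
      obtain ⟨c, hc⟩ := hcard
      rw [hc, pow_mul, pow_card_eq_one', one_pow]
    let a : T := t ^ ((n : ℤ) * Nat.gcdB m n)
    let b : T := t ^ ((m : ℤ) * Nat.gcdA m n)
    have hab : t = a * b := by
      show t = t ^ ((n : ℤ) * Nat.gcdB m n) * t ^ ((m : ℤ) * Nat.gcdA m n)
      rw [← zpow_add]
      have : ((n : ℤ) * Nat.gcdB m n + (m : ℤ) * Nat.gcdA m n) = 1 := by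
        have h := hgcd
        push_cast at h
        linarith
      rw [this, zpow_one]
    have ham : a ^ m = 1 := by
      show (t ^ ((n : ℤ) * Nat.gcdB m n)) ^ m = 1
      rw [← zpow_natCast, ← zpow_mul]
      have : (n : ℤ) * Nat.gcdB m n * (m : ℤ) = ((m * n : ℕ) : ℤ) * Nat.gcdB m n := by
        push_cast; ring
      rw [this, zpow_mul, zpow_natCast, hpow, one_zpow]
    have hbn : b ^ n = 1 := by
      show (t ^ ((m : ℤ) * Nat.gcdA m n)) ^ n = 1
      rw [← zpow_natCast, ← zpow_mul]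
      have : (m : ℤ) * Nat.gcdA m n * (n : ℤ) = ((m * n : ℕ) : ℤ) * Nat.gcdA m n := by
        push_cast; ring
      rw [this, zpow_mul, zpow_natCast, hpow, one_zpow]
    exact ⟨a, mem_of_pow_coprime_index _ ham hallPart_index, b,
      mem_of_pow_coprime_index _ hbn hallPart_index, hab⟩

end Split

section Inner

variable {T : Type*} [Group T] [Fintype T] [hnil : Group.IsNilpotent T]

theorem isIntegral_of_isCharacter {χ : T → ℂ} (h : IsCharacter T χ) (g : T) : IsIntegral ℤ (χ g) := by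
  obtain ⟨n, ρ, rfl⟩ := h
  exact isIntegral_character ρ g

theorem elem_inner {m n : ℕ} (hcop : m.Coprime n) (hcard : Nat.card T ∣ m * n) (S : Set T)
    (F : T → ℂ)
    (hF1 : ∀ a b : T, a ^ m = 1 → b ^ n = 1 → Commute a b → b ∈ S → F (a * b) = n)
    (hF0 : ∀ a b : T, a ^ m = 1 → b ^ n = 1 → Commute a b → b ∉ S → F (a * b) = 0)
    {ξ : T → ℂ} (hξ : IsGeneralizedCharacter T ξ) :
    IsIntegral ℤ ((Nat.card T : ℂ)⁻¹ * ∑ t : T, F t * ξ t) := by
  classical
  obtain ⟨A, B, hAn, hBn, hAm, hBn', hgen⟩ := nil_split (T := T) hcop hcard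
  have hdis : Disjoint A B := by
    apply Subgroup.disjoint_of_coprime_natCard
    exact Nat.Coprime.coprime_dvd_left hAm (Nat.Coprime.coprime_dvd_right hBn' hcop)
  have hcomm : ∀ a ∈ A, ∀ b ∈ B, Commute a b := by
    intro a ha b hb
    have h1 : a * b * a⁻¹ * b⁻¹ ∈ A := by
      have := hBn.conj_mem b hb a
      have h2 := hAn.conj_mem a⁻¹ (A.inv_mem ha) b
      simpa [mul_assoc] using A.mul_mem ha h2
    have h2 : a * b * a⁻¹ * b⁻¹ ∈ B := B.mul_mem (hBn.conj_mem b hb a) (B.inv_mem hb)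
    have h3 : a * b * a⁻¹ * b⁻¹ = 1 := by
      have := Subgroup.disjoint_def.1 hdis h1 h2
      exact this
    have h4 : a * b = b * a := by
      have : a * b * a⁻¹ = b := by
        have := mul_eq_one_iff_eq_inv.1 h3
        simpa using this
      calc a * b = a * b * a⁻¹ * a := by group
        _ = b * a := by rw [this]
    exact h4
  have hamem : ∀ a ∈ A, a ^ m = 1 := by
    intro a ha
    exact orderOf_dvd_iff_pow_eq_one.1 ((Subgroup.orderOf_dvd_natCard A ha).trans hAm)
  have hbmem : ∀ b ∈ B, b ^ n = 1 := by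
    intro b hb
    exact orderOf_dvd_iff_pow_eq_one.1 ((Subgroup.orderOf_dvd_natCard B hb).trans hBn')
  -- the bijection
  let φ : A × B → T := fun x => (x.1 : T) * (x.2 : T)
  have hφ : Function.Bijective φ := by
    constructor
    · rintro ⟨a, b⟩ ⟨a', b'⟩ h
      have h1 : (a : T) * b = a' * b' := h
      have h2 : (a' : T)⁻¹ * a = b' * (b : T)⁻¹ := by
        have : (a' : T)⁻¹ * (a * b) * (b : T)⁻¹ = (a' : T)⁻¹ * (a' * b') * (b : T)⁻¹ := by
          rw [show ((a : T) * b) = (a' : T) * b' from h1]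
        simpa [mul_assoc] using this
      have h3 : (a' : T)⁻¹ * a = 1 := Subgroup.disjoint_def.1 hdis
        (A.mul_mem (A.inv_mem a'.2) a.2) (by rw [h2]; exact B.mul_mem b'.2 (B.inv_mem b.2))
      have h4 : (a : T) = a' := (inv_mul_eq_one.1 h3).symm
      have h5 : (b : T) = b' := by
        rw [h4] at h1
        exact mul_left_cancel h1
      exact Prod.ext (Subtype.ext h4) (Subtype.ext h5)
    · intro t
      obtain ⟨a, ha, b, hb, rfl⟩ := hgen t
      exact ⟨(⟨a, ha⟩, ⟨b, hb⟩), rfl⟩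
  let e : A × B ≃ T := Equiv.ofBijective φ hφ
  have hcardT : Nat.card T = Nat.card A * Nat.card B := by
    rw [← Nat.card_prod]
    exact (Nat.card_congr e).symm
  haveI : Fintype A := Fintype.ofFinite _
  haveI : Fintype B := Fintype.ofFinite _
  have hsum : ∑ t : T, F t * ξ t = ∑ b : B, ∑ a : A, F (a * b) * ξ (a * b) := by
    rw [← Equiv.sum_comp e, Fintype.sum_prod_type, Finset.sum_comm]
    rfl
  have hterm : ∀ b : B, ∑ a : A, F (a * b) * ξ (a * b) =
      if (b : T) ∈ S then (n : ℂ) * ((Nat.card A : ℂ) * DadeGen.avg A ξ (b : T)) else 0 := by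
    intro b
    have hav : (Nat.card A : ℂ) * DadeGen.avg A ξ (b : T) = ∑ a : A, ξ (a * b) := by
      have hA0 : (Nat.card A : ℂ) ≠ 0 := Nat.cast_ne_zero.2 Nat.card_pos.ne'
      rw [DadeGen.avg, ← mul_assoc, mul_inv_cancel₀ hA0, one_mul]
      rw [← Finset.sum_filter]
      rw [← Finset.sum_coe_sort (Finset.univ.filter fun u : T => u ∈ A)]
      refine Fintype.sum_equiv ?_ _ _ ?_
      · exact
          { toFun := fun u => ⟨u.1, (Finset.mem_filter.1 u.2).2⟩
            invFun := fun a => ⟨a.1, Finset.mem_filter.2 ⟨Finset.mem_univ _, a.2⟩⟩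
            left_inv := fun u => rfl
            right_inv := fun a => rfl }
      · intro u
        have hu : (u : T) ∈ A := (Finset.mem_filter.1 u.2).2
        show ξ ((b : T) * u) = ξ ((u : T) * b)
        rw [(hcomm _ hu b b.2).eq]
    split_ifs with hS
    · rw [hav, Finset.mul_sum]
      refine Finset.sum_congr rfl fun a _ => ?_
      rw [hF1 a b (hamem a a.2) (hbmem b b.2) (hcomm a a.2 b b.2) hS]
    · refine Finset.sum_eq_zero fun a _ => ?_
      rw [hF0 a b (hamem a a.2) (hbmem b b.2) (hcomm a a.2 b b.2) hS, zero_mul]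
  obtain ⟨c, hc⟩ := hBn'
  have hA0 : (Nat.card A : ℂ) ≠ 0 := Nat.cast_ne_zero.2 Nat.card_pos.ne'
  have hB0 : (Nat.card B : ℂ) ≠ 0 := Nat.cast_ne_zero.2 Nat.card_pos.ne'
  have hfinal : (Nat.card T : ℂ)⁻¹ * ∑ t : T, F t * ξ t =
      (c : ℂ) * ∑ b : B, if (b : T) ∈ S then DadeGen.avg A ξ (b : T) else 0 := by
    rw [hsum, hcardT, Finset.mul_sum, Finset.mul_sum]
    refine Finset.sum_congr rfl fun b _ => ?_
    rw [hterm b]
    split_ifs with hS
    · rw [hc]
      push_cast
      field_simp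
    · simp
  rw [hfinal]
  apply IsIntegral.mul
  · exact isIntegral_natCast _
  · refine IsIntegral.sum _ fun b _ => ?_
    split_ifs with hS
    · obtain ⟨χ, ψ, hχ, hψ, rfl⟩ := hξ
      have hnorm : ∀ y : T, ∀ r ∈ A, (MonoidHom.id T) y * r * ((MonoidHom.id T) y)⁻¹ ∈ A :=
        fun y r hr => hAn.conj_mem r hr y
      have h1 := DadeGen.avg_isCharacter (MonoidHom.id T) A hnorm hχ
      have h2 := DadeGen.avg_isCharacter (MonoidHom.id T) A hnorm hψ
      have h3 : DadeGen.avg A (χ - ψ) (b : T) = DadeGen.avg A χ b - DadeGen.avg A ψ b := by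
        simp only [DadeGen.avg, Pi.sub_apply]
        rw [← mul_sub, ← Finset.sum_sub_distrib]
        congr 1
        refine Finset.sum_congr rfl fun u _ => ?_
        split_ifs <;> simp
      rw [h3]
      exact (isIntegral_of_isCharacter h1 b).sub (isIntegral_of_isCharacter h2 b)
    · exact isIntegral_zero

end Inner

end Cfsg.Agent.H04.Cliff
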