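import Cfsg.Agent.Lib.H06.Brauer3

/-!
# Brauer induction at a fixed prime: the span of induced generalized characters from
`q`-elementary subgroups contains an integer prime to `q`.
-/

set_option autoImplicit false
set_option linter.style.haveILetI false
set_option linter.unusedSectionVars false
set_option linter.unusedSimpArgs false
set_option linter.unusedVariables false

namespace Cfsg.Agent.H04.BrauerP

open Cfsg Cfsg.Agent.H21 Cfsg.Agent.H06
open Cfsg.Agent.H06.Brauer (gen_restrict indFun_sub' gen_indFun mul_indFun zetaG AZ zetaG_prim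
  root_mem_AZ int_mem_AZ exists_decomp conj_pow' comm_mul_mul cosetFun count_sylow)
open scoped ComplexConjugate

universe u

section Base

variable {G : Type u} [Group G] [Fintype G] {q : ℕ}

/-- The `ℤ`-span of the induced generalized characters from `q`-elementary subgroups. -/
def VZ (q : ℕ) (G : Type u) [Group G] [Fintype G] : AddSubgroup (G → ℂ) :=
  AddSubgroup.closure {f | ∃ (E : Subgroup G) (β : E → ℂ),
    IsElementary q E ∧ IsGeneralizedCharacter E β ∧ f = indFun E β}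

theorem VZ_gen {f : G → ℂ} (hf : f ∈ VZ q G) : IsGeneralizedCharacter G f := by
  induction hf using AddSubgroup.closure_induction with
  | mem f hf =>
    obtain ⟨E, β, -, hβ, rfl⟩ := hf
    exact gen_indFun E hβ
  | zero => exact isGeneralized_zero
  | add _ _ _ _ h1 h2 => exact gen_add h1 h2
  | neg _ _ h => exact gen_neg h

theorem VZ_ind {E : Subgroup G} {β : E → ℂ} (hE : IsElementary q E)
    (hβ : IsGeneralizedCharacter E β) : indFun E β ∈ VZ q G :=
  AddSubgroup.subset_closure ⟨E, β, hE, hβ, rfl⟩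

theorem VZ_mul {θ f : G → ℂ} (hθ : IsGeneralizedCharacter G θ) (hf : f ∈ VZ q G) :
    θ * f ∈ VZ q G := by
  have hcl : IsClassFunction G θ := gen_isClass hθ
  induction hf using AddSubgroup.closure_induction with
  | mem f hf =>
    obtain ⟨E, β, hE, hβ, rfl⟩ := hf
    rw [mul_indFun hcl]
    exact VZ_ind hE (gen_mul (gen_restrict E hθ) hβ)
  | zero => rw [mul_zero]; exact (VZ q G).zero_mem
  | add _ _ _ _ h1 h2 => rw [mul_add]; exact (VZ q G).add_mem h1 h2
  | neg _ _ h => rw [mul_neg]; exact (VZ q G).neg_mem h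

end Base

section Coeff

variable {G : Type u} [Group G] [Fintype G] {q : ℕ}

/-- The scalar extension of `VZ`. -/
noncomputable def VA (q : ℕ) (G : Type u) [Group G] [Fintype G] : AddSubgroup (G → ℂ) :=
  AddSubgroup.closure {f | ∃ a ∈ AZ G, ∃ v ∈ VZ q G, f = fun g => a * v g}

theorem VA_of_VZ {a : ℂ} (ha : a ∈ AZ G) {v : G → ℂ} (hv : v ∈ VZ q G) :
    (fun g => a * v g) ∈ VA q G :=
  AddSubgroup.subset_closure ⟨a, ha, v, hv, rfl⟩

theorem VA_smul {a : ℂ} (ha : a ∈ AZ G) {f : G → ℂ} (hf : f ∈ VA q G) :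
    (fun g => a * f g) ∈ VA q G := by
  induction hf using AddSubgroup.closure_induction with
  | mem f hf =>
    obtain ⟨b, hb, v, hv, rfl⟩ := hf
    have := VA_of_VZ (Subalgebra.mul_mem _ ha hb) hv
    convert this using 1
    funext g
    ring
  | zero =>
    convert (VA q G).zero_mem using 1
    funext g
    simp
  | add f₁ f₂ _ _ h1 h2 =>
    convert (VA q G).add_mem h1 h2 using 1
    funext g
    simp [mul_add]
  | neg f _ h =>
    convert (VA q G).neg_mem h using 1
    funext g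
    simp

theorem VA_class {f : G → ℂ} (hf : f ∈ VA q G) : IsClassFunction G f := by
  induction hf using AddSubgroup.closure_induction with
  | mem f hf =>
    obtain ⟨b, hb, v, hv, rfl⟩ := hf
    intro g h
    have := gen_isClass (VZ_gen hv) g h
    simp only [this]
  | zero => intro g h; rfl
  | add f₁ f₂ _ _ h1 h2 =>
    intro g h
    simp only [Pi.add_apply, h1 g h, h2 g h]
  | neg f _ h =>
    intro g k
    simp only [Pi.neg_apply, h g k]

theorem VA_mul {f h : G → ℂ} (hf : f ∈ VA q G) (hh : h ∈ VA q G) : f * h ∈ VA q G := by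
  induction hf using AddSubgroup.closure_induction with
  | mem f hf =>
    obtain ⟨a, ha, v, hv, rfl⟩ := hf
    induction hh using AddSubgroup.closure_induction with
    | mem h hh =>
      obtain ⟨b, hb, w, hw, rfl⟩ := hh
      have := VA_of_VZ (Subalgebra.mul_mem _ ha hb) (VZ_mul (VZ_gen hv) hw)
      convert this using 1
      funext g
      simp only [Pi.mul_apply]
      ring
    | zero => rw [mul_zero]; exact (VA q G).zero_mem
    | add _ _ _ _ h1 h2 => rw [mul_add]; exact (VA q G).add_mem h1 h2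
    | neg _ _ h => rw [mul_neg]; exact (VA q G).neg_mem h
  | zero => rw [zero_mul]; exact (VA q G).zero_mem
  | add _ _ _ _ h1 h2 => rw [add_mul]; exact (VA q G).add_mem h1 h2
  | neg _ _ h => rw [neg_mul]; exact (VA q G).neg_mem h

theorem VA_pow {f : G → ℂ} (hf : f ∈ VA q G) {n : ℕ} (hn : n ≠ 0) : f ^ n ∈ VA q G := by
  induction n with
  | zero => exact absurd rfl hn
  | succ n ih =>
    by_cases h0 : n = 0
    · subst h0
      simpa using hf
    · rw [pow_succ]
      exact VA_mul (ih h0) hf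

theorem VA_sum {ι : Type*} (s : Finset ι) (f : ι → G → ℂ) (h : ∀ i ∈ s, f i ∈ VA q G) :
    ∑ i ∈ s, f i ∈ VA q G :=
  AddSubgroup.sum_mem _ h

/-- Descent from `ℤ[ζ]` to `ℤ`. -/
theorem int_mem_VZ_of_VA (m : ℤ) (hone : (fun _ : G => (m : ℂ)) ∈ VA q G) :
    (fun _ : G => (m : ℂ)) ∈ VZ q G := by
  classical
  have hint : IsIntegral ℤ (zetaG G) := (zetaG_prim (G := G)).isIntegral Nat.card_pos
  let pb := Algebra.adjoin.powerBasis' (R := ℤ) hint
  have hdim : 0 < pb.dim := by
    rw [Algebra.adjoin.powerBasis'_dim]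
    exact minpoly.natDegree_pos hint
  let L : AZ G →ₗ[ℤ] ℤ := pb.basis.coord ⟨0, hdim⟩
  have hL1 : L 1 = 1 := by
    have h1 : pb.basis ⟨0, hdim⟩ = 1 := by
      rw [pb.basis_eq_pow]
      simp
    have h2 : pb.basis.coord ⟨0, hdim⟩ (pb.basis ⟨0, hdim⟩) = 1 := by
      rw [Module.Basis.coord_apply, Module.Basis.repr_self, Finsupp.single_eq_same]
    rw [h1] at h2
    exact h2
  have key : ∀ w ∈ VA q G, ∃ v ∈ VZ q G, ∀ χ : IrrCharacter G,
      ∃ c : AZ G, classInner w (χ : G → ℂ) = (c : ℂ) ∧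
        classInner v (χ : G → ℂ) = (L c : ℂ) := by
    intro w hw
    induction hw using AddSubgroup.closure_induction with
    | mem f hf =>
      obtain ⟨a, ha, u, hu, rfl⟩ := hf
      refine ⟨(L ⟨a, ha⟩) • u, (VZ q G).zsmul_mem hu _, fun χ => ?_⟩
      obtain ⟨k, hk⟩ := gen_inner_int (VZ_gen hu) (gen_of_char (isCharacter_of_irr χ.2))
      refine ⟨k • (⟨a, ha⟩ : AZ G), ?_, ?_⟩
      · have : (fun g => a * u g) = a • u := by funext g; simp
        rw [this, classInner_smul_left, hk]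
        simp [mul_comm]
      · have h1 : (L ⟨a, ha⟩) • u = ((L ⟨a, ha⟩ : ℤ) : ℂ) • u := by
          funext g
          simp
        rw [h1, classInner_smul_left, hk, map_zsmul]
        simp [mul_comm]
    | zero =>
      refine ⟨0, (VZ q G).zero_mem, fun χ => ⟨0, ?_, ?_⟩⟩ <;> simp [classInner_zero_left]
    | add f₁ f₂ _ _ h1 h2 =>
      obtain ⟨v₁, hv₁, h1⟩ := h1
      obtain ⟨v₂, hv₂, h2⟩ := h2
      refine ⟨v₁ + v₂, (VZ q G).add_mem hv₁ hv₂, fun χ => ?_⟩
      obtain ⟨c₁, h11, h12⟩ := h1 χ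
      obtain ⟨c₂, h21, h22⟩ := h2 χ
      refine ⟨c₁ + c₂, ?_, ?_⟩
      · rw [classInner_add_left, h11, h21]; simp
      · rw [classInner_add_left, h12, h22, map_add]; simp
    | neg f _ h =>
      obtain ⟨v, hv, h⟩ := h
      refine ⟨-v, (VZ q G).neg_mem hv, fun χ => ?_⟩
      obtain ⟨c, h1, h2⟩ := h χ
      refine ⟨-c, ?_, ?_⟩
      · rw [classInner_neg_left', h1]; simp
      · rw [classInner_neg_left', h2, map_neg]; simp
  obtain ⟨v, hv, hv2⟩ := key _ hone
  have hgen1 : IsGeneralizedCharacter G (fun _ : G => (m : ℂ)) := by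
    have h0 : IsGeneralizedCharacter G (fun _ : G => (1 : ℂ)) := gen_of_char isCharacter_one
    have h1 : (fun _ : G => (m : ℂ)) = m • (fun _ : G => (1 : ℂ)) := by
      funext g; simp
    rw [h1]
    exact gen_zsmul h0 m
  haveI : Fintype (IrrCharacter G) := Fintype.ofFinite _
  have : v = fun _ => (m : ℂ) := by
    apply classFunction_ext (gen_isClass (VZ_gen hv)) (gen_isClass hgen1)
    intro χ
    obtain ⟨c, h1, h2⟩ := hv2 χ
    obtain ⟨k, hk⟩ := gen_inner_int hgen1 (gen_of_char (isCharacter_of_irr χ.2))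
    have hc : c = k • (1 : AZ G) := by
      apply Subtype.ext
      rw [← h1, hk]
      simp
    rw [h2, hk, hc, map_zsmul, hL1]
    simp
  rwa [this] at hv

end Coeff

section Coset

variable {G : Type u} [Group G] [Fintype G] {q : ℕ}

theorem cosetFun_mem (E Q : Subgroup G) (hQE : Q ≤ E) (hE : IsElementary q E)
    (hcomm : ∀ a ∈ E, ∀ b ∈ E, a * b * a⁻¹ * b⁻¹ ∈ Q) {x : G} (hx : x ∈ E) :
    cosetFun x Q ∈ VA q G := by
  classical
  haveI : Fintype E := Fintype.ofFinite E
  let K : Subgroup E := Q.subgroupOf E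
  have hKmem : ∀ a : E, a ∈ K ↔ (a : G) ∈ Q := fun a => Subgroup.mem_subgroupOf
  haveI hKn : K.Normal := by
    refine ⟨fun n hn g => ?_⟩
    rw [hKmem] at hn ⊢
    have h1 := hcomm g g.2 n n.2
    have h2 := Q.mul_mem h1 hn
    simpa using h2
  let W := E ⧸ K
  have hW : ∀ a b : W, a * b = b * a := by
    intro a b
    obtain ⟨a, rfl⟩ := QuotientGroup.mk_surjective a
    obtain ⟨b, rfl⟩ := QuotientGroup.mk_surjective b
    rw [← QuotientGroup.mk_mul, ← QuotientGroup.mk_mul]
    apply QuotientGroup.eq.mpr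
    rw [hKmem]
    have h1 := hcomm _ (b⁻¹).2 _ (a⁻¹).2
    simpa [mul_assoc] using h1
  haveI : Finite (W →* ℂˣ) := finite_dual' hW
  haveI : Fintype (W →* ℂˣ) := Fintype.ofFinite _
  have hcard : Nat.card (W →* ℂˣ) = Nat.card W := by
    letI : CommGroup W := { (inferInstance : Group W) with mul_comm := hW }
    obtain ⟨e⟩ := CommGroup.monoidHom_mulEquiv_of_hasEnoughRootsOfUnity W ℂ
    exact Nat.card_congr e.toEquiv
  let xt : E := ⟨x, hx⟩
  let lam : (W →* ℂˣ) → E → ℂ := fun μ e => ((μ (QuotientGroup.mk e) : ℂˣ) : ℂ)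
  let cc : (W →* ℂˣ) → ℂ := fun μ => ((μ (QuotientGroup.mk xt⁻¹) : ℂˣ) : ℂ)
  let ψ : E → ℂ := ∑ μ : W →* ℂˣ, cc μ • lam μ
  have hψ : ∀ y : E, ψ y = if (x⁻¹ * (y : G) ∈ Q) then (Nat.card W : ℂ) else 0 := by
    intro y
    have h1 : ψ y = ∑ μ : W →* ℂˣ, ((μ (QuotientGroup.mk (xt⁻¹ * y)) : ℂˣ) : ℂ) := by
      simp only [ψ, Finset.sum_apply, Pi.smul_apply, smul_eq_mul, cc, lam]
      refine Finset.sum_congr rfl fun μ _ => ?_
      rw [QuotientGroup.mk_mul, map_mul]
      simp
    have h2 := sum_ann hW (⊥ : Subgroup W) (Finset.univ : Finset (W →* ℂˣ))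
      (fun ω => by simp) (QuotientGroup.mk (xt⁻¹ * y))
    rw [h1, h2]
    have h3 : (QuotientGroup.mk (xt⁻¹ * y) : W) ∈ (⊥ : Subgroup W) ↔ x⁻¹ * (y : G) ∈ Q := by
      rw [Subgroup.mem_bot, QuotientGroup.eq_one_iff, hKmem]
      simp [xt]
    have h4 : ((Finset.univ : Finset (W →* ℂˣ)).card : ℂ) = (Nat.card W : ℂ) := by
      rw [← hcard, Nat.card_eq_fintype_card, Finset.card_univ]
    simp only [h3, h4]
  have hext : ∀ w : G, extendByZero E ψ w =
      if (x⁻¹ * w ∈ Q) then (Nat.card W : ℂ) else 0 := by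
    intro w
    by_cases hw : w ∈ E
    · have h1 := extendByZero_coe E ψ ⟨w, hw⟩
      simp only at h1
      rw [h1, hψ]
    · rw [extendByZero_of_not_mem E _ hw, if_neg]
      intro h
      apply hw
      have := E.mul_mem hx (hQE h)
      simpa using this
  have hEcard : (Nat.card E : ℂ) = (Nat.card W : ℂ) * (Nat.card Q : ℂ) := by
    have h1 := Subgroup.index_mul_card K
    have h2 : Nat.card K = Nat.card Q := Nat.card_congr (Subgroup.subgroupOfEquivOfLe hQE).toEquiv
    rw [← h1, h2]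
    push_cast
    rfl
  have hWne : (Nat.card W : ℂ) ≠ 0 := Nat.cast_ne_zero.mpr Nat.card_pos.ne'
  have heq : cosetFun x Q = indFun E ψ := by
    funext s
    simp only [cosetFun, indFun, hext]
    rw [Finset.sum_ite]
    simp only [Finset.sum_const_zero, add_zero, Finset.sum_const, nsmul_eq_mul]
    rw [hEcard]
    field_simp
  rw [heq]
  have h5 : indFun E ψ = ∑ μ : W →* ℂˣ, cc μ • indFun E (lam μ) := by
    simp only [ψ]
    rw [indFun_sum]
    exact Finset.sum_congr rfl fun μ _ => indFun_smul E _ _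
  rw [h5]
  refine VA_sum _ _ fun μ _ => ?_
  have hcc : cc μ ∈ AZ G := by
    apply root_mem_AZ
    have h6 : (xt⁻¹) ^ (Nat.card G) = 1 := by
      apply Subtype.ext
      simp [pow_card_eq_one', xt]
    simp only [cc]
    rw [← Units.val_pow_eq_pow_val, ← map_pow, ← QuotientGroup.mk_pow, h6]
    simp
  have hlam : IsGeneralizedCharacter E (lam μ) := by
    refine gen_of_char (Cfsg.Agent.H10.isCharacter_of_mul _ (fun a b => ?_) ?_)
    · simp [lam, QuotientGroup.mk_mul, map_mul]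
    · simp only [lam]
      rw [QuotientGroup.mk_one, map_one]
      simp
  have := VA_of_VZ hcc (VZ_ind hE hlam)
  convert this using 1
  funext g
  simp

/-- Cyclic subgroups are elementary. -/
theorem elem_zpowers (hq : q.Prime) (x : G) : IsElementary q (Subgroup.zpowers x) := by
  classical
  obtain ⟨m, a, e, hcard, hm, he1, he2, he3, he4⟩ := exists_decomp (G := G) q hq
  set v : G := x ^ e with hvdef
  have hv : v ^ m = 1 := he3 x
  set u : G := v⁻¹ * x with hudef
  have hu : u ^ (q ^ a) = 1 := he4 x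
  have hx : x = v * u := by simp [hudef]
  have hvu : Commute v u := by
    have h1 : Commute x v := (Commute.refl x).pow_right e
    exact ((Commute.refl v).inv_right).mul_right h1.symm
  have hvmem : v ∈ Subgroup.zpowers x := Subgroup.npow_mem_zpowers x e
  have hcopm : Nat.Coprime (orderOf v) q := by
    have h1 : orderOf v ∣ m := orderOf_dvd_of_pow_eq_one hv
    have h2 : ¬ q ∣ orderOf v := fun h => hm (h.trans h1)
    exact ((Nat.Prime.coprime_iff_not_dvd hq).2 h2).symm
  have hou : orderOf u ∣ q ^ a := orderOf_dvd_of_pow_eq_one hu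
  obtain ⟨b, -, hb⟩ := (Nat.dvd_prime_pow hq).1 hou
  have hcop2 : Nat.Coprime (orderOf v) (orderOf u) := by
    rw [hb]; exact Nat.Coprime.pow_right b hcopm
  have hord : orderOf x = orderOf v * orderOf u := by
    conv_lhs => rw [hx]
    exact hvu.orderOf_mul_eq_mul_orderOf_of_coprime hcop2
  refine ⟨⟨v, hvmem⟩, ?_, ?_, b, ?_⟩
  · rw [Subgroup.mem_center_iff]
    rintro ⟨_, i, rfl⟩
    apply Subtype.ext
    obtain ⟨j, hj⟩ := hvmem
    simp only [Subgroup.coe_mul]
    rw [← hj]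
    simp only
    exact ((Commute.refl x).zpow_zpow i j).eq
  · rw [Subgroup.orderOf_mk]
    exact hcopm
  · have h1 := Subgroup.index_mul_card (Subgroup.zpowers (⟨v, hvmem⟩ : Subgroup.zpowers x))
    rw [Nat.card_zpowers, Subgroup.orderOf_mk, Nat.card_zpowers, hord, mul_comm] at h1
    have hpos : 0 < orderOf v := by
      apply orderOf_pos
    have h2 := Nat.eq_of_mul_eq_mul_left hpos h1
    rw [h2, hb]

theorem cosetFun_bot_mem (hq : q.Prime) (x : G) : cosetFun x ⊥ ∈ VA q G := by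
  refine cosetFun_mem (Subgroup.zpowers x) ⊥ bot_le (elem_zpowers hq x) ?_ (Subgroup.mem_zpowers x)
  rintro _ ⟨i, rfl⟩ _ ⟨j, rfl⟩
  have := ((Commute.refl x).zpow_zpow i j).eq
  simp only at this ⊢
  rw [this]
  simp

/-- Class functions with values in `|G| · ℤ[ζ]` lie in `VA`. -/
theorem class_mem (hq : q.Prime) {c : G → ℂ} (hc : IsClassFunction G c) (hA : ∀ x, c x ∈ AZ G) :
    (fun s => (Nat.card G : ℂ) * c s) ∈ VA q G := by
  classical
  have h1 : (fun s => (Nat.card G : ℂ) * c s) =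
      ∑ x : G, (fun s => c x * cosetFun x ⊥ s) := by
    funext s
    simp only [Finset.sum_apply, cosetFun]
    have h2 : ∀ x : G, c x * ((Nat.card (⊥ : Subgroup G) : ℂ)⁻¹ *
        ((Finset.univ.filter fun g : G => x⁻¹ * (g⁻¹ * s * g) ∈ (⊥ : Subgroup G)).card : ℂ)) =
        ∑ g : G, if g⁻¹ * s * g = x then c x else 0 := by
      intro x
      rw [Subgroup.card_bot]
      simp only [Nat.cast_one, inv_one, one_mul]
      have h3 : ∀ g : G, x⁻¹ * (g⁻¹ * s * g) ∈ (⊥ : Subgroup G) ↔ g⁻¹ * s * g = x := by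
        intro g
        rw [Subgroup.mem_bot, inv_mul_eq_one, eq_comm]
      simp only [h3]
      rw [Finset.sum_ite]
      simp [mul_comm]
    simp only [h2]
    rw [Finset.sum_comm]
    have h4 : ∀ g : G, ∑ x : G, (if g⁻¹ * s * g = x then c x else 0) = c s := by
      intro g
      rw [Finset.sum_ite_eq]
      simp only [Finset.mem_univ, if_true]
      have := hc s g⁻¹
      simpa using this
    simp only [h4, Finset.sum_const, Finset.card_univ, nsmul_eq_mul, Nat.card_eq_fintype_card]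
  rw [h1]
  refine VA_sum _ _ fun x _ => ?_
  exact VA_smul (hA x) (cosetFun_bot_mem hq x)

end Coset

section Decomp

variable {G : Type u} [Group G] [Fintype G] {q : ℕ}

/-- The local function. -/
theorem local_fun (p : ℕ) (hp : p.Prime) {m a e : ℕ} (hcard : Nat.card G = p ^ a * m) (hm : ¬ p ∣ m)
    (he1 : ∀ x : G, x ^ m = 1 → x ^ e = x) (he2 : ∀ u : G, u ^ (p ^ a) = 1 → u ^ e = 1)
    (he4 : ∀ y : G, ((y ^ e)⁻¹ * y) ^ (p ^ a) = 1)
    (x : G) (hx : x ^ m = 1) :
    ∃ T ∈ VA p G, (∀ s, (∀ g : G, g⁻¹ * s ^ e * g ≠ x) → T s = 0) ∧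
      (∀ s, s ^ e = x → ∃ n : ℕ, T s = n ∧ ¬ p ∣ n) := by
  classical
  haveI : Fact p.Prime := ⟨hp⟩
  let Z : Subgroup G := Subgroup.centralizer ({x} : Set G)
  have hZ : ∀ g ∈ Z, x * g = g * x := by
    intro g hg
    exact Subgroup.mem_centralizer_iff.mp hg x rfl
  have hZ' : ∀ g, x * g = g * x → g ∈ Z := by
    intro g hg
    refine Subgroup.mem_centralizer_iff.mpr ?_
    rintro _ rfl
    exact hg
  let P₀ : Sylow p Z := default
  let P : Subgroup G := (P₀ : Subgroup Z).map Z.subtype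
  have hPZ : P ≤ Z := by
    rintro _ ⟨u, -, rfl⟩
    exact u.2
  have hPp : IsPGroup p P := P₀.isPGroup'.map _
  have hPcard : Nat.card P = Nat.card P₀ :=
    Nat.card_congr (Subgroup.equivMapOfInjective _ _ Subtype.val_injective).symm.toEquiv
  obtain ⟨k, hk⟩ := IsPGroup.iff_card.mp hPp
  have hordm : orderOf x ∣ m := orderOf_dvd_of_pow_eq_one hx
  have hordp : ¬ p ∣ orderOf x := fun h => hm (h.trans hordm)
  have hPe : ∀ u ∈ P, u ^ (p ^ a) = 1 := by
    intro u hu
    have h1 : Nat.card P ∣ Nat.card G := Subgroup.card_subgroup_dvd_card P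
    rw [hk, hcard] at h1
    have h2 : (p ^ k).Coprime m := Nat.Coprime.pow_left k ((Nat.Prime.coprime_iff_not_dvd hp).2 hm)
    have h3 : p ^ k ∣ p ^ a := h2.dvd_of_dvd_mul_right h1
    obtain ⟨c, hc⟩ := h3
    have h4 : (⟨u, hu⟩ : P) ^ Nat.card P = 1 := pow_card_eq_one'
    have h5 : u ^ Nat.card P = 1 := by
      have h6 := congrArg Subtype.val h4
      rw [SubmonoidClass.coe_pow] at h6
      exact h6
    rw [hc, pow_mul, ← hk, h5, one_pow]
  -- the key identity for conjugates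
  have hkey : ∀ s g : G, x⁻¹ * (g⁻¹ * s * g) ∈ P → g⁻¹ * s ^ e * g = x := by
    intro s g hw
    have h1 : g⁻¹ * s * g = x * (x⁻¹ * (g⁻¹ * s * g)) := by group
    set w := x⁻¹ * (g⁻¹ * s * g) with hw'
    have hcw : Commute x w := hZ w (hPZ hw)
    rw [← conj_pow', h1, hcw.mul_pow, he1 x hx, he2 w (hPe w hw), mul_one]
  have hxzp : ∀ n ∈ Subgroup.zpowers x, ∀ g ∈ Z, Commute n g := by
    rintro _ ⟨i, rfl⟩ g hg
    exact (show Commute x g from hZ g hg).zpow_left i
  let E : Subgroup G := Subgroup.zpowers x ⊔ P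
  have hEZ : E ≤ Z := by
    refine sup_le ?_ hPZ
    rintro _ ⟨i, rfl⟩
    apply hZ'
    exact ((Commute.refl x).zpow_right i).eq
  have hxE : x ∈ E := (le_sup_left : Subgroup.zpowers x ≤ E) (Subgroup.mem_zpowers x)
  have hnorm : P ≤ Subgroup.normalizer (Subgroup.zpowers x : Set G) := by
    intro u hu
    refine Subgroup.mem_normalizer_iff.mpr fun h => ?_
    have hcomm : ∀ v ∈ P, ∀ n ∈ Subgroup.zpowers x, v * n * v⁻¹ = n := by
      intro v hv n hn
      have := (hxzp n hn v (hPZ hv)).eq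
      rw [← this]
      simp
    constructor
    · intro hh
      rw [hcomm u hu h hh]
      exact hh
    · intro hh
      have h3 := hcomm u⁻¹ (P.inv_mem hu) _ hh
      have h4 : u⁻¹ * (u * h * u⁻¹) * u⁻¹⁻¹ = h := by group
      rw [h4] at h3
      rw [h3]
      exact hh
  have hcop : (Nat.card (Subgroup.zpowers x)).Coprime (Nat.card P) := by
    rw [Nat.card_zpowers, hk]
    exact Nat.Coprime.pow_right k (((Nat.Prime.coprime_iff_not_dvd hp).2 hordp).symm)
  have hEcard : Nat.card (Subgroup.zpowers x) * Nat.card P = Nat.card E :=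
    Cfsg.Agent.H01.card_sup_of_le_normalizer hnorm hcop
  have hEelem : IsElementary p E := by
    refine ⟨⟨x, hxE⟩, ?_, ?_, k, ?_⟩
    · rw [Subgroup.mem_center_iff]
      rintro ⟨g, hg⟩
      apply Subtype.ext
      exact (hZ g (hEZ hg)).symm
    · rw [Subgroup.orderOf_mk]
      exact ((Nat.Prime.coprime_iff_not_dvd hp).2 hordp).symm
    · have h1 := Subgroup.index_mul_card (Subgroup.zpowers (⟨x, hxE⟩ : E))
      rw [Nat.card_zpowers, Subgroup.orderOf_mk, ← hEcard, Nat.card_zpowers, mul_comm] at h1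
      rw [← hk]
      exact Nat.eq_of_mul_eq_mul_left (orderOf_pos x) h1
  have hcomm : ∀ c ∈ E, ∀ d ∈ E, c * d * c⁻¹ * d⁻¹ ∈ P := by
    intro c hc d hd
    obtain ⟨A, hA, u, hu, rfl⟩ := Cfsg.Agent.H01.exists_mul_of_mem_sup hnorm hc
    obtain ⟨B, hB, v, hv, rfl⟩ := Cfsg.Agent.H01.exists_mul_of_mem_sup hnorm hd
    have hAZ := hxzp A hA
    have hBZ := hxzp B hB
    rw [comm_mul_mul (hAZ u (hPZ hu)) (hAZ v (hPZ hv)) (hBZ u (hPZ hu)) (hBZ v (hPZ hv))
      (hAZ B (hEZ ((le_sup_left : Subgroup.zpowers x ≤ E) hB)))]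
    exact P.mul_mem (P.mul_mem (P.mul_mem hu hv) (P.inv_mem hu)) (P.inv_mem hv)
  refine ⟨cosetFun x P, cosetFun_mem E P le_sup_right hEelem hcomm hxE, ?_, ?_⟩
  · intro s hs
    simp only [cosetFun]
    rw [Finset.filter_false_of_mem]
    · simp
    · intro g _ hg
      exact hs g (hkey s g hg)
  · intro s hsx
    -- the `p`-part
    set u := x⁻¹ * s with hu
    have hu1 : u ^ (p ^ a) = 1 := by
      have := he4 s
      rw [hsx] at this
      exact this
    have hxs : Commute x s := by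
      rw [← hsx]
      exact (Commute.refl s).pow_left e
    have hcu : Commute x u := ((Commute.refl x).inv_right).mul_right hxs
    have huZ : u ∈ Z := hZ' u hcu.eq
    let ut : Z := ⟨u, huZ⟩
    have hut : ut ^ (p ^ a) = 1 := Subtype.ext hu1
    obtain ⟨n, hn, hcount⟩ := count_sylow p P₀ ut a hut
    refine ⟨n, ?_, hn⟩
    have hfil : ∀ g : G, x⁻¹ * (g⁻¹ * s * g) ∈ P ↔
        ∃ hg : g ∈ Z, (⟨g, hg⟩ : Z)⁻¹ * ut * ⟨g, hg⟩ ∈ (P₀ : Subgroup Z) := by
      intro g
      have hs : s = x * u := by simp [hu]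
      constructor
      · intro h
        have h1 := hkey s g h
        rw [hsx] at h1
        have hgZ : x * g = g * x := by
          have h2 : g * (g⁻¹ * x * g) = g * x := by rw [h1]
          simpa [mul_assoc] using h2
        refine ⟨hZ' g hgZ, ?_⟩
        have h3 : (g⁻¹ * u * g) = x⁻¹ * (g⁻¹ * s * g) := by
          rw [hs]
          have h4 : g⁻¹ * (x * u) * g = (g⁻¹ * x * g) * (g⁻¹ * u * g) := by group
          rw [h4, h1]
          group
        have h5 : Z.subtype ((⟨g, hZ' g hgZ⟩ : Z)⁻¹ * ut * ⟨g, hZ' g hgZ⟩) ∈ P := by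
          show g⁻¹ * u * g ∈ P
          rw [h3]
          exact h
        exact (Subgroup.mem_map_iff_mem Subtype.val_injective).mp h5
      · rintro ⟨hg, h⟩
        have h5 : Z.subtype ((⟨g, hg⟩ : Z)⁻¹ * ut * ⟨g, hg⟩) ∈ P :=
          Subgroup.mem_map_of_mem _ h
        have h6 : g⁻¹ * u * g ∈ P := h5
        have hgZ : x * g = g * x := hZ g hg
        have h7 : g⁻¹ * x * g = x := by
          rw [mul_assoc, hgZ]
          group
        have h3 : x⁻¹ * (g⁻¹ * s * g) = (g⁻¹ * u * g) := by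
          rw [hs]
          have h4 : g⁻¹ * (x * u) * g = (g⁻¹ * x * g) * (g⁻¹ * u * g) := by group
          rw [h4, h7]
          group
        rw [h3]
        exact h6
    let ε : {g : G // x⁻¹ * (g⁻¹ * s * g) ∈ P} ≃
        {g : Z // g⁻¹ * ut * g ∈ (P₀ : Subgroup Z)} :=
      { toFun := fun g => ⟨⟨g.1, ((hfil g.1).1 g.2).1⟩, ((hfil g.1).1 g.2).2⟩
        invFun := fun g => ⟨g.1.1, (hfil g.1.1).2 ⟨g.1.2, g.2⟩⟩
        left_inv := fun g => rfl
        right_inv := fun g => rfl }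
    have hc2 : (Finset.univ.filter fun g : G => x⁻¹ * (g⁻¹ * s * g) ∈ P).card = n * Nat.card P := by
      rw [← Fintype.card_subtype, ← Nat.card_eq_fintype_card, Nat.card_congr ε, hcount, hPcard]
    simp only [cosetFun]
    rw [hc2]
    have hPne : (Nat.card P : ℂ) ≠ 0 := Nat.cast_ne_zero.mpr Nat.card_pos.ne'
    push_cast
    field_simp

/-- For every prime there is an integer prime to `p` in `VA`. -/
theorem exists_prime_to_mem (p : ℕ) (hp : p.Prime) :
    ∃ m : ℕ, ¬ p ∣ m ∧ (fun _ : G => (m : ℂ)) ∈ VA p G := by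
  classical
  obtain ⟨m, a, e, hcard, hm, he1, he2, he3, he4⟩ := exists_decomp (G := G) p hp
  have hl := fun (x : G) (hx : x ^ m = 1) => local_fun p hp hcard hm he1 he2 he4 x hx
  choose T hT h0 h1 using hl
  haveI : Fintype (ConjClasses G) := Fintype.ofFinite _
  let F : G → ℂ := ∑ c : ConjClasses G,
    if h : (Quotient.out c) ^ m = 1 then T _ h else 0
  have hFmem : F ∈ VA p G := by
    refine VA_sum _ _ fun c _ => ?_
    split_ifs with h
    · exact hT _ h
    · exact (VA p G).zero_mem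
  have hFcl := VA_class hFmem
  have hFval : ∀ s, ∃ n : ℕ, F s = n ∧ ¬ p ∣ n := by
    intro s
    let c₀ : ConjClasses G := ConjClasses.mk (s ^ e)
    let x₀ : G := Quotient.out c₀
    have hc₀ : ConjClasses.mk x₀ = c₀ := Quotient.out_eq c₀
    have hconj : IsConj (s ^ e) x₀ := ConjClasses.mk_eq_mk_iff_isConj.mp hc₀.symm
    obtain ⟨g, hg⟩ := isConj_iff.mp hconj
    have hg' : g * s ^ e * g⁻¹ = x₀ := hg
    have hx₀ : x₀ ^ m = 1 := by
      rw [← hg', conj_pow, he3 s]
      simp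
    have hother : ∀ c : ConjClasses G, c ≠ c₀ →
        (if h : (Quotient.out c) ^ m = 1 then T _ h else 0) s = 0 := by
      intro c hc
      split_ifs with h
      · apply h0
        intro k hk
        apply hc
        have h2 : IsConj (s ^ e) (Quotient.out c) := by
          rw [isConj_iff]
          refine ⟨k⁻¹, ?_⟩
          rw [← hk]
          simp
        have h3 : ConjClasses.mk (Quotient.out c) = c := Quotient.out_eq c
        rw [← h3]
        exact (ConjClasses.mk_eq_mk_iff_isConj.mpr h2).symm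
      · rfl
    have hF : F s = T x₀ hx₀ s := by
      simp only [F, Finset.sum_apply]
      rw [Finset.sum_eq_single c₀ (fun c _ hc => hother c hc) (by simp)]
      rw [dif_pos hx₀]
    have hs' : (g * s * g⁻¹) ^ e = x₀ := by
      rw [conj_pow, hg']
    obtain ⟨n, hn1, hn2⟩ := h1 x₀ hx₀ _ hs'
    refine ⟨n, ?_, hn2⟩
    rw [hF, ← hn1]
    exact (VA_class (hT x₀ hx₀) s g).symm
  refine ⟨m, hm, ?_⟩
  set M := (p ^ a).totient with hM
  have hMpos : M ≠ 0 := (Nat.totient_pos.mpr (pow_pos hp.pos a)).ne'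
  have hf : F ^ M ∈ VA p G := VA_pow hFmem hMpos
  let c : G → ℂ := fun s => (F s ^ M - 1) / ((p ^ a : ℕ) : ℂ)
  have hcl : IsClassFunction G c := by
    intro g h
    simp only [c]
    rw [hFcl g h]
  have hpne : ((p ^ a : ℕ) : ℂ) ≠ 0 := Nat.cast_ne_zero.mpr (pow_pos hp.pos a).ne'
  have hcA : ∀ s, c s ∈ AZ G := by
    intro s
    obtain ⟨n, hn, hn2⟩ := hFval s
    have h1 : n.Coprime (p ^ a) :=
      Nat.Coprime.pow_right a (((Nat.Prime.coprime_iff_not_dvd hp).2 hn2).symm)
    have h2 : n ^ M ≡ 1 [MOD p ^ a] := Nat.ModEq.pow_totient h1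
    have h3 : ((p ^ a : ℕ) : ℤ) ∣ ((n ^ M : ℕ) : ℤ) - ((1 : ℕ) : ℤ) := (Nat.modEq_iff_dvd.mp h2.symm)
    obtain ⟨k, hk⟩ := h3
    have h4 : c s = (k : ℂ) := by
      simp only [c]
      rw [hn, div_eq_iff hpne]
      have h5 : (((n ^ M : ℕ) : ℤ) - ((1 : ℕ) : ℤ) : ℂ) = (((p ^ a : ℕ) : ℤ) * k : ℂ) := by
        exact_mod_cast hk
      push_cast at h5 ⊢
      rw [h5]
      ring
    rw [h4]
    exact int_mem_AZ k
  have hmA : (m : ℂ) ∈ AZ G := by
    have := int_mem_AZ (G := G) (m : ℤ)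
    simpa using this
  have hsub := (VA p G).sub_mem (VA_smul hmA hf) (class_mem hp hcl hcA)
  convert hsub using 1
  funext s
  simp only [Pi.sub_apply, Pi.pow_apply, c]
  rw [hcard]
  push_cast at hpne ⊢
  field_simp
  ring

end Decomp

section Main

variable {G : Type u} [Group G] [Fintype G]

/-- The prime-to-`p` integer in the `ℤ`-span for `p`-elementary subgroups. -/
theorem exists_prime_to_VZ (p : ℕ) (hp : p.Prime) :
    ∃ m : ℕ, ¬ p ∣ m ∧ (fun _ : G => (m : ℂ)) ∈ VZ p G := by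
  obtain ⟨m, hm, hmem⟩ := exists_prime_to_mem (G := G) p hp
  refine ⟨m, hm, ?_⟩
  have := int_mem_VZ_of_VA (G := G) (q := p) (m : ℤ) (by simp only [Int.cast_natCast]; exact hmem)
  simpa using this

theorem list_neg_aux (l : List ((E : Subgroup G) × ((E → ℂ) × ℤ))) :
    -(l.map fun t => (t.2.2 : ℂ) • indFun t.1 t.2.1).sum =
      ((l.map fun t => (⟨t.1, (t.2.1, -t.2.2)⟩ : (E : Subgroup G) × ((E → ℂ) × ℤ))).map
        fun t => (t.2.2 : ℂ) • indFun t.1 t.2.1).sum := by
  induction l with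
  | nil => simp
  | cons a l ih =>
    simp only [List.map_cons, List.sum_cons, neg_add, ih]
    congr 1
    funext g
    simp

theorem exists_list_of_VZ {p : ℕ} {f : G → ℂ} (hf : f ∈ VZ p G) :
    ∃ l : List ((E : Subgroup G) × ((E → ℂ) × ℤ)),
      (∀ t ∈ l, IsElementary p t.1 ∧ IsCharacter t.1 t.2.1) ∧
      f = (l.map fun t => (t.2.2 : ℂ) • indFun t.1 t.2.1).sum := by
  induction hf using AddSubgroup.closure_induction with
  | mem f hf =>
    obtain ⟨E, β, hE, ⟨a, b, ha, hb, rfl⟩, rfl⟩ := hf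
    refine ⟨[⟨E, (a, 1)⟩, ⟨E, (b, -1)⟩], ?_, ?_⟩
    · intro t ht
      simp only [List.mem_cons, List.not_mem_nil, or_false] at ht
      rcases ht with rfl | rfl
      · exact ⟨hE, ha⟩
      · exact ⟨hE, hb⟩
    · simp only [List.map_cons, List.map_nil, List.sum_cons, List.sum_nil]
      rw [indFun_sub']
      funext g
      simp
      ring
  | zero => exact ⟨[], by simp, by simp⟩
  | add f g _ _ h1 h2 =>
    obtain ⟨l1, h11, rfl⟩ := h1
    obtain ⟨l2, h21, rfl⟩ := h2
    refine ⟨l1 ++ l2, ?_, ?_⟩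
    · intro t ht
      rcases List.mem_append.1 ht with h | h
      · exact h11 t h
      · exact h21 t h
    · simp
  | neg f _ h =>
    obtain ⟨l, h1, rfl⟩ := h
    refine ⟨l.map fun t => ⟨t.1, (t.2.1, -t.2.2)⟩, ?_, ?_⟩
    · intro t ht
      obtain ⟨t', ht', rfl⟩ := List.mem_map.1 ht
      exact h1 t' ht'
    · exact list_neg_aux l

/-- Statement S0874. -/
theorem brauer_prime_to (p : ℕ) (hp : p.Prime) :
    ∃ (m : ℤ) (l : List ((E : Subgroup G) × ((E → ℂ) × ℤ))), ¬ (p : ℤ) ∣ m ∧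
      (∀ t ∈ l, IsElementary p t.1 ∧ IsCharacter t.1 t.2.1) ∧
      (fun _ : G => (m : ℂ)) = (l.map fun t => (t.2.2 : ℂ) • indFun t.1 t.2.1).sum := by
  obtain ⟨m, hm, hmem⟩ := exists_prime_to_VZ (G := G) p hp
  obtain ⟨l, h1, h2⟩ := exists_list_of_VZ hmem
  refine ⟨m, l, ?_, h1, ?_⟩
  · intro h
    exact hm (by exact_mod_cast h)
  · rw [← h2]
    simp

end Main

end Cfsg.Agent.H04.BrauerP
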