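import Cfsg.Agent.Lib.H21.GaloisProd
import Cfsg.Agent.Lib.H22.Central
import Cfsg.Agent.Lib.H22.Codegree

/-!
# Burnside's vanishing lemma
-/

set_option autoImplicit false
set_option linter.style.haveILetI false
set_option linter.unusedSectionVars false
set_option linter.unusedSimpArgs false
set_option linter.unusedVariables false

namespace Cfsg.Agent.H04.Cliff

open Cfsg Cfsg.Agent.H21 Module
open scoped ComplexConjugate

universe u

/-- A scaled version of the Galois product. -/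
theorem galois_prod_div (N : ℕ) [NeZero N] (ζ : ℂ) (hζ : IsPrimitiveRoot ζ N) {ι : Type*} [Fintype ι]
    (e : ι → ℕ) (d : ℕ) (hd : d ≠ 0) (hne : ∑ i, ζ ^ e i ≠ 0)
    (hint : IsIntegral ℤ ((∑ i, ζ ^ e i) / (d : ℂ))) :
    1 ≤ ‖∏ u : (ZMod N)ˣ, (∑ i, (ζ ^ (u : ZMod N).val) ^ e i) / (d : ℂ)‖ := by
  classical
  haveI : IsCyclotomicExtension {N} ℚ (CyclotomicField N ℚ) :=
    CyclotomicField.isCyclotomicExtension N ℚ
  haveI : FiniteDimensional ℚ (CyclotomicField N ℚ) :=
    IsCyclotomicExtension.finiteDimensional {N} ℚ _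
  haveI : IsGalois ℚ (CyclotomicField N ℚ) := IsCyclotomicExtension.isGalois {N} ℚ _
  have hζK : IsPrimitiveRoot (IsCyclotomicExtension.zeta N ℚ (CyclotomicField N ℚ)) N :=
    IsCyclotomicExtension.zeta_spec N ℚ (CyclotomicField N ℚ)
  set ζK := IsCyclotomicExtension.zeta N ℚ (CyclotomicField N ℚ) with hζKdef
  have hirr : Irreducible (Polynomial.cyclotomic N ℚ) :=
    Polynomial.cyclotomic.irreducible_rat (NeZero.pos N)
  let σ₀ : (CyclotomicField N ℚ) →ₐ[ℚ] ℂ := (hζK.embeddingsEquivPrimitiveRoots ℂ hirr).symm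
    ⟨ζ, (mem_primitiveRoots (NeZero.pos N)).2 hζ⟩
  have hσ₀ : σ₀ ζK = ζ := by
    have := hζK.embeddingsEquivPrimitiveRoots_apply_coe ℂ hirr σ₀
    rw [← this]
    simp [σ₀]
  let x : (CyclotomicField N ℚ) := (∑ i, ζK ^ e i) / (d : CyclotomicField N ℚ)
  have hσx : σ₀ x = (∑ i, ζ ^ e i) / (d : ℂ) := by
    simp [x, map_sum, map_pow, hσ₀, map_div₀]
  have hx0 : x ≠ 0 := by
    intro h
    have h1 := hσx
    rw [h, map_zero] at h1
    have hd' : (d : ℂ) ≠ 0 := Nat.cast_ne_zero.2 hd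
    exact (div_ne_zero hne hd') h1.symm
  have hxint : IsIntegral ℤ x := by
    have hf : Function.Injective (σ₀.restrictScalars ℤ) := σ₀.toRingHom.injective
    refine (isIntegral_algHom_iff (σ₀.restrictScalars ℤ) hf).1 ?_
    show IsIntegral ℤ (σ₀ x)
    rw [hσx]
    exact hint
  have hnint : IsIntegral ℤ (Algebra.norm ℚ x) := Algebra.isIntegral_norm ℚ hxint
  obtain ⟨n, hn⟩ := IsIntegrallyClosed.isIntegral_iff.1 hnint
  have hn' : Algebra.norm ℚ x = (n : ℚ) := by simpa using hn.symm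
  have hnorm0 : Algebra.norm ℚ x ≠ 0 := Algebra.norm_ne_zero_iff.2 hx0
  have hn0 : n ≠ 0 := by
    rintro rfl
    apply hnorm0
    rw [hn']; simp
  have hprod : (n : ℂ) = ∏ u : (ZMod N)ˣ, (∑ i, (ζ ^ (u : ZMod N).val) ^ e i) / (d : ℂ) := by
    have h1 := Algebra.norm_eq_prod_automorphisms ℚ x
    have h2 := congrArg σ₀ h1
    rw [map_prod, hn'] at h2
    have h3 : σ₀ (algebraMap ℚ (CyclotomicField N ℚ) (n : ℚ)) = (n : ℂ) := by
      rw [AlgHom.commutes]
      simp
    rw [h3] at h2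
    rw [h2]
    refine Fintype.prod_equiv (IsCyclotomicExtension.autEquivPow (CyclotomicField N ℚ) hirr).toEquiv _ _ fun τ => ?_
    have h4 : τ ζK = ζK ^ (IsCyclotomicExtension.autEquivPow (CyclotomicField N ℚ) hirr τ : ZMod N).val :=
      (hζK.autToPow_spec ℚ τ).symm
    simp only [x, map_div₀, map_natCast, map_sum, map_pow, h4, hσ₀]
    rfl
  rw [← hprod]
  have : (1 : ℝ) ≤ |(n : ℝ)| := by
    have h5 : 1 ≤ |n| := Int.one_le_abs hn0
    exact_mod_cast h5
  simpa [Complex.norm_intCast] using this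

/-- Values of a character with integral quotient by `d`. -/
theorem character_galois_div {G : Type u} [Group G] [Finite G] {χ : G → ℂ} (hχ : IsCharacter G χ)
    (g : G) (hne : χ g ≠ 0) (d : ℕ) (hd : d ≠ 0) (hint : IsIntegral ℤ (χ g / (d : ℂ))) :
    1 ≤ ‖∏ u : (ZMod (Nat.card G))ˣ, χ (g ^ (u : ZMod (Nat.card G)).val) / (d : ℂ)‖ := by
  classical
  obtain ⟨dd, ρ, rfl⟩ := hχ
  obtain ⟨ι, _, b, μ, h1, h2, h3, _⟩ := exists_eigenbasis ρ g
  have hN : NeZero (Nat.card G) := ⟨Nat.card_pos.ne'⟩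
  have hζ := Complex.isPrimitiveRoot_exp (Nat.card G) Nat.card_pos.ne'
  set ζ := Complex.exp (2 * Real.pi * Complex.I / (Nat.card G : ℕ)) with hζdef
  have hμN : ∀ i, μ i ^ (Nat.card G) = 1 := by
    intro i
    obtain ⟨c, hc⟩ := orderOf_dvd_natCard g
    rw [hc, pow_mul, h2, one_pow]
  choose e he1 he2 using fun i => hζ.eq_pow_of_pow_eq_one (hμN i)
  have hk : ∀ k : ℕ, ∀ i, ρ (g ^ k) (b i) = (μ i ^ k) • b i := by
    intro k i
    induction k with
    | zero => simp
    | succ k ih =>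
      rw [pow_succ, map_mul, Module.End.mul_apply, h1, map_smul, ih, smul_smul, pow_succ, mul_comm]
  have hchar : ∀ k : ℕ, ρ.character (g ^ k) = ∑ i, (ζ ^ k) ^ e i := by
    intro k
    rw [Representation.character, trace_of_eigenbasis _ b _ (hk k)]
    refine Finset.sum_congr rfl fun i _ => ?_
    rw [← he2 i, ← pow_mul, ← pow_mul, mul_comm]
  have hone := hchar 1
  rw [pow_one, pow_one] at hone
  have hne' : ∑ i, ζ ^ e i ≠ 0 := by rwa [← hone]
  have := galois_prod_div (Nat.card G) ζ hζ e d hd hne' (by rwa [← hone])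
  simp only [hchar]
  exact this

/-- Burnside's lemma. -/
theorem burnside_vanish {G : Type u} [Group G] [Finite G] (χ : IrrCharacter G) (g : G)
    (hc : Nat.Coprime (Subgroup.centralizer ({g} : Set G)).index (charDegree χ.1)) :
    χ.1 g = 0 ∨ ‖χ.1 g‖ = charDegree χ.1 := by
  classical
  haveI := Fintype.ofFinite G
  haveI : Fintype (IrrCharacter G) := Fintype.ofFinite _
  by_contra hcon
  push Not at hcon
  obtain ⟨h0, h1⟩ := hcon
  have hχc := isCharacter_of_irr χ.2
  set d := charDegree χ.1 with hd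
  have hdpos : 0 < d := irr_charDegree_pos χ.2
  have hd0 : (d : ℂ) ≠ 0 := Nat.cast_ne_zero.2 hdpos.ne'
  have hone : χ.1 1 = (d : ℂ) := one_eq_charDegree hχc
  -- integrality
  have hint : IsIntegral ℤ (χ.1 g / (d : ℂ)) := by
    have hgcd := Nat.gcd_eq_gcd_ab (Subgroup.centralizer ({g} : Set G)).index d
    rw [hc.gcd_eq_one] at hgcd
    have h2 := H22.cc_isIntegral g χ
    have h3 : H22.cc g χ = ((Subgroup.centralizer ({g} : Set G)).index : ℂ) * χ.1 g / (d : ℂ) := by
      show centralChar χ.1 g = _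
      rw [centralChar, hone]
    have h4 : χ.1 g / (d : ℂ) =
        ((Nat.gcdA (Subgroup.centralizer ({g} : Set G)).index d : ℤ) : ℂ) * H22.cc g χ +
        ((Nat.gcdB (Subgroup.centralizer ({g} : Set G)).index d : ℤ) : ℂ) * χ.1 g := by
      rw [h3]
      have h5 : (1 : ℂ) = ((Subgroup.centralizer ({g} : Set G)).index : ℂ) *
          ((Nat.gcdA (Subgroup.centralizer ({g} : Set G)).index d : ℤ) : ℂ) +
          (d : ℂ) * ((Nat.gcdB (Subgroup.centralizer ({g} : Set G)).index d : ℤ) : ℂ) := by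
        exact_mod_cast hgcd
      field_simp
      linear_combination h5
    rw [h4]
    exact (IsIntegral.mul (isIntegral_intCast _) h2).add
      (IsIntegral.mul (isIntegral_intCast _) (H22.irr_isIntegral' χ g))
  have hprod := character_galois_div hχc g h0 d hdpos.ne' hint
  rw [norm_prod] at hprod
  have hle : ∀ u : (ZMod (Nat.card G))ˣ, ‖χ.1 (g ^ (u : ZMod (Nat.card G)).val) / (d : ℂ)‖ ≤ 1 := by
    intro u
    rw [norm_div, Complex.norm_natCast, div_le_one (by exact_mod_cast hdpos)]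
    exact isCharacter_norm_le hχc _
  have hlt : ‖χ.1 (g ^ ((1 : (ZMod (Nat.card G))ˣ) : ZMod (Nat.card G)).val) / (d : ℂ)‖ < 1 := by
    have h3 : g ^ ((1 : (ZMod (Nat.card G))ˣ) : ZMod (Nat.card G)).val = g := by
      rw [Units.val_one, ZMod.val_one_eq_one_mod, ← pow_eq_pow_mod 1 pow_card_eq_one', pow_one]
    rw [h3, norm_div, Complex.norm_natCast, div_lt_one (by exact_mod_cast hdpos)]
    exact lt_of_le_of_ne (isCharacter_norm_le hχc _) h1
  have : ∏ u : (ZMod (Nat.card G))ˣ, ‖χ.1 (g ^ (u : ZMod (Nat.card G)).val) / (d : ℂ)‖ < 1 := by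
    rw [← Finset.mul_prod_erase Finset.univ _ (Finset.mem_univ (1 : (ZMod (Nat.card G))ˣ))]
    have h6 : ∏ u ∈ Finset.univ.erase (1 : (ZMod (Nat.card G))ˣ),
        ‖χ.1 (g ^ (u : ZMod (Nat.card G)).val) / (d : ℂ)‖ ≤ 1 :=
      Finset.prod_le_one (fun _ _ => norm_nonneg _) (fun u _ => hle u)
    calc _ ≤ ‖χ.1 (g ^ ((1 : (ZMod (Nat.card G))ˣ) : ZMod (Nat.card G)).val) / (d : ℂ)‖ * 1 :=
          mul_le_mul_of_nonneg_left h6 (norm_nonneg _)
      _ < 1 := by rw [mul_one]; exact hlt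
  exact absurd hprod (not_le.2 this)

/-- Faithful characters of groups with trivial center. -/
theorem norm_eq_degree_one {G : Type u} [Group G] [Finite G] (χ : IrrCharacter G)
    (hker : charKer χ.1 (isCharacter_of_irr χ.2) = ⊥) (hZ : Subgroup.center G = ⊥) {g : G}
    (h : ‖χ.1 g‖ = charDegree χ.1) : g = 1 := by
  classical
  obtain ⟨n, ρ, hρ, hχ⟩ := χ.2
  have hd : charDegree χ.1 = n := by
    rw [← hχ]
    simp [charDegree, Representation.char_one]
  have h1 : ‖ρ.character g‖ = (finrank ℂ (Fin n → ℂ) : ℝ) := by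
    rw [hχ, h, hd]
    simp
  obtain ⟨c, hc⟩ := (norm_character_eq_finrank_iff ρ g).1 h1
  have hgc : g ∈ Subgroup.center G := by
    rw [Subgroup.mem_center_iff]
    intro k
    have h2 : ρ (k * g * k⁻¹ * g⁻¹) = 1 := by
      have hcu : ρ g * ρ g⁻¹ = 1 := by rw [← map_mul]; simp
      simp only [map_mul]
      rw [hc] at hcu ⊢
      have h3 : ρ k * (c • 1) = (c • 1) * ρ k := by
        ext v
        simp
      rw [h3]
      have h4 : ρ k * ρ k⁻¹ = 1 := by rw [← map_mul]; simp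
      calc (c • (1 : End ℂ (Fin n → ℂ))) * ρ k * ρ k⁻¹ * ρ g⁻¹
          = (c • (1 : End ℂ (Fin n → ℂ))) * (ρ k * ρ k⁻¹) * ρ g⁻¹ := by simp only [mul_assoc]
        _ = 1 := by rw [h4, mul_one, hcu]
    have h3 : k * g * k⁻¹ * g⁻¹ ∈ charKer χ.1 (isCharacter_of_irr χ.2) := by
      rw [mem_charKer, ← hχ]
      show ρ.character _ = ρ.character 1
      rw [Representation.character, Representation.character, h2, ρ.map_one]
    rw [hker, Subgroup.mem_bot] at h3
    have h4 : k * g * k⁻¹ = g := by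
      have := mul_eq_one_iff_eq_inv.1 h3
      simpa using this
    calc k * g = k * g * k⁻¹ * k := by group
      _ = g * k := by rw [h4]
  rw [hZ, Subgroup.mem_bot] at hgc
  exact hgc

end Cfsg.Agent.H04.Cliff
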