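import Cfsg.Agent.Lib.H04.Cliff.Degree
import Cfsg.Agent.Lib.H23.Ito2

/-!
# Invariant characters and abelian chief factors: the trichotomy
-/

set_option autoImplicit false
set_option linter.style.haveILetI false
set_option linter.unusedSectionVars false
set_option linter.unusedSimpArgs false
set_option linter.unusedVariables false

namespace Cfsg.Agent.H04.Cliff

open Cfsg Cfsg.Agent.H21 Cfsg.Agent.H06 Module
open scoped ComplexConjugate

universe u

variable {T : Type u} [Group T] [Fintype T] (H : Subgroup T) [hN : H.Normal]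

/-- Restriction of an automorphism preserving `H` (as does its inverse). -/
noncomputable def resAut (A : Subgroup (MulAut T)) (hAH : ∀ σ ∈ A, ∀ x ∈ H, σ x ∈ H)
    (σ : MulAut T) (hσ : σ ∈ A) : H →* H :=
  ((σ : T →* T).comp H.subtype).codRestrict H (fun x => hAH σ hσ x x.2)

theorem resAut_coe (A : Subgroup (MulAut T)) (hAH : ∀ σ ∈ A, ∀ x ∈ H, σ x ∈ H)
    (σ : MulAut T) (hσ : σ ∈ A) (x : H) : (resAut H A hAH σ hσ x : T) = σ x := rfl

theorem resAut_bij (A : Subgroup (MulAut T)) (hAH : ∀ σ ∈ A, ∀ x ∈ H, σ x ∈ H)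
    (σ : MulAut T) (hσ : σ ∈ A) : Function.Bijective (resAut H A hAH σ hσ) := by
  constructor
  · intro x y hxy
    apply Subtype.ext
    have := congrArg (Subtype.val) hxy
    simp only [resAut_coe] at this
    exact σ.injective this
  · intro y
    refine ⟨⟨σ⁻¹ y, hAH σ⁻¹ (A.inv_mem hσ) y y.2⟩, ?_⟩
    apply Subtype.ext
    rw [resAut_coe]
    simp

/-- All constituents of the restriction are conjugate. -/
theorem constituent_conj [Fintype H] {ϑ : T → ℂ} (hϑ : IsIrrCharacter T ϑ)
    {φ φ₂ : H → ℂ} (hφ : IsIrrCharacter H φ) (hφ₂ : IsIrrCharacter H φ₂)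
    (h1 : classInner (fun x : H => ϑ x) φ ≠ 0) (h2 : classInner (fun x : H => ϑ x) φ₂ ≠ 0) :
    ∃ y : T, φ₂ = twist H φ y := by
  classical
  haveI : Fintype (IrrCharacter T) := Fintype.ofFinite _
  by_contra hcon
  push Not at hcon
  have h0 := classInner_indFun_eq_zero_of_not_conj (H := H) hφ hφ₂ hcon
  have hc : ∀ {θ : H → ℂ}, IsIrrCharacter H θ → classInner (fun x : H => ϑ x) θ ≠ 0 →
      classInner (indFun H θ) ϑ ≠ 0 := by
    intro θ hθ hne
    rw [frobenius_reciprocity H θ ϑ (isClassFunction_of_isCharacter (isCharacter_of_irr hϑ))]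
    intro h
    apply hne
    rw [← classInner_comm_conj, h]
    simp
  have := no_common_of_orthogonal (isCharacter_indFun H (isCharacter_of_irr hφ₂))
    (isCharacter_indFun H (isCharacter_of_irr hφ)) h0 ⟨ϑ, hϑ⟩ (hc hφ₂ h2)
  exact hc hφ h1 this

/-- The inertia group of a constituent is invariant under the automorphisms preserving `ϑ`. -/
theorem inert_invariant [Fintype H] (A : Subgroup (MulAut T)) (hAH : ∀ σ ∈ A, ∀ x ∈ H, σ x ∈ H)
    (hab : ∀ x y : T, x * y * x⁻¹ * y⁻¹ ∈ H)
    {ϑ : T → ℂ} (hϑ : IsIrrCharacter T ϑ) (hinv : ∀ σ ∈ A, ∀ x, ϑ (σ x) = ϑ x)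
    {φ : H → ℂ} (hφ : IsIrrCharacter H φ) (h1 : classInner (fun x : H => ϑ x) φ ≠ 0) :
    ∀ σ ∈ A, ∀ x ∈ inertG H φ, σ x ∈ inertG H φ := by
  classical
  intro σ hσ x hx
  have hbij := resAut_bij H A hAH σ hσ
  set f := resAut H A hAH σ hσ with hf
  haveI : Fintype (IrrCharacter H) := Fintype.ofFinite _
  haveI : Fintype (IrrCharacter T) := Fintype.ofFinite _
  have hφ₂ : IsIrrCharacter H (φ ∘ f) := isIrrCharacter_comp_of_surjective f hbij.2 hφ
  have h2 : classInner (fun x : H => ϑ x) (φ ∘ f) ≠ 0 := by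
    have : classInner (fun x : H => ϑ x) (φ ∘ f) = classInner (fun x : H => ϑ x) φ := by
      unfold classInner
      congr 1
      have := Equiv.sum_comp (Equiv.ofBijective f hbij) (fun y : H => ϑ y * conj (φ y))
      rw [← this]
      refine Finset.sum_congr rfl fun y _ => ?_
      simp only [Equiv.ofBijective_apply, Function.comp_apply]
      rw [show ((f y : H) : T) = σ y from rfl, hinv σ hσ]
    rw [this]
    exact h1
  obtain ⟨y, hy⟩ := constituent_conj H hϑ hφ hφ₂ h1 h2
  have hy' : ∀ h : H, φ (f h) = φ ⟨y * h * y⁻¹, hN.conj_mem h h.2 y⟩ := by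
    intro h
    have := congrFun hy h
    simpa [twist_def] using this
  have hcl := isClassFunction_of_isCharacter (isCharacter_of_irr hφ)
  rw [mem_inertG]
  intro h
  obtain ⟨h₀, rfl⟩ := hbij.2 h
  -- the conjugate of `f h₀` by `σ x` is `f (x h₀ x⁻¹)`
  have e1 : (⟨σ x * (f h₀ : T) * (σ x)⁻¹, hN.conj_mem _ (f h₀).2 _⟩ : H) =
      f ⟨x * h₀ * x⁻¹, hN.conj_mem h₀ h₀.2 x⟩ := by
    apply Subtype.ext
    simp [hf, resAut_coe]
  rw [e1, hy' ⟨x * h₀ * x⁻¹, hN.conj_mem h₀ h₀.2 x⟩, hy' h₀]
  -- `y x y⁻¹ = x k` with `k ∈ H`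
  have hk : x⁻¹ * (y * x * y⁻¹) ∈ H := by
    have := hab x⁻¹ y
    simpa [mul_assoc] using this
  set k : H := ⟨x⁻¹ * (y * x * y⁻¹), hk⟩ with hkdef
  set h₁ : H := ⟨y * h₀ * y⁻¹, hN.conj_mem h₀ h₀.2 y⟩ with hh₁
  have e2 : (⟨y * (x * h₀ * x⁻¹) * y⁻¹,
      hN.conj_mem _ (hN.conj_mem h₀ h₀.2 x) y⟩ : H) =
      ⟨x * ((k * h₁ * k⁻¹ : H) : T) * x⁻¹, hN.conj_mem _ (k * h₁ * k⁻¹ : H).2 x⟩ := by
    apply Subtype.ext
    simp only [hkdef, hh₁, Subgroup.coe_mul, Subgroup.coe_inv]
    group
  show φ ⟨y * (x * h₀ * x⁻¹) * y⁻¹, _⟩ = φ h₁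
  rw [e2]
  rw [mem_inertG] at hx
  rw [hx (k * h₁ * k⁻¹), hcl h₁ k]

/-- **Trichotomy for invariant characters over abelian chief factors**, in the abstract form. -/
theorem chief_trichotomy
    (A : Subgroup (MulAut T))
    (hAH : ∀ σ ∈ A, ∀ x ∈ H, σ x ∈ H)
    (hchief : ∀ M : Subgroup T, H ≤ M → (∀ σ ∈ A, ∀ x ∈ M, σ x ∈ M) → M = H ∨ M = ⊤)
    (hab : ∀ x y : T, x * y * x⁻¹ * y⁻¹ ∈ H)
    {ϑ : T → ℂ} (hϑ : IsIrrCharacter T ϑ)
    (hinv : ∀ σ ∈ A, ∀ x, ϑ (σ x) = ϑ x) :
    IsIrrCharacter H (fun x : H => ϑ x) ∨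
    (∃ (φ : H → ℂ) (e : ℕ), IsIrrCharacter H φ ∧ (fun x : H => ϑ x) = (e : ℂ) • φ ∧
      e ^ 2 = H.index) ∨
    (∃ F : Finset (H → ℂ), (∀ φ ∈ F, IsIrrCharacter H φ) ∧ F.card = H.index ∧
      (fun x : H => ϑ x) = ∑ φ ∈ F, φ) := by
  classical
  haveI : Fintype H := Fintype.ofFinite _
  haveI : Fintype (T ⧸ H) := Fintype.ofFinite _
  haveI : Fintype (IrrCharacter (T ⧸ H)) := Fintype.ofFinite _
  haveI : Fintype (IrrCharacter H) := Fintype.ofFinite _
  haveI : Fintype (IrrCharacter T) := Fintype.ofFinite _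
  obtain ⟨φ, hφ, h1⟩ := Cfsg.Agent.H23.exists_constituent H hϑ
  have hcard : Nat.card H * H.index = Nat.card T := Subgroup.card_mul_index H
  have hHne : (Nat.card H : ℂ) ≠ 0 := by simp [Nat.card_pos.ne']
  have hTne : (Nat.card T : ℂ) ≠ 0 := by simp [Nat.card_pos.ne']
  have hcl := isClassFunction_of_isCharacter (isCharacter_of_irr hφ)
  have hcind : classInner (indFun H φ) ϑ ≠ 0 := by
    rw [frobenius_reciprocity H φ ϑ (isClassFunction_of_isCharacter (isCharacter_of_irr hϑ))]
    intro h
    apply h1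
    rw [← classInner_comm_conj, h]
    simp
  have hS := inert_invariant H A hAH hab hϑ hinv hφ h1
  have hHS : H ≤ inertG H φ := by
    intro x hx
    rw [mem_inertG]
    intro h
    exact hcl h ⟨x, hx⟩
  rcases hchief _ hHS hS with hSH | hST
  · -- the induced case
    right; right
    have hst : ∀ x : T, twist H φ x = φ → x ∈ H := by
      intro x hx
      rw [← hSH, mem_inertG]
      intro h
      have := congrFun hx h
      simpa [twist_def] using this
    have hind := isIrr_indFun_of_stabilizer_le H hφ hst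
    have heq : indFun H φ = ϑ := by
      by_contra hne
      exact hcind (classInner_irr_ne hind hϑ hne)
    have hstab : Nat.card {g : T // ∀ h : H, φ ⟨g * h * g⁻¹, hN.conj_mem h h.2 g⟩ = φ h} =
        Nat.card H := by
      apply Nat.card_congr
      refine Equiv.subtypeEquivRight fun g => ?_
      rw [← mem_inertG, hSH]
    have hres : (fun x : H => ϑ x) = ∑ ψ ∈ Finset.univ.image (twist H φ), ψ := by
      rw [← heq, indFun_restrict_eq_sum_twist, sum_twist_eq_card_smul_sum, hstab, smul_smul,
        inv_mul_cancel₀ hHne, one_smul]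
      convert rfl
    refine ⟨Finset.univ.image (twist H φ), ?_, ?_, hres⟩
    · intro ψ hψ
      obtain ⟨g, -, rfl⟩ := Finset.mem_image.mp hψ
      exact isIrrCharacter_twist H hφ g
    · have h2 := congrFun hres 1
      have h3 : ∀ ψ ∈ Finset.univ.image (twist H φ), ψ 1 = φ 1 := by
        intro ψ hψ
        obtain ⟨g, -, rfl⟩ := Finset.mem_image.mp hψ
        rw [twist_def]
        show φ _ = φ _
        congr 1
        apply Subtype.ext
        simp
      simp only [Finset.sum_apply] at h2
      rw [Finset.sum_congr rfl h3, Finset.sum_const] at h2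
      have h4 : ϑ ((1 : H) : T) = (H.index : ℂ) * φ 1 := by
        rw [← heq, indFun_coe_eq_sum_twist]
        have h5 : ∀ g : T, twist H φ g 1 = φ 1 := by
          intro g
          rw [twist_def]
          show φ _ = φ _
          congr 1
          apply Subtype.ext
          simp
        simp only [h5, Finset.sum_const, Finset.card_univ, nsmul_eq_mul]
        rw [← Nat.card_eq_fintype_card, ← hcard]
        push_cast
        field_simp
      rw [h4, nsmul_eq_mul] at h2
      have h6 := mul_right_cancel₀ (irr_one_ne_zero' hφ) h2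
      exact_mod_cast h6.symm
  · -- the invariant case
    have hinv' : ∀ t : T, twist H φ t = φ := by
      intro t
      have ht : t ∈ inertG H φ := by rw [hST]; trivial
      rw [mem_inertG] at ht
      funext h
      rw [twist_def]
      exact ht h
    obtain ⟨e, he, hinner, hres⟩ := clifford_restrict H hφ hϑ hinv' hcind
    have hresfun : (fun x : H => ϑ x) = (e : ℂ) • φ := by
      funext x
      simp [hres x]
    -- the support subgroup
    let W : Subgroup T := Subgroup.closure ((H : Set T) ∪ {x | ϑ x ≠ 0})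
    have hHW : H ≤ W := fun x hx => Subgroup.subset_closure (Or.inl hx)
    have hWinv : ∀ σ ∈ A, ∀ x ∈ W, σ x ∈ W := by
      intro σ hσ x hx
      induction hx using Subgroup.closure_induction with
      | mem x hx =>
        rcases hx with hx | hx
        · exact hHW (hAH σ hσ x hx)
        · apply Subgroup.subset_closure
          right
          show ϑ (σ x) ≠ 0
          rw [hinv σ hσ]
          exact hx
      | one => simp [W.one_mem]
      | mul x y _ _ hx hy => rw [map_mul]; exact W.mul_mem hx hy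
      | inv x _ hx => rw [map_inv]; exact W.inv_mem hx
    rcases hchief W hHW hWinv with hWH | hWT
    · -- ϑ vanishes off H
      right; left
      refine ⟨φ, e, hφ, hresfun, ?_⟩
      have hvan : ∀ x : T, x ∉ H → ϑ x = 0 := by
        intro x hx
        by_contra hne
        apply hx
        rw [← hWH]
        exact Subgroup.subset_closure (Or.inr hne)
      have h2 := classInner_irr_self hϑ
      have h3 := classInner_irr_self hφ
      unfold classInner at h2 h3
      have h4 : ∑ g : T, ϑ g * conj (ϑ g) = ∑ h : H, ϑ h * conj (ϑ h) := by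
        rw [← Finset.sum_subtype (Finset.univ.filter (· ∈ H)) (by simp)
          (fun g : T => ϑ g * conj (ϑ g))]
        rw [Finset.sum_filter]
        refine Finset.sum_congr rfl fun x _ => ?_
        split_ifs with hx
        · rfl
        · simp [hvan x hx]
      have h5 : ∑ h : H, ϑ h * conj (ϑ h) = (e : ℂ) ^ 2 * ∑ h : H, φ h * conj (φ h) := by
        rw [Finset.mul_sum]
        refine Finset.sum_congr rfl fun h _ => ?_
        rw [hres h, map_mul, Complex.conj_natCast]
        ring
      rw [h4, h5] at h2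
      have h6 : ∑ h : H, φ h * conj (φ h) = (Nat.card H : ℂ) := by
        field_simp at h3
        linear_combination h3
      rw [h6] at h2
      have h7 : (Nat.card T : ℂ) = (e : ℂ) ^ 2 * (Nat.card H : ℂ) := by
        field_simp at h2
        linear_combination -h2
      have h8 : Nat.card T = e ^ 2 * Nat.card H := by exact_mod_cast h7
      rw [← hcard, mul_comm] at h8
      exact (Nat.eq_of_mul_eq_mul_right Nat.card_pos h8).symm
    · -- only the trivial twist fixes ϑ
      left
      have hQ : ∀ a b : T ⧸ H, a * b = b * a := by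
        intro a b
        obtain ⟨x, rfl⟩ := QuotientGroup.mk_surjective a
        obtain ⟨y, rfl⟩ := QuotientGroup.mk_surjective b
        have h1 : ((x * y : T) : T ⧸ H) = ((y * x : T) : T ⧸ H) := by
          apply QuotientGroup.eq.mpr
          have h2 := hab y⁻¹ x⁻¹
          have h3 : (x * y)⁻¹ * (y * x) = y⁻¹ * x⁻¹ * y⁻¹⁻¹ * x⁻¹⁻¹ := by group
          rw [h3]
          exact h2
        exact h1
      have hsum := sum_linear_mul_eq H hinv' hab hres
      have hlin : ∀ l : IrrCharacter (T ⧸ H),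
          IsCharacter T (fun t : T => (l : T ⧸ H → ℂ) (t : T ⧸ H)) :=
        fun l => isCharacter_comp (QuotientGroup.mk' H) (isCharacter_of_irr l.2)
      have hlindeg : ∀ l : IrrCharacter (T ⧸ H),
          charDegree (fun t : T => (l : T ⧸ H → ℂ) (t : T ⧸ H)) = 1 := by
        intro l
        have h1 := irr_degree_one_of_comm hQ l.2
        simpa [charDegree] using h1
      have htw : ∀ l : IrrCharacter (T ⧸ H),
          IsIrrCharacter T (fun t : T => (l : T ⧸ H → ℂ) (t : T ⧸ H) * ϑ t) :=
        fun l => isIrr_linear_mul hϑ (hlin l) (hlindeg l)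
      -- an `l` fixing ϑ is trivial
      have hfix : ∀ l : IrrCharacter (T ⧸ H),
          (fun t : T => (l : T ⧸ H → ℂ) (t : T ⧸ H) * ϑ t) = ϑ →
          ∀ q : T ⧸ H, (l : T ⧸ H → ℂ) q = 1 := by
        intro l hl
        have hone := linear_one (isCharacter_of_irr l.2) (irr_degree_one_of_comm hQ l.2)
        have hmul : ∀ a b : T ⧸ H, (l : T ⧸ H → ℂ) (a * b) = (l : T ⧸ H → ℂ) a * (l : T ⧸ H → ℂ) b :=
          fun a b => linear_mul (isCharacter_of_irr l.2) (irr_degree_one_of_comm hQ l.2) a b
        have hW : ∀ x ∈ W, (l : T ⧸ H → ℂ) (x : T ⧸ H) = 1 := by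
          intro x hx
          induction hx using Subgroup.closure_induction with
          | mem x hx =>
            rcases hx with hx | hx
            · rw [(QuotientGroup.eq_one_iff x).mpr hx, hone]
            · have := congrFun hl x
              exact mul_right_cancel₀ hx (by rw [this, one_mul])
          | one => simpa using hone
          | mul x y _ _ hx hy =>
            rw [QuotientGroup.mk_mul, hmul, hx, hy, one_mul]
          | inv x _ hx =>
            have h5 := hmul ((x⁻¹ : T) : T ⧸ H) (x : T ⧸ H)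
            rw [← QuotientGroup.mk_mul, inv_mul_cancel, hx, mul_one] at h5
            rw [← h5]
            simpa using hone
        intro q
        obtain ⟨x, rfl⟩ := QuotientGroup.mk_surjective q
        exact hW x (by rw [hWT]; trivial)
      -- the sum
      have h2 : (e : ℂ) * e = ∑ l : IrrCharacter (T ⧸ H),
          classInner (fun t : T => (l : T ⧸ H → ℂ) (t : T ⧸ H) * ϑ t) ϑ := by
        have h3 : classInner (∑ l : IrrCharacter (T ⧸ H),
            (fun t : T => (l : T ⧸ H → ℂ) (t : T ⧸ H) * ϑ t)) ϑ =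
            ∑ l : IrrCharacter (T ⧸ H),
              classInner (fun t : T => (l : T ⧸ H → ℂ) (t : T ⧸ H) * ϑ t) ϑ := by
          rw [classInner_sum_left]
        rw [← h3, hsum, classInner_smul_left, hinner]
      have h4 : ∀ l : IrrCharacter (T ⧸ H),
          classInner (fun t : T => (l : T ⧸ H → ℂ) (t : T ⧸ H) * ϑ t) ϑ =
            if (fun t : T => (l : T ⧸ H → ℂ) (t : T ⧸ H) * ϑ t) = ϑ then 1 else 0 := fun l =>
        classInner_irr_fun (htw l) hϑ
      simp only [h4] at h2
      rw [Finset.sum_boole] at h2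
      have h5 : (Finset.univ.filter fun l : IrrCharacter (T ⧸ H) =>
          (fun t : T => (l : T ⧸ H → ℂ) (t : T ⧸ H) * ϑ t) = ϑ).card ≤ 1 := by
        rw [Finset.card_le_one]
        intro a ha b hb
        apply Subtype.ext
        funext q
        rw [hfix a (Finset.mem_filter.mp ha).2 q, hfix b (Finset.mem_filter.mp hb).2 q]
      have h6 : e * e = (Finset.univ.filter fun l : IrrCharacter (T ⧸ H) =>
          (fun t : T => (l : T ⧸ H → ℂ) (t : T ⧸ H) * ϑ t) = ϑ).card := by exact_mod_cast h2
      have h7 : e = 1 := by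
        have h8 : e * e ≤ 1 := h6 ▸ h5
        have : 0 < e := Nat.pos_of_ne_zero he
        nlinarith
      rw [hresfun, h7]
      simpa using hφ

end Cfsg.Agent.H04.Cliff
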