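import Cfsg.Agent.Lib.H03.Orbit
import Cfsg.Agent.Lib.H22.Orbit
import Mathlib.Algebra.MonoidAlgebra.Basic

/-!
# Nilpotent class sums: the flag attached to a normal `p`-subgroup
-/

set_option autoImplicit false
set_option linter.style.haveILetI false
set_option linter.unusedSectionVars false
set_option linter.unusedSimpArgs false
set_option linter.unusedVariables false

namespace Cfsg.Agent.H04.Cliff

universe u

section Flag

variable {G : Type*} [Group G] {F : Type*} [Field F]

/-- The group element in the group algebra. -/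
noncomputable abbrev br (F : Type*) [Field F] {G : Type*} [Group G] (x : G) : MonoidAlgebra F G :=
  MonoidAlgebra.single x 1

theorem br_mul (x y : G) : br F x * br F y = br F (x * y) := by
  rw [MonoidAlgebra.single_mul_single, one_mul]

theorem br_one : br F (1 : G) = 1 := rfl

/-- The ascending flag. -/
noncomputable def WW (F : Type*) [Field F] {G : Type*} [Group G] (P : Subgroup G) :
    ℕ → Submodule F (MonoidAlgebra F G)
  | 0 => ⊥
  | i + 1 =>
    { carrier := {v | ∀ u ∈ P, br F u * v - v ∈ WW F P i}
      add_mem' := by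
        intro a b ha hb u hu
        have := (WW F P i).add_mem (ha u hu) (hb u hu)
        rw [mul_add]
        convert this using 1
        abel
      zero_mem' := by
        intro u hu
        simp
      smul_mem' := by
        intro c a ha u hu
        have := (WW F P i).smul_mem c (ha u hu)
        rw [mul_smul_comm, ← smul_sub]
        exact this }

theorem mem_WW_succ {P : Subgroup G} {i : ℕ} {v : MonoidAlgebra F G} :
    v ∈ WW F P (i + 1) ↔ ∀ u ∈ P, br F u * v - v ∈ WW F P i := Iff.rfl

variable {P : Subgroup G} [hP : P.Normal]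

theorem WW_stable (i : ℕ) (x : G) {v : MonoidAlgebra F G} (hv : v ∈ WW F P i) :
    br F x * v ∈ WW F P i := by
  induction i generalizing x v with
  | zero =>
    have : v = 0 := (Submodule.mem_bot F).1 hv
    rw [this, mul_zero]
    exact Submodule.zero_mem _
  | succ i ih =>
    rw [mem_WW_succ] at hv ⊢
    intro u hu
    have h1 := hv (x⁻¹ * u * x) (by
      have := hP.conj_mem u hu x⁻¹
      simpa using this)
    have h2 := ih x h1
    have e : x * (x⁻¹ * u * x) = u * x := by group
    have h3 : br F x * (br F (x⁻¹ * u * x) * v - v) = br F u * (br F x * v) - br F x * v := by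
      calc br F x * (br F (x⁻¹ * u * x) * v - v)
          = (br F x * br F (x⁻¹ * u * x)) * v - br F x * v := by
            rw [mul_sub]; congr 1; exact (mul_assoc _ _ _).symm
        _ = br F (u * x) * v - br F x * v := by rw [br_mul, e]
        _ = br F u * (br F x * v) - br F x * v := by rw [← mul_assoc, br_mul]
    rwa [h3] at h2

theorem WW_le_succ (i : ℕ) : WW F P i ≤ WW F P (i + 1) := by
  intro v hv u hu
  exact Submodule.sub_mem _ (WW_stable i u hv) hv

/-- The action on a quotient. -/
noncomputable def quotAct (i : ℕ) : P →* Module.End F (MonoidAlgebra F G ⧸ WW F P i) where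
  toFun u := Submodule.mapQ (WW F P i) (WW F P i) (LinearMap.mulLeft F (br F (u : G)))
    (fun v hv => WW_stable i (u : G) hv)
  map_one' := by
    ext q
    simp [br_one]
  map_mul' := by
    intro u w
    apply LinearMap.ext
    intro q
    obtain ⟨v, rfl⟩ := Submodule.Quotient.mk_surjective _ q
    simp only [Module.End.mul_apply, Submodule.mapQ_apply, LinearMap.mulLeft_apply, Subgroup.coe_mul]
    congr 1
    simp only [LinearMap.mulLeft_apply]
    rw [← mul_assoc, br_mul]

/-- Strict growth of the flag. -/
theorem WW_lt_succ [Finite P] {p : ℕ} [hp : Fact p.Prime] [CharP F p] (hPp : IsPGroup p P) (i : ℕ)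
    (hne : WW F P i ≠ ⊤) : WW F P i < WW F P (i + 1) := by
  classical
  refine lt_of_le_of_ne (WW_le_succ i) ?_
  intro heq
  obtain ⟨v₀, hv₀⟩ : ∃ v₀, v₀ ∉ WW F P i := by
    by_contra hc
    push Not at hc
    exact hne (eq_top_iff.2 fun v _ => hc v)
  letI inst : DistribMulAction P (MonoidAlgebra F G ⧸ WW F P i) :=
    { smul := fun u q => quotAct i u q
      one_smul := fun q => by
        show quotAct i 1 q = q
        rw [map_one]; rfl
      mul_smul := fun u w q => by
        show quotAct i (u * w) q = quotAct i u (quotAct i w q)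
        rw [map_mul]; rfl
      smul_zero := fun u => map_zero (quotAct i u)
      smul_add := fun u a b => map_add (quotAct i u) a b }
  have hact : ∀ (u : P) (v : MonoidAlgebra F G),
      u • (Submodule.Quotient.mk v : MonoidAlgebra F G ⧸ WW F P i) =
        Submodule.Quotient.mk (br F (u : G) * v) := fun u v => rfl
  have htors : ∀ m : MonoidAlgebra F G ⧸ WW F P i, p • m = 0 := by
    intro m
    rw [← Nat.cast_smul_eq_nsmul F, CharP.cast_eq_zero, zero_smul]
  have hq0 : (Submodule.Quotient.mk v₀ : MonoidAlgebra F G ⧸ WW F P i) ≠ 0 := by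
    rwa [Ne, Submodule.Quotient.mk_eq_zero]
  obtain ⟨q, -, hq, hfix⟩ := Cfsg.Agent.H03.exists_fixed_of_pgroup hPp htors _ hq0
  obtain ⟨v, rfl⟩ := Submodule.Quotient.mk_surjective _ q
  apply hq
  rw [Submodule.Quotient.mk_eq_zero, heq, mem_WW_succ]
  intro u hu
  have h1 := hfix ⟨u, hu⟩
  rw [hact, ← sub_eq_zero, ← Submodule.Quotient.mk_sub, Submodule.Quotient.mk_eq_zero] at h1
  exact h1

/-- The flag reaches the whole algebra. -/
theorem WW_top [Finite G] {p : ℕ} [hp : Fact p.Prime] [CharP F p] (hPp : IsPGroup p P) :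
    ∃ n, WW F P n = ⊤ := by
  classical
  haveI : Module.Finite F (MonoidAlgebra F G) := by
    haveI : Finite G := inferInstance
    exact Module.Finite.equiv (MonoidAlgebra.coeffLinearEquiv F).symm
  have key : ∀ i, WW F P i = ⊤ ∨ i ≤ Module.finrank F (WW F P i) := by
    intro i
    induction i with
    | zero => right; exact Nat.zero_le _
    | succ i ih =>
      rcases ih with h | h
      · left
        exact eq_top_iff.2 (h ▸ WW_le_succ i)
      · by_cases htop : WW F P i = ⊤
        · left
          exact eq_top_iff.2 (htop ▸ WW_le_succ i)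
        · right
          have := Submodule.finrank_lt_finrank_of_lt (WW_lt_succ hPp i htop)
          omega
  refine ⟨Module.finrank F (MonoidAlgebra F G) + 1, ?_⟩
  rcases key (Module.finrank F (MonoidAlgebra F G) + 1) with h | h
  · exact h
  · exfalso
    have := Submodule.finrank_le (WW F P (Module.finrank F (MonoidAlgebra F G) + 1))
    omega

end Flag

section Sum

variable {G : Type*} [Group G] [Finite G] {F : Type*} [Field F]

/-- A class sum with no conjugate centralizing a normal `p`-subgroup lowers the flag. -/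
theorem class_sum_lowers {P : Subgroup G} [hP : P.Normal] {p : ℕ} [hp : Fact p.Prime] [CharP F p]
    (hPp : IsPGroup p P) (T : Finset G) (hT : ∀ x y : G, x ∈ T → y ∈ P → y * x * y⁻¹ ∈ T)
    (hfix : ∀ x ∈ T, ¬ ∀ y ∈ P, y * x * y⁻¹ = x) (i : ℕ) {v : MonoidAlgebra F G}
    (hv : v ∈ WW F P (i + 1)) :
    (∑ x ∈ T, br F x) * v ∈ WW F P i := by
  classical
  let X := {x // x ∈ T}
  let σ : P → X → X := fun y x => ⟨(y : G) * x.1 * (y : G)⁻¹, hT x.1 y.1 x.2 y.2⟩
  let Q := MonoidAlgebra F G ⧸ WW F P i
  let f : X → Q := fun x => Submodule.Quotient.mk (br F x.1 * v)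
  have htors : ∀ m : Q, p • m = 0 := by
    intro m
    rw [← Nat.cast_smul_eq_nsmul F, CharP.cast_eq_zero, zero_smul]
  have hf : ∀ (y : P) (x : X), f (σ y x) = f x := by
    intro y x
    show (Submodule.Quotient.mk _ : Q) = Submodule.Quotient.mk _
    rw [Submodule.Quotient.eq]
    have h1 : br F ((y : G) * x.1 * (y : G)⁻¹) * v - br F x.1 * v =
        br F (y : G) * (br F x.1 * (br F (y : G)⁻¹ * v - v)) +
          (br F (y : G) * (br F x.1 * v) - br F x.1 * v) := by
      have h2 : br F ((y : G) * x.1 * (y : G)⁻¹) = br F (y : G) * (br F x.1 * br F (y : G)⁻¹) := by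
        rw [br_mul, br_mul, mul_assoc]
      rw [h2]
      noncomm_ring
    rw [h1]
    refine Submodule.add_mem _ ?_ ?_
    · exact WW_stable i _ (WW_stable i _ (hv _ (P.inv_mem y.2)))
    · exact (WW_stable (i + 1) x.1 hv) _ y.2
  have hsum := Cfsg.Agent.H22.sum_eq_sum_fixed (p := p) (Q := P) (X := X) (A := Q) htors hPp σ
    (fun x => Subtype.ext (by simp [σ]))
    (fun q r x => Subtype.ext (by simp [σ, mul_assoc]))
    f hf
  have hempty : (Finset.univ.filter (fun x : X => ∀ q : P, σ q x = x)) = ∅ := by
    apply Finset.filter_eq_empty_iff.2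
    intro x _ hx
    apply hfix x.1 x.2
    intro y hy
    have := hx ⟨y, hy⟩
    exact congrArg Subtype.val this
  rw [hempty, Finset.sum_empty] at hsum
  have h2 : (Submodule.Quotient.mk ((∑ x ∈ T, br F x) * v) : Q) = ∑ x : X, f x := by
    rw [Finset.sum_mul]
    rw [← Finset.sum_coe_sort T (fun x => br F x * v)]
    exact map_sum (Submodule.mkQ (WW F P i)) _ _
  rw [← Submodule.Quotient.mk_eq_zero, h2, hsum]

/-- Statement S0905, with the normal `p`-subgroup arbitrary. -/
theorem class_sum_nilpotent {P : Subgroup G} [hP : P.Normal] {p : ℕ} [hp : Fact p.Prime] [CharP F p]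
    (hPp : IsPGroup p P) (T : Finset G) (hT : ∀ x y : G, x ∈ T → y ∈ P → y * x * y⁻¹ ∈ T)
    (hfix : ∀ x ∈ T, ¬ ∀ y ∈ P, y * x * y⁻¹ = x) :
    IsNilpotent (∑ x ∈ T, br F x) := by
  obtain ⟨n, hn⟩ := WW_top (F := F) hPp
  refine ⟨n, ?_⟩
  have key : ∀ i, ∀ v ∈ WW F P i, (∑ x ∈ T, br F x) ^ i * v = 0 := by
    intro i
    induction i with
    | zero =>
      intro v hv
      have : v = 0 := (Submodule.mem_bot F).1 hv
      rw [this, mul_zero]
    | succ i ih =>
      intro v hv
      rw [pow_succ, mul_assoc]
      exact ih _ (class_sum_lowers hPp T hT hfix i hv)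
  have := key n 1 (by rw [hn]; trivial)
  rwa [mul_one] at this

end Sum

end Cfsg.Agent.H04.Cliff
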