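import Cfsg.Agent.Lib.H22.ExtraUnique
import Cfsg.Agent.Lib.H23.KGV2
import Cfsg.Agent.Lib.H21.CharLinear

/-!
# Characters of extraspecial groups
-/

set_option autoImplicit false
set_option linter.style.haveILetI false
set_option linter.unusedSectionVars false
set_option linter.unusedSimpArgs false
set_option linter.unusedVariables false

namespace Cfsg.Agent.H04.Cliff

open Cfsg Cfsg.Agent.H21 Cfsg.Agent.H22 Cfsg.Agent.H23
open scoped ComplexConjugate commutatorElement

universe u

section
variable {P : Type u} [Group P] {p : ℕ} [hp : Fact p.Prime]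

theorem center_card_ne (hP : IsExtraspecial p P) : Nat.card (Subgroup.center P) ≠ 1 := by
  rw [hP.2]; exact hp.out.one_lt.ne'

theorem extra_conj [Finite P] (hP : IsExtraspecial p P) {x z : P} (hx : x ∉ Subgroup.center P)
    (hz : z ∈ Subgroup.center P) : ∃ y, y⁻¹ * x * y = x * z := by
  have hcomm : commutator P = Subgroup.center P := hP.1.2.2
  obtain ⟨y₀, hy₀⟩ : ∃ y₀ : P, y₀ * x ≠ x * y₀ := by
    by_contra hc
    push Not at hc
    exact hx (Subgroup.mem_center_iff.2 hc)
  let z₀ : P := x⁻¹ * y₀⁻¹ * x * y₀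
  have hz₀ : z₀ ∈ Subgroup.center P := by
    rw [← hcomm]
    have : z₀ = (⁅x⁻¹, y₀⁻¹⁆ : P) := by
      show x⁻¹ * y₀⁻¹ * x * y₀ = x⁻¹ * y₀⁻¹ * x⁻¹⁻¹ * y₀⁻¹⁻¹
      simp
    rw [this]
    exact Subgroup.commutator_mem_commutator (Subgroup.mem_top _) (Subgroup.mem_top _)
  have hz₀1 : z₀ ≠ 1 := by
    intro h1
    apply hy₀
    have h2 : x⁻¹ * y₀⁻¹ * x * y₀ = 1 := h1
    have h3 : y₀⁻¹ * (x * y₀) = x := by
      have : x * (x⁻¹ * y₀⁻¹ * x * y₀) = x * 1 := by rw [h2]
      simpa [mul_assoc] using this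
    calc y₀ * x = y₀ * (y₀⁻¹ * (x * y₀)) := by rw [h3]
      _ = x * y₀ := by group
  have hk : ∀ k : ℕ, (y₀ ^ k)⁻¹ * x * y₀ ^ k = x * z₀ ^ k := by
    intro k
    induction k with
    | zero => simp
    | succ k ih =>
      have hzk : z₀ ^ k ∈ Subgroup.center P := pow_mem hz₀ k
      have h1 : y₀⁻¹ * x * y₀ = x * z₀ := by
        show y₀⁻¹ * x * y₀ = x * (x⁻¹ * y₀⁻¹ * x * y₀)
        group
      calc (y₀ ^ (k + 1))⁻¹ * x * y₀ ^ (k + 1)
          = y₀⁻¹ * ((y₀ ^ k)⁻¹ * x * y₀ ^ k) * y₀ := by rw [pow_succ]; group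
        _ = y₀⁻¹ * (x * z₀ ^ k) * y₀ := by rw [ih]
        _ = (y₀⁻¹ * x * y₀) * z₀ ^ k := by
            have : z₀ ^ k * y₀ = y₀ * z₀ ^ k := (Subgroup.mem_center_iff.1 hzk y₀).symm
            rw [mul_assoc y₀⁻¹, mul_assoc x, this]; group
        _ = x * z₀ * z₀ ^ k := by rw [h1]
        _ = x * z₀ ^ (k + 1) := by rw [pow_succ']; group
  let z₀' : Subgroup.center P := ⟨z₀, hz₀⟩
  have hz₀'1 : z₀' ≠ 1 := fun h => hz₀1 (congrArg Subtype.val h)
  haveI : Fact (Nat.card (Subgroup.center P)).Prime := by rw [hP.2]; exact hp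
  have : (⟨z, hz⟩ : Subgroup.center P) ∈ Submonoid.powers z₀' := by
    exact mem_powers_of_prime_card rfl hz₀'1
  obtain ⟨k, hk'⟩ := this
  refine ⟨y₀ ^ k, ?_⟩
  rw [hk k]
  have := congrArg Subtype.val hk'
  simp only [Subgroup.coe_pow] at this
  change z₀ ^ k = z at this
  rw [this]

theorem vanish_of_shift [Finite P] (hP : IsExtraspecial p P) (f : P → ℂ) (hf : IsClassFunction P f)
    {x a : P} (hx : x ∉ Subgroup.center P) (ha : a ∈ Subgroup.center P) {c : ℂ} (hc : c ≠ 1)
    (hs : f (x * a) = c * f x) : f x = 0 := by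
  obtain ⟨y, hy⟩ := extra_conj hP hx ha
  have h1 : f (y⁻¹ * x * y⁻¹⁻¹) = f x := hf x y⁻¹
  rw [inv_inv, hy, hs] at h1
  have h2 : (c - 1) * f x = 0 := by linear_combination h1
  exact (mul_eq_zero.1 h2).resolve_left (sub_ne_zero.2 hc)

variable [Fintype P]

/-- A function vanishing off the center and with constant norm on it has norm one. -/
theorem inner_of_support (hP : IsExtraspecial p P) {n : ℕ} (hcard : Nat.card P = p ^ (2 * n + 1))
    (f : P → ℂ) (h0 : ∀ x, x ∉ Subgroup.center P → f x = 0) {d : ℝ}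
    (h1 : ∀ x, x ∈ Subgroup.center P → ‖f x‖ = d) :
    classInner f f = ((d ^ 2 / (p : ℝ) ^ (2 * n) : ℝ) : ℂ) := by
  classical
  have hcZ : (Finset.univ.filter (fun x : P => x ∈ Subgroup.center P)).card = p := by
    rw [← hP.2, Nat.card_eq_fintype_card, Fintype.card_subtype]
  have hsum : ∑ g : P, f g * conj (f g) = ((p : ℝ) * d ^ 2 : ℝ) := by
    rw [← Finset.sum_filter_add_sum_filter_not Finset.univ (fun x : P => x ∈ Subgroup.center P)]
    have e1 : ∑ x ∈ Finset.univ.filter (fun x : P => ¬ x ∈ Subgroup.center P), f x * conj (f x) = 0 := by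
      apply Finset.sum_eq_zero
      intro x hx
      rw [h0 x (Finset.mem_filter.1 hx).2]
      simp
    have e2 : ∑ x ∈ Finset.univ.filter (fun x : P => x ∈ Subgroup.center P), f x * conj (f x) =
        ∑ x ∈ Finset.univ.filter (fun x : P => x ∈ Subgroup.center P), ((d ^ 2 : ℝ) : ℂ) := by
      apply Finset.sum_congr rfl
      intro x hx
      rw [Complex.mul_conj, Complex.normSq_eq_norm_sq, h1 x (Finset.mem_filter.1 hx).2]
    rw [e1, e2, Finset.sum_const, hcZ, add_zero, nsmul_eq_mul]
    push_cast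
    ring
  rw [classInner, hsum, hcard]
  have hp0 : (p : ℝ) ≠ 0 := by exact_mod_cast hp.out.ne_zero
  push_cast
  have hp0' : (p : ℂ) ≠ 0 := by exact_mod_cast hp.out.ne_zero
  field_simp
  ring

theorem n_ne_zero (hP : IsExtraspecial p P) {n : ℕ} (hcard : Nat.card P = p ^ (2 * n + 1)) :
    n ≠ 0 := by
  rintro rfl
  have hZ : Subgroup.center P = ⊤ := by
    apply Subgroup.eq_top_of_card_eq
    rw [hP.2, hcard]; simp
  have hc : commutator P = ⊥ := by
    rw [commutator, Subgroup.commutator_eq_bot_iff_le_centralizer]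
    intro x _ y _
    have : x ∈ Subgroup.center P := by rw [hZ]; trivial
    exact (Subgroup.mem_center_iff.1 this y)
  have h1 : Subgroup.center P = ⊥ := by rw [← hP.1.2.2, hc]
  have := center_card_ne hP
  rw [h1] at this
  simp at this

end

section S93
variable {P : Type u} [Group P] [Fintype P] {p : ℕ} [hp : Fact p.Prime]

/-- Statement S0893. -/
theorem extra_induced (n : ℕ) (hP : IsExtraspecial p P) (hcard : Nat.card P = p ^ (2 * n + 1))
    (A : Subgroup P) (hA : Nat.card A = p ^ (n + 1)) (lam : A → ℂ)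
    (hlam : IsCharacter A lam ∧ lam 1 = 1) (hZ : ∃ a : A, (a : P) ∈ Subgroup.center P ∧ lam a ≠ 1) :
    IsIrrCharacter P (indFun A lam) ∧ ∀ x : P, x ∉ Subgroup.center P → indFun A lam x = 0 := by
  classical
  haveI : Fintype (IrrCharacter P) := Fintype.ofFinite _
  haveI : Fintype A := Fintype.ofFinite _
  have hdeg : charDegree lam = 1 := by
    have := one_eq_charDegree hlam.1
    rw [hlam.2] at this
    exact_mod_cast this.symm
  have hmul := linear_mul hlam.1 hdeg
  have hnorm := linear_norm hlam.1 hdeg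
  obtain ⟨a, haZ, hane⟩ := hZ
  have hZA : ∀ z ∈ Subgroup.center P, z ∈ A := by
    intro z hz
    let a' : Subgroup.center P := ⟨a, haZ⟩
    have ha'1 : a' ≠ 1 := by
      intro h
      apply hane
      have : a = 1 := Subtype.ext (congrArg (fun w : Subgroup.center P => (w : P)) h)
      rw [this]; exact hlam.2
    haveI : Fact (Nat.card (Subgroup.center P)).Prime := by rw [hP.2]; exact hp
    obtain ⟨k, hk⟩ : (⟨z, hz⟩ : Subgroup.center P) ∈ Submonoid.powers a' :=
      mem_powers_of_prime_card rfl ha'1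
    have := congrArg Subtype.val hk
    simp only [Subgroup.coe_pow] at this
    change (a : P) ^ k = z at this
    rw [← this]
    exact pow_mem a.2 k
  have hind := isCharacter_indFun A hlam.1
  have hcl := isClassFunction_of_isCharacter hind
  have hvan : ∀ x : P, x ∉ Subgroup.center P → indFun A lam x = 0 := by
    intro x hx
    refine vanish_of_shift hP _ hcl hx haZ hane ?_
    simp only [indFun]
    rw [mul_left_comm]
    congr 1
    rw [Finset.mul_sum]
    refine Finset.sum_congr rfl fun g _ => ?_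
    have e : g⁻¹ * (x * (a : P)) * g = g⁻¹ * x * g * a := by
      have : (a : P) * g = g * a := Subgroup.mem_center_iff.1 haZ g |>.symm
      simp only [mul_assoc, this]
    rw [e]
    by_cases hm : g⁻¹ * x * g ∈ A
    · have h1 := extendByZero_coe (H := A) lam ⟨g⁻¹ * x * g, hm⟩
      have h2 := extendByZero_coe (H := A) lam (⟨g⁻¹ * x * g, hm⟩ * a)
      simp only [Subgroup.coe_mul] at h1 h2
      rw [h2, h1, hmul]
      ring
    · have h1 := extendByZero_of_not_mem (H := A) lam hm
      have h2 : g⁻¹ * x * g * a ∉ A := fun h => hm (by simpa using A.mul_mem h (A.inv_mem a.2))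
      rw [extendByZero_of_not_mem (H := A) lam h2, h1, mul_zero]
  refine ⟨?_, hvan⟩
  apply isIrrCharacter_of_inner_self_eq_one hind
  have hcardA : (Nat.card A : ℂ) = (p : ℂ) ^ (n + 1) := by rw [hA]; push_cast; rfl
  have hval : ∀ z ∈ Subgroup.center P, ‖indFun A lam z‖ = (p : ℝ) ^ n := by
    intro z hz
    have hzA := hZA z hz
    have h1 : indFun A lam z = (p : ℂ) ^ n * lam ⟨z, hzA⟩ := by
      simp only [indFun]
      have h2 : ∀ g : P, extendByZero A lam (g⁻¹ * z * g) = lam ⟨z, hzA⟩ := by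
        intro g
        have : g⁻¹ * z * g = z := by
          have : z * g = g * z := Subgroup.mem_center_iff.1 hz g |>.symm
          rw [mul_assoc, this]; group
        rw [this]
        exact extendByZero_coe (H := A) lam ⟨z, hzA⟩
      simp only [h2, Finset.sum_const, Finset.card_univ, ← Nat.card_eq_fintype_card, nsmul_eq_mul, hcard]
      rw [hcardA]
      push_cast
      have hp0' : (p : ℂ) ≠ 0 := by exact_mod_cast hp.out.ne_zero
      field_simp
      ring
    rw [h1, norm_mul, hnorm, mul_one, norm_pow]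
    simp
  rw [inner_of_support hP hcard _ hvan hval]
  have hp0 : (p : ℝ) ≠ 0 := by exact_mod_cast hp.out.ne_zero
  have : ((p : ℝ) ^ n) ^ 2 / (p : ℝ) ^ (2 * n) = 1 := by
    rw [← pow_mul, mul_comm n 2]
    exact div_self (pow_ne_zero _ hp0)
  rw [this]
  simp

end S93

section S94
variable {P : Type u} [Group P] [Fintype P] [Fintype (IrrCharacter P)] {p : ℕ} [hp : Fact p.Prime]

theorem extra_degree_of_not_ker (n : ℕ) (hP : IsExtraspecial p P)
    (hcard : Nat.card P = p ^ (2 * n + 1)) (χ : IrrCharacter P)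
    (h : ¬ ∀ a ∈ Subgroup.center P, χ.1 a = χ.1 1) : charDegree χ.1 = p ^ n := by
  push Not at h
  obtain ⟨a, ha, hne⟩ := h
  have hd0 : (charDegree χ.1 : ℂ) ≠ 0 := by exact_mod_cast (irr_charDegree_pos χ.2).ne'
  have hd1 := one_eq_charDegree (isCharacter_of_irr χ.2)
  have hvan : ∀ x, x ∉ Subgroup.center P → χ.1 x = 0 := by
    intro x hx
    refine vanish_of_shift hP _ (isClassFunction_of_isCharacter (isCharacter_of_irr χ.2)) hx ha
      (c := χ.1 a / (charDegree χ.1 : ℂ)) ?_ ?_
    · intro h1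
      apply hne
      rw [hd1]
      field_simp at h1
      exact h1
    · have h1 := irr_central_mul χ.2 ha x
      have e : x * a = a * x := (Subgroup.mem_center_iff.1 ha x)
      rw [e]
      field_simp
      linear_combination h1
  have h1 := inner_of_support hP hcard χ.1 hvan (fun x hx => irr_norm_central χ.2 hx)
  rw [classInner_self_irr χ] at h1
  have h2 : ((charDegree χ.1 : ℝ)) ^ 2 / (p : ℝ) ^ (2 * n) = 1 := by exact_mod_cast h1.symm
  have hp0 : (p : ℝ) ≠ 0 := by exact_mod_cast hp.out.ne_zero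
  have h3 : ((charDegree χ.1 : ℝ)) ^ 2 = (p : ℝ) ^ (2 * n) := by
    rw [div_eq_one_iff_eq (pow_ne_zero _ hp0)] at h2
    exact h2
  have h4 : charDegree χ.1 ^ 2 = (p ^ n) ^ 2 := by
    rw [← pow_mul, mul_comm n 2]
    exact_mod_cast h3
  exact Nat.pow_left_injective (n := 2) (by norm_num) h4

theorem extra_degree_of_ker (hP : IsExtraspecial p P) (χ : IrrCharacter P)
    (h : ∀ a ∈ Subgroup.center P, χ.1 a = χ.1 1) : charDegree χ.1 = 1 := by
  apply degree_one_of_commutator_ker χ.2
  rw [hP.1.2.2]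
  exact h

theorem extra_count (n : ℕ) (hP : IsExtraspecial p P) (hcard : Nat.card P = p ^ (2 * n + 1)) :
    (∀ χ : IrrCharacter P, χ.1 1 = 1 ∨ χ.1 1 = (p : ℂ) ^ n) ∧
    Nat.card {χ : IrrCharacter P // χ.1 1 = (p : ℂ) ^ n} = p - 1 := by
  classical
  have hn := n_ne_zero hP hcard
  have hpos := hp.out.pos
  constructor
  · intro χ
    by_cases h : ∀ a ∈ Subgroup.center P, χ.1 a = χ.1 1
    · left
      rw [one_eq_charDegree (isCharacter_of_irr χ.2), extra_degree_of_ker hP χ h]
      simp
    · right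
      rw [one_eq_charDegree (isCharacter_of_irr χ.2), extra_degree_of_not_ker n hP hcard χ h]
      simp
  · have h1 := sum_sq_kerChars (X := P) (Subgroup.center P)
    have h2 := sum_degree_sq (G := P)
    have hidx : (Subgroup.center P).index = p ^ (2 * n) := by
      have h3 := Subgroup.card_mul_index (Subgroup.center P)
      rw [hP.2, hcard, pow_succ, mul_comm] at h3
      exact Nat.eq_of_mul_eq_mul_right hpos h3
    have hsplit := Finset.sum_sdiff (Finset.subset_univ (kerChars (Subgroup.center P)))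
      (f := fun χ : IrrCharacter P => charDegree χ.1 ^ 2)
    rw [h1, hidx, h2, hcard] at hsplit
    have h4 : ∑ χ ∈ Finset.univ \ kerChars (Subgroup.center P), charDegree χ.1 ^ 2 =
        (Finset.univ \ kerChars (Subgroup.center P)).card * p ^ (2 * n) := by
      rw [← smul_eq_mul, ← Finset.sum_const]
      refine Finset.sum_congr rfl fun χ hχ => ?_
      have : χ ∉ kerChars (Subgroup.center P) := (Finset.mem_sdiff.1 hχ).2
      rw [mem_kerChars] at this
      rw [extra_degree_of_not_ker n hP hcard χ this, ← pow_mul, mul_comm n 2]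
    rw [h4] at hsplit
    have hcardfin : (Finset.univ \ kerChars (Subgroup.center P)).card = p - 1 := by
      have h5 : p ^ (2 * n + 1) = p * p ^ (2 * n) := by rw [pow_succ, mul_comm]
      rw [h5] at hsplit
      have h6 : ((Finset.univ \ kerChars (Subgroup.center P)).card + 1) * p ^ (2 * n) = p * p ^ (2 * n) := by
        rw [add_mul, one_mul]; exact hsplit
      have h7 := Nat.eq_of_mul_eq_mul_right (pow_pos hpos _) h6
      omega
    rw [← hcardfin, Nat.card_eq_fintype_card, Fintype.card_subtype]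
    congr 1
    ext χ
    simp only [Finset.mem_filter, Finset.mem_univ, true_and, Finset.mem_sdiff, mem_kerChars]
    constructor
    · intro h hk
      have h5 := extra_degree_of_ker hP χ hk
      rw [one_eq_charDegree (isCharacter_of_irr χ.2), h5] at h
      have h6 : (1 : ℕ) = p ^ n := by
        have : ((1 : ℕ) : ℂ) = ((p ^ n : ℕ) : ℂ) := by push_cast; simpa using h
        exact_mod_cast this
      have h7 : 1 < p ^ n := Nat.one_lt_pow hn hp.out.one_lt
      omega
    · intro h
      rw [one_eq_charDegree (isCharacter_of_irr χ.2), extra_degree_of_not_ker n hP hcard χ h]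
      simp

end S94

end Cfsg.Agent.H04.Cliff
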