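import Cfsg.Agent.Lib.H21.CharInd
import Cfsg.Agent.Lib.H23.CharAvg
import Cfsg.Agent.Lib.H23.Ito2
import Cfsg.Agent.Lib.H21.CharCore

/-! Coset averages of functions on a finite group, and the resulting norm estimates
(Feit--Thompson degree bound for an abelian subgroup). -/

set_option autoImplicit false
set_option linter.style.haveILetI false
set_option linter.unusedVariables false
set_option linter.unusedSectionVars false
set_option linter.unusedSimpArgs false

open Cfsg Cfsg.Agent.H21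
open scoped ComplexConjugate

namespace Cfsg.Agent.H04.Cliff.FT

section Avg

variable {T : Type*} [Group T] [Fintype T]

/-- The average of a function over the cosets of a subgroup. -/
noncomputable def avg (A : Subgroup T) [Fintype A] (a : T → ℂ) (n : T) : ℂ :=
  (Fintype.card A : ℂ)⁻¹ * ∑ h : A, a (n * h)

theorem avg_mul (A : Subgroup T) [Fintype A] (a : T → ℂ) (n : T) (h : A) :
    avg A a (n * h) = avg A a n := by
  unfold avg
  congr 1
  refine Fintype.sum_equiv (Equiv.mulLeft h) _ _ fun x => ?_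
  simp [mul_assoc]

theorem card_ne (A : Subgroup T) [Fintype A] : (Fintype.card A : ℂ) ≠ 0 := by
  exact_mod_cast Fintype.card_pos.ne'

theorem sum_avg_conj (A : Subgroup T) [Fintype A] (a : T → ℂ) :
    ∑ n, avg A a n * conj (a n) = ∑ n, avg A a n * conj (avg A a n) := by
  have hk : ∀ h : A, ∑ n, avg A a n * conj (a (n * h)) = ∑ n, avg A a n * conj (a n) := by
    intro h
    rw [← Equiv.sum_comp (Equiv.mulRight (h : T)) (fun n => avg A a n * conj (a n))]
    refine Finset.sum_congr rfl fun n _ => ?_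
    simp only [Equiv.coe_mulRight, avg_mul]
  have h1 : ∀ n, avg A a n * conj (avg A a n)
      = (Fintype.card A : ℂ)⁻¹ * ∑ h : A, avg A a n * conj (a (n * h)) := by
    intro n
    have h2 : conj (avg A a n) = (Fintype.card A : ℂ)⁻¹ * ∑ h : A, conj (a (n * h)) := by
      simp only [avg, map_mul, map_inv₀, map_natCast, map_sum]
    rw [h2, ← Finset.mul_sum]
    ring
  simp only [h1]
  rw [← Finset.mul_sum, Finset.sum_comm]
  simp only [hk, Finset.sum_const, Finset.card_univ, nsmul_eq_mul]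
  rw [← mul_assoc, inv_mul_cancel₀ (card_ne A), one_mul]

theorem norm_split (A : Subgroup T) [Fintype A] (a : T → ℂ) :
    ∑ n, ‖a n‖ ^ 2 = ∑ n, ‖avg A a n‖ ^ 2 + ∑ n, ‖a n - avg A a n‖ ^ 2 := by
  have h0 : ∑ n, (avg A a n * conj (a n - avg A a n)) = 0 := by
    simp only [map_sub, mul_sub, Finset.sum_sub_distrib]
    rw [sum_avg_conj, sub_self]
  have h1 : ∀ n, ‖a n‖ ^ 2 = ‖avg A a n‖ ^ 2 + ‖a n - avg A a n‖ ^ 2
      + 2 * (avg A a n * conj (a n - avg A a n)).re := by
    intro n
    have := Complex.normSq_add (avg A a n) (a n - avg A a n)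
    simp only [add_sub_cancel] at this
    simp only [Complex.sq_norm]
    exact this
  simp only [h1, Finset.sum_add_distrib]
  have h2 : ∑ n, 2 * (avg A a n * conj (a n - avg A a n)).re = 0 := by
    rw [← Finset.mul_sum, ← Complex.re_sum, h0]
    simp
  rw [h2, add_zero]

/-- Bessel's inequality against one irreducible character. -/
theorem bessel (a ξ : T → ℂ) (hξ : IsIrrCharacter T ξ) :
    ‖classInner a ξ‖ ^ 2 * (Fintype.card T : ℝ) ≤ ∑ n, ‖a n‖ ^ 2 := by
  classical
  set m := classInner a ξ with hm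
  have hc : (Nat.card T : ℂ) ≠ 0 := by exact_mod_cast Nat.card_pos.ne'
  have h1 : ∑ n, a n * conj (ξ n) = m * (Fintype.card T : ℂ) := by
    rw [hm, classInner, Nat.card_eq_fintype_card] 
    rw [Nat.card_eq_fintype_card] at hc
    field_simp
  have hn : ∑ n, ξ n * conj (ξ n) = (Fintype.card T : ℂ) := by
    have := H06.classInner_irr_self hξ
    rw [classInner, Nat.card_eq_fintype_card] at this
    rw [Nat.card_eq_fintype_card] at hc
    field_simp at this
    exact this
  have h2 : ∀ n, ‖a n - m * ξ n‖ ^ 2 = ‖a n‖ ^ 2 + ‖m‖ ^ 2 * ‖ξ n‖ ^ 2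
      - 2 * (conj m * (a n * conj (ξ n))).re := by
    intro n
    have := Complex.normSq_sub (a n) (m * ξ n)
    simp only [Complex.sq_norm]
    rw [this, Complex.normSq_mul]
    have h3 : (a n * conj (m * ξ n)).re = (conj m * (a n * conj (ξ n))).re := by
      congr 1
      rw [map_mul]
      ring
    rw [h3]
  have h3 : 0 ≤ ∑ n, ‖a n - m * ξ n‖ ^ 2 := Finset.sum_nonneg fun n _ => by positivity
  simp only [h2] at h3
  rw [Finset.sum_sub_distrib, Finset.sum_add_distrib, ← Finset.mul_sum, ← Finset.mul_sum,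
    ← Complex.re_sum, ← Finset.mul_sum, h1] at h3
  have h4 : ∑ n, ‖ξ n‖ ^ 2 = (Fintype.card T : ℝ) := by
    have : ((∑ n, ‖ξ n‖ ^ 2 : ℝ) : ℂ) = (Fintype.card T : ℂ) := by
      rw [← hn]
      push_cast
      refine Finset.sum_congr rfl fun n _ => ?_
      rw [Complex.mul_conj, Complex.normSq_eq_norm_sq]
      push_cast
      rfl
    exact_mod_cast this
  have h5 : (conj m * (m * (Fintype.card T : ℂ))).re = ‖m‖ ^ 2 * (Fintype.card T : ℝ) := by
    have : conj m * (m * (Fintype.card T : ℂ)) = ((‖m‖ ^ 2 * (Fintype.card T : ℝ) : ℝ) : ℂ) := by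
      rw [← mul_assoc, mul_comm (conj m), Complex.mul_conj, Complex.normSq_eq_norm_sq]
      push_cast
      rfl
    rw [this, Complex.ofReal_re]
  rw [h4, h5] at h3
  linarith

/-- The average of an arbitrary function is orthogonal to irreducible characters not trivial on
a normal subgroup `A`. -/
theorem classInner_avg_zero (A : Subgroup T) [Fintype A] [hA : A.Normal] (a ξ : T → ℂ)
    (hξ : IsIrrCharacter T ξ) (hker : ¬ ∀ h ∈ A, ξ h = ξ 1) :
    classInner (avg A a) ξ = 0 := by
  classical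
  have hcl := isCharacter_conj (isCharacter_of_irr hξ)
  have h1 : ∀ (n : T), ∑ h : A, ξ (n * (h : T)⁻¹) = 0 := by
    intro n
    have h2 := H23.sum_mul_normal_of_irr A hξ hker n
    rw [← h2]
    refine Fintype.sum_equiv (Equiv.inv A) _ _ fun h => ?_
    simp only [Equiv.inv_apply, InvMemClass.coe_inv]
    have := hcl (n * (h : T)⁻¹) n⁻¹
    rw [← this]
    congr 1
    group
  have h2 : ∑ n, avg A a n * conj (ξ n) = 0 := by
    unfold avg
    simp only [mul_assoc, Finset.sum_mul]
    rw [← Finset.mul_sum, Finset.sum_comm]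
    have h3 : ∀ h : A, ∑ n, a (n * (h : T)) * conj (ξ n) = ∑ n, a n * conj (ξ (n * (h : T)⁻¹)) := by
      intro h
      rw [← Equiv.sum_comp (Equiv.mulRight (h : T)) (fun n => a n * conj (ξ (n * (h : T)⁻¹)))]
      refine Finset.sum_congr rfl fun n _ => ?_
      simp
    simp only [h3]
    rw [Finset.sum_comm]
    have h4 : ∀ n, ∑ h : A, a n * conj (ξ (n * (h : T)⁻¹)) = 0 := by
      intro n
      rw [← Finset.mul_sum, ← map_sum, h1, map_zero, mul_zero]
    simp [h4]
  rw [classInner, h2, mul_zero]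

/-- The Bessel estimate for the difference `a - avg a`. -/
theorem one_le_norm_diff (A : Subgroup T) [Fintype A] [hA : A.Normal] (a ξ : T → ℂ)
    (hξ : IsIrrCharacter T ξ) (hker : ¬ ∀ h ∈ A, ξ h = ξ 1) {m : ℕ} (hm : classInner a ξ = m)
    (hm0 : m ≠ 0) :
    (Fintype.card T : ℝ) ≤ ∑ n, ‖a n - avg A a n‖ ^ 2 := by
  have h1 := bessel (fun n => a n - avg A a n) ξ hξ
  have h2 : classInner (fun n => a n - avg A a n) ξ = m := by
    have h3 : (fun n => a n - avg A a n) = a + (-1 : ℂ) • avg A a := by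
      funext n
      simp [sub_eq_add_neg]
    rw [h3, classInner_add_left, classInner_smul_left, classInner_avg_zero A a ξ hξ hker, hm]
    simp
  rw [h2] at h1
  have h3 : (1 : ℝ) ≤ ‖(m : ℂ)‖ ^ 2 := by
    rw [Complex.norm_natCast]
    have : (1 : ℝ) ≤ m := by exact_mod_cast Nat.one_le_iff_ne_zero.2 hm0
    nlinarith
  have h4 : (0 : ℝ) ≤ Fintype.card T := by positivity
  nlinarith

/-- If `n` centralizes no nontrivial element of a normal subgroup, then each product `n h` is
conjugate to `n`, and so a class function has `avg a n = a n`. -/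
theorem avg_eq_of_fixed_free (A : Subgroup T) [Fintype A] [hA : A.Normal] (a : T → ℂ)
    (ha : IsClassFunction T a) (n : T) (hn : ∀ x ∈ A, n * x = x * n → x = 1) :
    avg A a n = a n := by
  classical
  have hmem : ∀ x : A, n⁻¹ * (x : T)⁻¹ * n * x ∈ A := by
    intro x
    refine A.mul_mem ?_ x.2
    have := hA.conj_mem _ (A.inv_mem x.2) n⁻¹
    simpa using this
  let φ : A → A := fun x => ⟨n⁻¹ * (x : T)⁻¹ * n * x, hmem x⟩
  have hinj : Function.Injective φ := by
    intro x y hxy
    have h1 : n⁻¹ * (x : T)⁻¹ * n * x = n⁻¹ * (y : T)⁻¹ * n * y := congrArg Subtype.val hxy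
    have h2 : n * ((x : T) * (y : T)⁻¹) = ((x : T) * (y : T)⁻¹) * n := by
      have h3 : (x : T)⁻¹ * n * x = (y : T)⁻¹ * n * y := by
        have := congrArg (fun t => n * t) h1
        simpa [mul_assoc] using this
      calc n * ((x : T) * (y : T)⁻¹) = (x : T) * ((x : T)⁻¹ * n * x) * (y : T)⁻¹ := by group
        _ = (x : T) * ((y : T)⁻¹ * n * y) * (y : T)⁻¹ := by rw [h3]
        _ = _ := by group
    have h3 := hn _ (A.mul_mem x.2 (A.inv_mem y.2)) h2
    exact Subtype.ext (by simpa [mul_inv_eq_one] using h3)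
  have hsurj : Function.Surjective φ := Finite.surjective_of_injective hinj
  have hval : ∀ h : A, a (n * h) = a n := by
    intro h
    obtain ⟨x, hx⟩ := hsurj h
    have h1 : (h : T) = n⁻¹ * (x : T)⁻¹ * n * x := (congrArg Subtype.val hx).symm
    rw [h1]
    have := ha n (x : T)⁻¹
    rw [← this]
    congr 1
    group
  unfold avg
  simp only [hval, Finset.sum_const, Finset.card_univ, nsmul_eq_mul]
  rw [← mul_assoc, inv_mul_cancel₀ (card_ne A), one_mul]

end Avg

section Main

variable {G : Type*} [Group G] [Fintype G]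

/-- The coset average in the ambient group. -/
noncomputable def avgG (H : Subgroup G) [Fintype H] (χ : G → ℂ) (g : G) : ℂ :=
  (Fintype.card H : ℂ)⁻¹ * ∑ h : H, χ (g * h)

theorem avg_eq_avgG (H : Subgroup G) [Fintype H] (K : Subgroup G) (hK : H ≤ K)
    [Fintype (H.subgroupOf K)] (χ : G → ℂ) (n : K) :
    avg (H.subgroupOf K) (fun n : K => χ n) n = avgG H χ n := by
  unfold avg avgG
  have h1 : Fintype.card (H.subgroupOf K) = Fintype.card H :=
    Fintype.card_congr (Subgroup.subgroupOfEquivOfLe hK).toEquiv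
  rw [h1]
  congr 1
  refine Fintype.sum_equiv (Subgroup.subgroupOfEquivOfLe hK).toEquiv _ _ fun x => ?_
  simp

open Classical in
/-- The facts on the normalizer: Pythagoras, the Bessel bound, and the values off `Y`. -/
theorem norm_facts (H : Subgroup G) [Fintype H] (χ : G → ℂ) (hχ : IsIrrCharacter G χ)
    (hker : ∃ h ∈ H, χ h ≠ χ 1) :
    (∑ n ∈ Finset.univ.filter (· ∈ Subgroup.normalizer (H : Set G)), ‖χ n‖ ^ 2
      = ∑ n ∈ Finset.univ.filter (· ∈ Subgroup.normalizer (H : Set G)), ‖avgG H χ n‖ ^ 2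
        + ∑ n ∈ Finset.univ.filter (· ∈ Subgroup.normalizer (H : Set G)), ‖χ n - avgG H χ n‖ ^ 2) ∧
    ((Nat.card (Subgroup.normalizer (H : Set G)) : ℝ)
      ≤ ∑ n ∈ Finset.univ.filter (· ∈ Subgroup.normalizer (H : Set G)), ‖χ n - avgG H χ n‖ ^ 2) ∧
    (∀ n ∈ Subgroup.normalizer (H : Set G), (∀ x ∈ H, n * x = x * n → x = 1) →
      avgG H χ n = χ n) := by
  set N := Subgroup.normalizer (H : Set G) with hN
  have hle : H ≤ N := Subgroup.le_normalizer
  haveI : Fintype N := Fintype.ofFinite _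
  haveI : Fintype (H.subgroupOf N) := Fintype.ofFinite _
  haveI : Fintype (IrrCharacter N) := Fintype.ofFinite _
  haveI hA : (H.subgroupOf N).Normal := Subgroup.normal_in_normalizer
  let a : N → ℂ := fun n => χ n
  have hac : IsCharacter N a := isCharacter_restrict N (isCharacter_of_irr hχ)
  have hsum : ∀ f : G → ℝ, ∑ n ∈ Finset.univ.filter (· ∈ N), f n = ∑ n : N, f n := by
    intro f
    exact Finset.sum_subtype _ (by simp) f
  have hav : ∀ n : N, avg (H.subgroupOf N) a n = avgG H χ n := fun n =>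
    avg_eq_avgG H N hle χ n
  refine ⟨?_, ?_, ?_⟩
  · simp only [hsum]
    have := norm_split (H.subgroupOf N) a
    simpa only [hav] using this
  · rw [hsum]
    obtain ⟨m, hm, hm'⟩ := isCharacter_decomp hac
    have hex : ∃ ξ : IrrCharacter N, m ξ ≠ 0 ∧ ¬ ∀ h ∈ H.subgroupOf N, ξ.1 h = ξ.1 1 := by
      by_contra hcon
      push Not at hcon
      obtain ⟨h₀, hh₀, hne⟩ := hker
      apply hne
      have h1 : a ⟨h₀, hle hh₀⟩ = a 1 := by
        rw [hm]
        simp only [Finset.sum_apply, Pi.smul_apply]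
        refine Finset.sum_congr rfl fun ξ _ => ?_
        by_cases hξ : m ξ = 0
        · simp [hξ]
        · rw [hcon ξ hξ ⟨h₀, hle hh₀⟩ (by simpa [Subgroup.mem_subgroupOf] using hh₀)]
      simpa [a] using h1
    obtain ⟨ξ, hξ0, hξ⟩ := hex
    have := one_le_norm_diff (H.subgroupOf N) a ξ.1 ξ.2 hξ (hm' ξ) hξ0
    simp only [hav] at this
    rw [Nat.card_eq_fintype_card]
    exact this
  · intro n hn hfree
    have hcl : IsClassFunction N a := isClassFunction_of_isCharacter hac
    have := avg_eq_of_fixed_free (H.subgroupOf N) a hcl ⟨n, hn⟩ (by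
      intro x hx hc
      have h1 : (x : G) ∈ H := by simpa [Subgroup.mem_subgroupOf] using hx
      have h2 : n * (x : G) = x * n := congrArg Subtype.val hc
      exact Subtype.ext (hfree _ h1 h2))
    rw [hav] at this
    exact this

open Classical in
/-- Double counting of conjugates. -/
theorem card_mul_sum_le (φ : G → ℝ) (hφ : ∀ g a : G, φ (a⁻¹ * g * a) = φ g) (hφ0 : ∀ g, 0 ≤ φ g)
    (Y₀ : Finset G) (c : G → ℝ)
    (hc : ∀ g, (((Finset.univ.filter fun a : G => a⁻¹ * g * a ∈ Y₀).card : ℕ) : ℝ) ≤ c g) :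
    (Fintype.card G : ℝ) * ∑ n ∈ Y₀, φ n ≤ ∑ g, c g * φ g := by
  have h1 : ∀ a : G, ∑ n ∈ Y₀, φ n = ∑ g, if a⁻¹ * g * a ∈ Y₀ then φ g else 0 := by
    intro a
    have h2 : ∑ n ∈ Y₀, φ n = ∑ n, if n ∈ Y₀ then φ n else 0 := by
      rw [Finset.sum_ite_mem]
      simp
    rw [h2, ← Equiv.sum_comp (MulAut.conj a⁻¹).toEquiv]
    refine Finset.sum_congr rfl fun g _ => ?_
    simp only [MulEquiv.toEquiv_eq_coe, MulEquiv.coe_toEquiv, MulAut.conj_apply, inv_inv, hφ]
  have h3 : (Fintype.card G : ℝ) * ∑ n ∈ Y₀, φ n = ∑ a : G, ∑ n ∈ Y₀, φ n := by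
    simp [Finset.card_univ]
  rw [h3, Finset.sum_congr rfl (fun a _ => h1 a), Finset.sum_comm]
  refine Finset.sum_le_sum fun g _ => ?_
  rw [Finset.sum_ite, Finset.sum_const_zero, add_zero, Finset.sum_const, nsmul_eq_mul]
  exact mul_le_mul_of_nonneg_right (hc g) (hφ0 g)

open Classical in
/-- **Part one**: the inequality `χ(1)² > |H| c²`. -/
theorem part_one (H : Subgroup G) [Fintype H] (hab : ∀ a ∈ H, ∀ b ∈ H, a * b = b * a)
    (hZ : H ⊓ Subgroup.center G = ⊥)
    (hone : ∀ g : G, g ∉ Subgroup.center G → ∀ a b : G,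
      Subgroup.centralizer ({g} : Set G) ⊓ H.map (MulAut.conj a).toMonoidHom ≠ ⊥ →
      Subgroup.centralizer ({g} : Set G) ⊓ H.map (MulAut.conj b).toMonoidHom ≠ ⊥ →
      H.map (MulAut.conj a).toMonoidHom = H.map (MulAut.conj b).toMonoidHom)
    (χ : G → ℂ) (hχ : IsIrrCharacter G χ) (hker : ∃ h ∈ H, χ h ≠ χ 1) :
    (χ 1).re ^ 2 > (Nat.card H : ℝ) * (classInner (fun h : H => χ h) (fun _ => 1)).re ^ 2 := by
  set N := Subgroup.normalizer (H : Set G) with hN
  set Z := Subgroup.center G with hZdef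
  have hle : H ≤ N := Subgroup.le_normalizer
  obtain ⟨hpy, hbes, hfree⟩ := norm_facts H χ hχ hker
  rw [← hN] at hpy hbes hfree
  have hcl := isCharacter_conj (isCharacter_of_irr hχ)
  -- a nontrivial element of `H`
  obtain ⟨x₀, hx₀, hx₀1⟩ : ∃ x ∈ H, x ≠ 1 := by
    obtain ⟨h₀, hh₀, hne⟩ := hker
    exact ⟨h₀, hh₀, fun h => hne (by rw [h])⟩
  have hZN : Z ≤ N := by
    intro z hz
    rw [hN, Subgroup.mem_normalizer_iff]
    intro h
    have h1 : z * h * z⁻¹ = h := by
      rw [(Subgroup.mem_center_iff.1 hz h).symm]; group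
    rw [h1]
  -- the set `Y`
  let PY : G → Prop := fun n => n ∈ N ∧ ∃ x ∈ H, x ≠ 1 ∧ n * x = x * n
  let Y : Finset G := Finset.univ.filter PY
  let Y₀ : Finset G := Y.filter (· ∉ Z)
  let ZF : Finset G := Finset.univ.filter (· ∈ Z)
  let NF : Finset G := Finset.univ.filter (· ∈ N)
  have hYN : Y ⊆ NF := by
    intro n hn
    simp only [Y, NF, Finset.mem_filter, Finset.mem_univ, true_and, PY] at hn ⊢
    exact hn.1
  -- step (4)
  have h4 : ∑ n ∈ Y, ‖avgG H χ n‖ ^ 2 + (Nat.card N : ℝ) ≤ ∑ n ∈ Y, ‖χ n‖ ^ 2 := by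
    have h41 := Finset.sum_sdiff (f := fun n => ‖χ n‖ ^ 2) hYN
    have h42 := Finset.sum_sdiff (f := fun n => ‖avgG H χ n‖ ^ 2) hYN
    have h43 : ∑ n ∈ NF \ Y, ‖χ n‖ ^ 2 = ∑ n ∈ NF \ Y, ‖avgG H χ n‖ ^ 2 := by
      refine Finset.sum_congr rfl fun n hn => ?_
      simp only [Finset.mem_sdiff, NF, Y, Finset.mem_filter, Finset.mem_univ, true_and, PY] at hn
      have hfr := hfree n hn.1 (by
        intro x hx hc
        by_contra hx1
        exact hn.2 ⟨hn.1, x, hx, hx1, hc⟩)
      rw [hfr]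
    change ∑ n ∈ NF, ‖χ n‖ ^ 2 = ∑ n ∈ NF, ‖avgG H χ n‖ ^ 2 + ∑ n ∈ NF, ‖χ n - avgG H χ n‖ ^ 2 at hpy
    change (Nat.card N : ℝ) ≤ ∑ n ∈ NF, ‖χ n - avgG H χ n‖ ^ 2 at hbes
    linarith
  -- step (5)
  have h5 : (Nat.card H : ℝ) * (Nat.card Z : ℝ) * (classInner (fun h : H => χ h) (fun _ => 1)).re ^ 2
      ≤ ∑ n ∈ Y, ‖avgG H χ n‖ ^ 2 := by
    haveI : Fintype Z := Fintype.ofFinite _
    let I : H × Z → G := fun p => (p.1 : G) * (p.2 : G)
    have hI : Function.Injective I := by
      rintro ⟨h₁, z₁⟩ ⟨h₂, z₂⟩ hh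
      have hh' : (h₁ : G) * z₁ = h₂ * z₂ := hh
      have h1 : (h₂ : G)⁻¹ * h₁ = z₂ * (z₁ : G)⁻¹ := by
        calc (h₂ : G)⁻¹ * h₁ = (h₂ : G)⁻¹ * (h₁ * z₁) * (z₁ : G)⁻¹ := by group
          _ = _ := by rw [hh']; group
      have h2 : (h₂ : G)⁻¹ * h₁ ∈ H ⊓ Z :=
        ⟨H.mul_mem (H.inv_mem h₂.2) h₁.2, h1 ▸ Z.mul_mem z₂.2 (Z.inv_mem z₁.2)⟩
      rw [hZ, Subgroup.mem_bot] at h2
      have h3 : (h₁ : G) = h₂ := by
        rwa [inv_mul_eq_one, eq_comm] at h2
      have h4 : (z₁ : G) = z₂ := by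
        rw [h3] at hh'
        exact mul_left_cancel hh'
      exact Prod.ext (Subtype.ext h3) (Subtype.ext h4)
    have hsub : (Finset.univ.image I) ⊆ Y := by
      intro n hn
      obtain ⟨⟨h, z⟩, -, rfl⟩ := Finset.mem_image.1 hn
      simp only [Y, Finset.mem_filter, Finset.mem_univ, true_and, PY, I]
      refine ⟨N.mul_mem (hle h.2) (hZN z.2), x₀, hx₀, hx₀1, ?_⟩
      have hz : (z : G) * x₀ = x₀ * z := (Subgroup.mem_center_iff.1 z.2 x₀).symm
      rw [mul_assoc, hz, ← mul_assoc, hab h h.2 x₀ hx₀, mul_assoc]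
    have hval : ∀ p : H × Z, ‖avgG H χ (I p)‖ ^ 2
        = ‖classInner (fun h : H => χ h) (fun _ => 1)‖ ^ 2 := by
      rintro ⟨h, z⟩
      have hdpos : (0 : ℝ) < charDegree χ := by exact_mod_cast irr_charDegree_pos hχ
      have hcv : classInner (fun h : H => χ h) (fun _ => 1)
          = (Fintype.card H : ℂ)⁻¹ * ∑ h : H, χ h := by
        simp [classInner, Nat.card_eq_fintype_card]
      have h1 : ∀ h' : H, χ ((h : G) * z * h') = χ ((z : G) * ((h * h' : H) : G)) := by
        intro h'
        congr 1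
        have hz : (z : G) * h = h * z := (Subgroup.mem_center_iff.1 z.2 h).symm
        rw [Subgroup.coe_mul, ← mul_assoc, hz]
      have h2 : avgG H χ (I (h, z)) * (charDegree χ : ℂ)
          = χ z * classInner (fun h : H => χ h) (fun _ => 1) := by
        simp only [avgG, I, h1, hcv]
        have h3 : ∑ h' : H, χ ((z : G) * ((h * h' : H) : G)) = ∑ h' : H, χ ((z : G) * h') :=
          Fintype.sum_equiv (Equiv.mulLeft h) _ _ fun x => by simp
        have h4 : (∑ x : H, χ ((z : G) * x)) * (charDegree χ : ℂ) = χ z * ∑ x : H, χ x := by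
          rw [Finset.sum_mul, Finset.mul_sum]
          exact Finset.sum_congr rfl fun x _ => irr_central_mul hχ z.2 x
        rw [h3, mul_assoc, h4]
        ring
      have h3 := congrArg norm h2
      rw [norm_mul, norm_mul, irr_norm_central hχ z.2, Complex.norm_natCast] at h3
      have h4 : ‖avgG H χ (I (h, z))‖ = ‖classInner (fun h : H => χ h) (fun _ => 1)‖ := by
        have : (charDegree χ : ℝ) * ‖avgG H χ (I (h, z))‖
            = (charDegree χ : ℝ) * ‖classInner (fun h : H => χ h) (fun _ => 1)‖ := by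
          linarith
        exact mul_left_cancel₀ hdpos.ne' this
      rw [h4]
    have h51 := Finset.sum_le_sum_of_subset_of_nonneg (f := fun n => ‖avgG H χ n‖ ^ 2) hsub
      (fun n _ _ => by positivity)
    rw [Finset.sum_image (fun a _ b _ h => hI h)] at h51
    simp only [hval, Finset.sum_const, Finset.card_univ, nsmul_eq_mul, Fintype.card_prod] at h51
    refine le_trans ?_ h51
    rw [Nat.card_eq_fintype_card, Nat.card_eq_fintype_card]
    push_cast
    refine mul_le_mul_of_nonneg_left ?_ (by positivity)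
    exact sq_le_sq' (by linarith [abs_le.1 (Complex.abs_re_le_norm (classInner (fun h : H => χ h) (fun _ => 1)))]) (Complex.re_le_norm _)
  -- step (6)
  have hdeg : ∀ z ∈ Z, ‖χ z‖ ^ 2 = (χ 1).re ^ 2 := by
    intro z hz
    rw [irr_norm_central hχ hz, one_eq_charDegree (isCharacter_of_irr hχ)]
    simp
  have hZcard : ((ZF.card : ℕ) : ℝ) = (Nat.card Z : ℝ) := by
    congr 1
    rw [Nat.card_eq_fintype_card, Fintype.card_subtype]
  have hZsum : ∑ n ∈ ZF, ‖χ n‖ ^ 2 = (Nat.card Z : ℝ) * (χ 1).re ^ 2 := by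
    rw [Finset.sum_congr rfl (fun z hz => hdeg z (by simpa [ZF] using hz)), Finset.sum_const,
      nsmul_eq_mul, hZcard]
  have h6 : ∑ n ∈ Y, ‖χ n‖ ^ 2 = ∑ n ∈ Y₀, ‖χ n‖ ^ 2 + (Nat.card Z : ℝ) * (χ 1).re ^ 2 := by
    have h61 := Finset.sum_filter_add_sum_filter_not Y (· ∉ Z) (fun n => ‖χ n‖ ^ 2)
    have h62 : Y.filter (fun n => ¬ n ∉ Z) = ZF := by
      ext n
      simp only [Finset.mem_filter, not_not, Y, ZF, Finset.mem_univ, true_and, PY]
      constructor
      · exact fun h => h.2
      · intro hn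
        refine ⟨⟨hZN hn, x₀, hx₀, hx₀1, ?_⟩, hn⟩
        exact (Subgroup.mem_center_iff.1 hn x₀).symm
    rw [h62, hZsum] at h61
    exact h61.symm
  -- step (7)
  have h7 : (Fintype.card G : ℝ) * ∑ n ∈ Y₀, ‖χ n‖ ^ 2
      ≤ (Nat.card N : ℝ) * ((Fintype.card G : ℝ) - (Nat.card Z : ℝ) * (χ 1).re ^ 2) := by
    have hstep : ∀ g, (((Finset.univ.filter fun a : G => a⁻¹ * g * a ∈ Y₀).card : ℕ) : ℝ)
        ≤ (if g ∈ Z then (0 : ℝ) else (Nat.card N : ℝ)) := by
      intro g
      by_cases hg : g ∈ Z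
      · rw [if_pos hg]
        have h1 : (Finset.univ.filter fun a : G => a⁻¹ * g * a ∈ Y₀) = ∅ := by
          ext a
          simp only [Finset.mem_filter, Finset.mem_univ, true_and, Finset.notMem_empty, iff_false]
          intro ha
          have h2 : a⁻¹ * g * a = g := by
            rw [Subgroup.mem_center_iff.1 hg a⁻¹]; group
          rw [h2] at ha
          exact (Finset.mem_filter.1 ha).2 hg
        rw [h1]
        simp
      · rw [if_neg hg]
        rcases (Finset.univ.filter fun a : G => a⁻¹ * g * a ∈ Y₀).eq_empty_or_nonempty with h1 | h1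
        · rw [h1]
          simp
        obtain ⟨a₀, ha₀⟩ := h1
        have hne : ∀ a, a ∈ (Finset.univ.filter fun a : G => a⁻¹ * g * a ∈ Y₀) →
            Subgroup.centralizer ({g} : Set G) ⊓ H.map (MulAut.conj a).toMonoidHom ≠ ⊥ := by
          intro a ha hbot
          have h2 := (Finset.mem_filter.1 (Finset.mem_filter.1 ha).2).1
          obtain ⟨-, x, hx, hx1, hc⟩ := (Finset.mem_filter.1 h2).2
          have h3 : a * x * a⁻¹ ∈ Subgroup.centralizer ({g} : Set G) ⊓
              H.map (MulAut.conj a).toMonoidHom := by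
            refine ⟨?_, ⟨x, hx, rfl⟩⟩
            change _ ∈ Subgroup.centralizer ({g} : Set G)
            rw [Subgroup.mem_centralizer_singleton_iff]
            have h4 : a⁻¹ * g * a * x = x * (a⁻¹ * g * a) := hc
            calc a * x * a⁻¹ * g = a * (x * (a⁻¹ * g * a)) * a⁻¹ := by group
              _ = a * (a⁻¹ * g * a * x) * a⁻¹ := by rw [h4]
              _ = g * (a * x * a⁻¹) := by group
          rw [hbot, Subgroup.mem_bot] at h3
          apply hx1
          have h5 : a⁻¹ * (a * x * a⁻¹) * a = x := by group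
          rw [← h5, h3]
          group
        have hmaps : ∀ a ∈ (Finset.univ.filter fun a : G => a⁻¹ * g * a ∈ Y₀), a₀⁻¹ * a ∈ N := by
          intro a ha
          have heq := hone g hg a a₀ (hne a ha) (hne a₀ ha₀)
          rw [hN, Subgroup.mem_normalizer_iff]
          intro h
          constructor
          · intro hh
            have h2 : a * h * a⁻¹ ∈ H.map (MulAut.conj a).toMonoidHom := ⟨h, hh, rfl⟩
            rw [heq] at h2
            obtain ⟨h', hh', he⟩ := h2
            have he' : a₀ * h' * a₀⁻¹ = a * h * a⁻¹ := he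
            have h3 : a₀⁻¹ * a * h * (a₀⁻¹ * a)⁻¹ = h' := by
              calc a₀⁻¹ * a * h * (a₀⁻¹ * a)⁻¹ = a₀⁻¹ * (a * h * a⁻¹) * a₀ := by group
                _ = a₀⁻¹ * (a₀ * h' * a₀⁻¹) * a₀ := by rw [he']
                _ = h' := by group
            rw [h3]
            exact hh'
          · intro hh
            have h2 : a₀ * (a₀⁻¹ * a * h * (a₀⁻¹ * a)⁻¹) * a₀⁻¹
                ∈ H.map (MulAut.conj a₀).toMonoidHom := ⟨_, hh, rfl⟩
            rw [← heq] at h2
            obtain ⟨h', hh', he⟩ := h2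
            have he' : a * h' * a⁻¹ = a₀ * (a₀⁻¹ * a * h * (a₀⁻¹ * a)⁻¹) * a₀⁻¹ := he
            have h3 : h' = h := by
              have h4 : a * h' * a⁻¹ = a * h * a⁻¹ := by
                rw [he']; group
              simpa using h4
            rwa [← h3]
        have hcard : (Finset.univ.filter fun a : G => a⁻¹ * g * a ∈ Y₀).card ≤ NF.card := by
          refine Finset.card_le_card_of_injOn (fun a => a₀⁻¹ * a) ?_ ?_
          · intro a ha
            simp only [NF, Finset.coe_filter, Finset.mem_univ, true_and, Set.mem_ofPred_eq]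
            exact hmaps a ha
          · intro a _ b _ hab'
            exact mul_left_cancel hab'
        have hNF : NF.card = Nat.card N := by
          rw [Nat.card_eq_fintype_card, Fintype.card_subtype]
        rw [hNF] at hcard
        exact_mod_cast hcard
    have h71 := card_mul_sum_le (fun g => ‖χ g‖ ^ 2)
      (fun g a => by
        have := hcl g a⁻¹
        simp only [inv_inv] at this
        simp only [this])
      (fun g => by positivity) Y₀ _ hstep
    refine le_trans h71 ?_
    have h72 : ∑ g, (if g ∈ Z then (0 : ℝ) else (Nat.card N : ℝ)) * ‖χ g‖ ^ 2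
        = (Nat.card N : ℝ) * ∑ g ∈ Finset.univ.filter (· ∉ Z), ‖χ g‖ ^ 2 := by
      rw [Finset.mul_sum, Finset.sum_filter]
      refine Finset.sum_congr rfl fun g _ => ?_
      by_cases hg : g ∈ Z <;> simp [hg]
    rw [h72]
    have h73 := Finset.sum_filter_add_sum_filter_not Finset.univ (· ∈ Z) (fun n => ‖χ n‖ ^ 2)
    have h74 : ∑ g, ‖χ g‖ ^ 2 = (Fintype.card G : ℝ) := by
      rw [H23.sum_norm_sq_eq hχ, Nat.card_eq_fintype_card]
    rw [h74] at h73
    have h75 : ∑ g ∈ Finset.univ.filter (· ∉ Z), ‖χ g‖ ^ 2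
        = (Fintype.card G : ℝ) - (Nat.card Z : ℝ) * (χ 1).re ^ 2 := by
      have : ∑ g ∈ Finset.univ.filter (· ∈ Z), ‖χ g‖ ^ 2 = (Nat.card Z : ℝ) * (χ 1).re ^ 2 :=
        hZsum
      linarith
    rw [h75]
  -- combination
  set cc := (classInner (fun h : H => χ h) (fun _ => 1)).re ^ 2 with hcc
  set d := (χ 1).re ^ 2 with hd
  have hdpos : 0 < d := by
    rw [hd, one_eq_charDegree (isCharacter_of_irr hχ)]
    have := irr_charDegree_pos hχ
    have h1 : (0 : ℝ) < charDegree χ := by exact_mod_cast this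
    simp only [Complex.natCast_re]
    positivity
  have hgpos : (0 : ℝ) < Fintype.card G := by exact_mod_cast Fintype.card_pos
  have htpos : (0 : ℝ) < Nat.card N := by exact_mod_cast Nat.card_pos
  have hzpos : (0 : ℝ) < Nat.card Z := by exact_mod_cast Nat.card_pos
  set S := ∑ n ∈ Y₀, ‖χ n‖ ^ 2 with hS
  set gg := (Fintype.card G : ℝ) with hgg
  set tt := (Nat.card N : ℝ) with htt
  set zz := (Nat.card Z : ℝ) with hzz
  set hh := (Nat.card H : ℝ) with hhh
  have h8 : hh * zz * cc + tt ≤ S + zz * d := by linarith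
  have h9 : zz * (gg * (hh * cc)) ≤ zz * ((gg - tt) * d) := by
    have := mul_le_mul_of_nonneg_left h8 hgpos.le
    nlinarith
  have h10 := le_of_mul_le_mul_left h9 hzpos
  have h11 : gg * (hh * cc) < gg * d := by
    have : 0 < tt * d := mul_pos htpos hdpos
    nlinarith
  exact lt_of_mul_lt_mul_left h11 hgpos.le

/-- For a character of an abelian group, the norm is at least the degree. -/
theorem degree_le_inner_self {K : Type*} [Group K] [Fintype K] (hcomm : ∀ a b : K, a * b = b * a)
    {ψ : K → ℂ} (hψ : IsCharacter K ψ) : (ψ 1).re ≤ (classInner ψ ψ).re := by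
  classical
  haveI : Fintype (IrrCharacter K) := Fintype.ofFinite _
  obtain ⟨n, hn, hn'⟩ := isCharacter_decomp hψ
  have h1 : classInner ψ ψ = ∑ l : IrrCharacter K, ((n l ^ 2 : ℕ) : ℂ) := by
    have h2 : ψ = ∑ l : IrrCharacter K, (n l : ℂ) • (l : K → ℂ) := by
      conv_lhs => rw [hn]
      exact Finset.sum_congr rfl fun l _ => by rw [Nat.cast_smul_eq_nsmul]
    conv_lhs => rw [h2]
    rw [classInner_sum_left]
    refine Finset.sum_congr rfl fun l _ => ?_
    rw [classInner_smul_left]
    have h3 : classInner (l : K → ℂ) (∑ l : IrrCharacter K, (n l : ℂ) • (l : K → ℂ)) = n l := by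
      rw [← h2, ← classInner_comm_conj, hn']
      simp
    rw [h3]
    push_cast
    ring
  have h2 : ψ 1 = ∑ l : IrrCharacter K, ((n l : ℕ) : ℂ) := by
    conv_lhs => rw [hn]
    simp only [Finset.sum_apply, Pi.smul_apply]
    refine Finset.sum_congr rfl fun l _ => ?_
    rw [one_eq_charDegree (isCharacter_of_irr l.2), irr_degree_one_of_comm hcomm l.2]
    simp
  rw [h1, h2, Complex.re_sum, Complex.re_sum]
  refine Finset.sum_le_sum fun l _ => ?_
  simp only [Complex.natCast_re]
  exact_mod_cast Nat.le_self_pow (by norm_num) _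

open Classical in
/-- **Part two**. -/
theorem part_two (H : Subgroup G) [Fintype H] (hab : ∀ a ∈ H, ∀ b ∈ H, a * b = b * a)
    (hZ : H ⊓ Subgroup.center G = ⊥)
    (hone : ∀ g : G, g ∉ Subgroup.center G → ∀ a b : G,
      Subgroup.centralizer ({g} : Set G) ⊓ H.map (MulAut.conj a).toMonoidHom ≠ ⊥ →
      Subgroup.centralizer ({g} : Set G) ⊓ H.map (MulAut.conj b).toMonoidHom ≠ ⊥ →
      H.map (MulAut.conj a).toMonoidHom = H.map (MulAut.conj b).toMonoidHom)
    (χ : G → ℂ) (hχ : IsIrrCharacter G χ) (h1 : χ 1 ≠ 1)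
    (hM : ∀ M : Subgroup G, M.Normal → H ≤ M → M = ⊤) :
    (1 + (χ 1).re) ^ 2 > (Nat.card H : ℝ) := by
  haveI : Fintype (IrrCharacter G) := Fintype.ofFinite _
  have hχc := isCharacter_of_irr hχ
  let X : G → ℂ := fun g => χ g * conj (χ g)
  have hX : IsCharacter G X := isCharacter_mul hχc (H23.isCharacter_conjFun hχc)
  obtain ⟨m, hm, hm'⟩ := isCharacter_decomp hX
  let e : IrrCharacter G := ⟨fun _ => 1, isIrrCharacter_one⟩
  have hme : m e = 1 := by
    have h2 := hm' e
    have h3 : classInner X (e : G → ℂ) = classInner χ χ := by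
      simp [classInner, X, e]
    rw [h3, H06.classInner_irr_self hχ] at h2
    exact_mod_cast h2.symm
  let D : IrrCharacter G → ℝ := fun θ => (θ.1 1).re
  let C : IrrCharacter G → ℝ := fun θ => (classInner (fun h : H => θ.1 h) (fun _ => 1)).re
  have hD0 : ∀ θ : IrrCharacter G, 0 ≤ D θ := by
    intro θ
    simp only [D]
    rw [one_eq_charDegree (isCharacter_of_irr θ.2)]
    simp
  have hdeg : ∃ d : ℕ, χ 1 = d ∧ 2 ≤ d := by
    refine ⟨charDegree χ, one_eq_charDegree hχc, ?_⟩
    have h2 := irr_charDegree_pos hχ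
    have h3 : charDegree χ ≠ 1 := by
      intro h4
      apply h1
      rw [one_eq_charDegree hχc, h4]
      simp
    omega
  obtain ⟨d, hd, hd2⟩ := hdeg
  have hXval : ∀ g, X g = ∑ θ : IrrCharacter G, (m θ : ℂ) * θ.1 g := by
    intro g
    have := congrFun hm g
    simp only [Finset.sum_apply, Pi.smul_apply, nsmul_eq_mul] at this
    exact this
  have eq1 : (χ 1).re ^ 2 = ∑ θ, (m θ : ℝ) * D θ := by
    have h2 := congrArg Complex.re (hXval 1)
    rw [Complex.re_sum] at h2
    have h3 : (X 1).re = (χ 1).re ^ 2 := by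
      simp only [X, hd]
      simp
      ring
    rw [h3] at h2
    rw [h2]
    refine Finset.sum_congr rfl fun θ _ => ?_
    simp [Complex.mul_re, D]
  have eq2 : (classInner (fun h : H => X h) (fun _ => 1)).re = ∑ θ, (m θ : ℝ) * C θ := by
    have h2 : classInner (fun h : H => X h) (fun _ => 1)
        = ∑ θ : IrrCharacter G, (m θ : ℂ) * classInner (fun h : H => θ.1 h) (fun _ => 1) := by
      simp only [classInner, hXval, map_one, mul_one]
      rw [Finset.sum_comm, Finset.mul_sum]
      refine Finset.sum_congr rfl fun θ _ => ?_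
      rw [← Finset.mul_sum]
      ring
    rw [h2, Complex.re_sum]
    refine Finset.sum_congr rfl fun θ _ => ?_
    simp [Complex.mul_re, C]
  have eq3 : (χ 1).re ≤ (classInner (fun h : H => X h) (fun _ => 1)).re := by
    have h2 := degree_le_inner_self (K := H) (fun a b => Subtype.ext (hab a a.2 b b.2))
      (isCharacter_restrict H hχc)
    have h3 : classInner (fun h : H => X h) (fun _ => 1)
        = classInner (fun h : H => χ h) (fun h : H => χ h) := by
      simp [classInner, X]
    rw [h3]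
    simpa using h2
  have De : D e = 1 := by simp [D, e]
  have Ce : C e = 1 := by
    simp [C, e, classInner, Nat.card_eq_fintype_card]
  let s : ℝ := Real.sqrt (Nat.card H)
  have hs0 : 0 ≤ s := Real.sqrt_nonneg _
  have hss : s ^ 2 = (Nat.card H : ℝ) := Real.sq_sqrt (by positivity)
  have hlt : ∀ θ : IrrCharacter G, θ ≠ e → s * C θ < D θ := by
    intro θ hθ
    have hk : ∃ h ∈ H, θ.1 h ≠ θ.1 1 := by
      by_contra hcon
      push Not at hcon
      have hK := hM (charKer θ.1 (isCharacter_of_irr θ.2)) inferInstance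
        (fun h hh => by rw [mem_charKer]; exact hcon h hh)
      have hall : ∀ g, θ.1 g = θ.1 1 := fun g => by
        have : g ∈ charKer θ.1 (isCharacter_of_irr θ.2) := by rw [hK]; trivial
        simpa using this
      have h2 := classInner_irr θ e
      rw [if_neg hθ] at h2
      have h3 : classInner (θ : G → ℂ) (e : G → ℂ) = θ.1 1 := by
        simp only [classInner, hall, e]
        have hc : (Nat.card G : ℂ) ≠ 0 := by exact_mod_cast Nat.card_pos.ne'
        simp only [map_one, mul_one, Finset.sum_const, Finset.card_univ, nsmul_eq_mul,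
          ← Nat.card_eq_fintype_card]
        rw [← mul_assoc, inv_mul_cancel₀ hc, one_mul]
      rw [h3] at h2
      exact H06.irr_one_ne_zero' θ.2 h2
    have h2 := part_one H hab hZ hone θ.1 θ.2 hk
    have h3 : (s * C θ) ^ 2 < D θ ^ 2 := by
      rw [mul_pow, hss]
      exact h2
    exact lt_of_pow_lt_pow_left₀ 2 (hD0 θ) h3
  -- the split sum
  have hsplit : ∑ θ ∈ Finset.univ.erase e, (m θ : ℝ) * (D θ - s * C θ)
      = ((χ 1).re ^ 2 - 1) - s * ((classInner (fun h : H => X h) (fun _ => 1)).re - 1) := by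
    have h2 := Finset.add_sum_erase Finset.univ (fun θ => (m θ : ℝ) * (D θ - s * C θ))
      (Finset.mem_univ e)
    have h3 : ∑ θ, (m θ : ℝ) * (D θ - s * C θ)
        = (χ 1).re ^ 2 - s * (classInner (fun h : H => X h) (fun _ => 1)).re := by
      rw [eq1, eq2, Finset.mul_sum, ← Finset.sum_sub_distrib]
      refine Finset.sum_congr rfl fun θ _ => ?_
      ring
    rw [h3, hme, De, Ce] at h2
    push_cast at h2
    linarith
  have hpos : 0 < ∑ θ ∈ Finset.univ.erase e, (m θ : ℝ) * (D θ - s * C θ) := by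
    have hnn : ∀ θ ∈ Finset.univ.erase e, 0 ≤ (m θ : ℝ) * (D θ - s * C θ) := by
      intro θ hθ
      have := hlt θ (Finset.ne_of_mem_erase hθ)
      exact mul_nonneg (by positivity) (by linarith)
    refine Finset.sum_pos' hnn ?_
    by_contra hcon
    push Not at hcon
    have h3 : ∀ θ ∈ Finset.univ.erase e, m θ = 0 := by
      intro θ hθ
      have h4 := hcon θ hθ
      have h5 := hlt θ (Finset.ne_of_mem_erase hθ)
      by_contra h6
      have h7 : (0 : ℝ) < m θ := by exact_mod_cast Nat.pos_of_ne_zero h6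
      have h8 : 0 < (m θ : ℝ) * (D θ - s * C θ) := mul_pos h7 (by linarith)
      linarith
    have h4 := Finset.add_sum_erase Finset.univ (fun θ => (m θ : ℝ) * D θ) (Finset.mem_univ e)
    rw [Finset.sum_eq_zero (fun θ hθ => by rw [h3 θ hθ]; simp), hme, De] at h4
    rw [← eq1, hd] at h4
    simp only [Complex.natCast_re] at h4
    have h5 : (2 : ℝ) ≤ d := by exact_mod_cast hd2
    push_cast at h4
    nlinarith
  rw [hsplit] at hpos
  have hu : (χ 1).re = (d : ℝ) := by rw [hd]; simp
  have hu2 : (2 : ℝ) ≤ (χ 1).re := by rw [hu]; exact_mod_cast hd2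
  set u := (χ 1).re with hudef
  set A := (classInner (fun h : H => X h) (fun _ => 1)).re with hA
  have h5 : s * (u - 1) ≤ s * (A - 1) := mul_le_mul_of_nonneg_left (by linarith) hs0
  have h6 : 0 < (u - 1) * (u + 1 - s) := by nlinarith
  have h7 : 0 < u + 1 - s := (pos_iff_pos_of_mul_pos h6).1 (by linarith)
  rw [← hss]
  have h8 : s < 1 + u := by linarith
  exact pow_lt_pow_left₀ h8 hs0 (by norm_num)

end Main

end Cfsg.Agent.H04.Cliff.FT
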