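import Cfsg.Agent.Lib.H04.Cliff.FT
import Cfsg.Agent.Lib.H21.CharLinear
import Mathlib.GroupTheory.Perm.Cycle.Type
import Mathlib.GroupTheory.Sylow
import Mathlib.Dynamics.PeriodicPts.Lemmas

/-! An automorphism of `p`-power order of a `p'`-group preserving a faithful character of degree
at most `p - 2` is trivial. -/

set_option autoImplicit false
set_option linter.style.haveILetI false
set_option linter.unusedVariables false
set_option linter.unusedSectionVars false
set_option linter.unusedSimpArgs false

open Cfsg Cfsg.Agent.H21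
open scoped ComplexConjugate Pointwise

namespace Cfsg.Agent.H04.Cliff.FT

universe u

section Fix

variable {L : Type u} [Group L] [Finite L]

/-- `α^[p] x = d^p x` style iteration. -/
theorem iterate_mul_left (α : L →* L) {d : L} (hd : α d = d) (x : L) {y : L} (hy : α x = d * x)
    (j : ℕ) : α^[j] x = d ^ j * x := by
  induction j with
  | zero => simp
  | succ j ih =>
    rw [Function.iterate_succ_apply', ih, map_mul, map_pow, hd, hy, pow_succ, mul_assoc]

theorem eq_one_of_pow_prime {p : ℕ} [Fact p.Prime] (hp : ¬ p ∣ Nat.card L) {c : L} (hc : c ^ p = 1) :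
    c = 1 := by
  have h1 : orderOf c ∣ p := orderOf_dvd_of_pow_eq_one hc
  have h2 : orderOf c ∣ Nat.card L := orderOf_dvd_natCard c
  rcases (Nat.dvd_prime (Fact.out : p.Prime)).1 h1 with h3 | h3
  · exact orderOf_eq_one_iff.1 h3
  · rw [h3] at h2
    exact absurd h2 hp

/-- An injectivity statement. -/
theorem injective_of_iterate (α : L →* L) {p : ℕ} (hp0 : 0 < p) (hα : ∀ x, α^[p] x = x) :
    Function.Injective α := by
  intro x y hxy
  have h1 := hα x
  have h2 := hα y
  obtain ⟨q, rfl⟩ : ∃ q, p = q + 1 := ⟨p - 1, by omega⟩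
  rw [Function.iterate_succ_apply] at h1 h2
  rw [← h1, ← h2, hxy]

/-- An automorphism of prime order of a `p'`-group fixes a Sylow `q`-subgroup. -/
theorem exists_fixed_sylow (α : L →* L) {p : ℕ} [Fact p.Prime] (hα : ∀ x, α^[p] x = x)
    (hp : ¬ p ∣ Nat.card L) (q : ℕ) [Fact q.Prime] :
    ∃ S : Sylow q L, ∀ x ∈ (S : Subgroup L), α x ∈ (S : Subgroup L) := by
  classical
  haveI : Fintype (Sylow q L) := Fintype.ofFinite _
  have hp0 : 0 < p := (Fact.out : p.Prime).pos
  have hinj := injective_of_iterate α hp0 hα
  have hbij : Function.Bijective α := Finite.injective_iff_bijective.1 hinj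
  let αe : MulAut L := MulEquiv.ofBijective α hbij
  have hαe : ∀ x, αe x = α x := fun x => rfl
  have hpow : ∀ (j : ℕ) (x : L), (αe ^ j) x = α^[j] x := by
    intro j x
    induction j generalizing x with
    | zero => simp
    | succ j ih =>
      rw [pow_succ, MulAut.mul_apply, ih, Function.iterate_succ_apply, hαe]
  have hone : αe ^ p = 1 := by
    ext x
    rw [hpow, hα]
    simp
  let f : Function.End (Sylow q L) := fun S => αe • S
  have hit : ∀ (j : ℕ) (S : Sylow q L), f^[j] S = (αe ^ j) • S := by
    intro j S
    induction j generalizing S with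
    | zero =>
      rw [pow_zero, one_smul]
      rfl
    | succ j ih =>
      rw [Function.iterate_succ_apply, ih, pow_succ, mul_smul]
  have hf : f ^ p ^ 1 = 1 := by
    funext S
    have : (f ^ p ^ 1) S = f^[p] S := by
      rw [pow_one]; rfl
    rw [this, hit, hone, one_smul]
    rfl
  have hmod := Equiv.Perm.card_fixedPoints_modEq hf
  have hS0 : ∃ S : Sylow q L, f S = S := by
    by_contra hcon
    push Not at hcon
    have h0 : Fintype.card f.fixedPoints = 0 := by
      rw [Fintype.card_eq_zero_iff]
      exact ⟨fun S => hcon S.1 S.2⟩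
    rw [h0] at hmod
    have hd : p ∣ Fintype.card (Sylow q L) := (Nat.modEq_zero_iff_dvd).1 hmod
    obtain ⟨S⟩ : Nonempty (Sylow q L) := inferInstance
    have h1 := S.card_dvd_index
    rw [Nat.card_eq_fintype_card] at h1
    exact hp (hd.trans (h1.trans (Subgroup.index_dvd_card _)))
  obtain ⟨S, hS⟩ := hS0
  refine ⟨S, fun x hx => ?_⟩
  have h1 : αe • S = S := hS
  have h2 : α x ∈ ((αe • S : Sylow q L) : Subgroup L) := by
    rw [Sylow.pointwise_smul_def, Subgroup.pointwise_smul_def]
    exact ⟨x, hx, rfl⟩
  rwa [h1] at h2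

/-- **The key lemma** for the `p`-solvable situation. -/
theorem fixed_of_small (p : ℕ) [Fact p.Prime] :
    ∀ (k : ℕ) (L : Type u) [Group L] [Finite L] (α : L →* L) (_ : ∀ x, α^[p] x = x)
      (_ : ¬ p ∣ Nat.card L) (X : L → ℂ) (_ : IsCharacter L X) (_ : ∀ x, X (α x) = X x)
      (_ : ∀ x, X x = X 1 → x = 1) (_ : charDegree X + 2 ≤ p) (_ : Nat.card L ≤ k),
      ∀ x, α x = x := by
  intro k
  induction k with
  | zero =>
    intro L _ _ α _ _ X _ _ _ _ hk
    exact absurd hk (by have := Nat.card_pos (α := L); omega)
  | succ k ih =>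
    intro L _ _ α hα hp X hX hinv hfaith hdeg hk
    classical
    by_contra hcon
    push Not at hcon
    obtain ⟨x₀, hx₀⟩ := hcon
    haveI : Fintype L := Fintype.ofFinite _
    haveI : Fintype (IrrCharacter L) := Fintype.ofFinite _
    have hp0 : 0 < p := (Fact.out : p.Prime).pos
    have hinj := injective_of_iterate α hp0 hα
    have hbij : Function.Bijective α := Finite.injective_iff_bijective.1 hinj
    let C : Subgroup L := MonoidHom.eqLocus α (MonoidHom.id L)
    have hC : ∀ x, x ∈ C ↔ α x = x := fun x => Iff.rfl
    -- proper invariant subgroups are fixed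
    have hprop : ∀ L₁ : Subgroup L, L₁ ≠ ⊤ → (∀ x ∈ L₁, α x ∈ L₁) → ∀ x ∈ L₁, α x = x := by
      intro L₁ hne hinv₁ x hx
      have hcard : Nat.card L₁ ≤ k := by
        have h1 : Nat.card L₁ < Nat.card L := by
          have h0 := L₁.card_mul_index
          have h2 : L₁.index ≠ 1 := fun h => hne (Subgroup.index_eq_one.1 h)
          have h3 : L₁.index ≠ 0 := Subgroup.index_ne_zero_of_finite
          have h4 : 0 < Nat.card L₁ := Nat.card_pos
          have h5 : 2 ≤ L₁.index := by omega
          nlinarith
        omega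
      let α₁ : L₁ →* L₁ := (α.comp L₁.subtype).codRestrict L₁ (fun y => hinv₁ y y.2)
      have hα₁ : ∀ y : L₁, (α₁ y : L) = α y := fun y => rfl
      have hit : ∀ (j : ℕ) (y : L₁), ((α₁^[j] y : L₁) : L) = α^[j] y := by
        intro j y
        induction j with
        | zero => rfl
        | succ j ih' =>
          rw [Function.iterate_succ_apply', Function.iterate_succ_apply', hα₁, ih']
      have h := ih L₁ α₁ (fun y => Subtype.ext (by rw [hit, hα]))
        (fun hd => hp (hd.trans (Subgroup.card_subgroup_dvd_card L₁)))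
        (fun y => X y) (isCharacter_restrict L₁ hX) (fun y => hinv y)
        (fun y hy => Subtype.ext (hfaith y hy))
        (by
          have : charDegree (fun y : L₁ => X y) = charDegree X := rfl
          rw [this]; exact hdeg) hcard ⟨x, hx⟩
      exact congrArg Subtype.val h
    have hCne : C ≠ ⊤ := fun h => hx₀ ((hC x₀).1 (h ▸ Subgroup.mem_top x₀))
    -- `L` is a `q`-group
    have hidx : C.index ≠ 1 := fun h => hCne (Subgroup.index_eq_one.1 h)
    obtain ⟨q, hq, hqd⟩ := Nat.exists_prime_and_dvd hidx
    haveI : Fact q.Prime := ⟨hq⟩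
    obtain ⟨S, hS⟩ := exists_fixed_sylow α hα hp q
    have hStop : (S : Subgroup L) = ⊤ := by
      by_contra hne
      have h1 : (S : Subgroup L) ≤ C := fun x hx => hprop S hne hS x hx
      exact S.not_dvd_index (hqd.trans (Subgroup.index_dvd_of_le h1))
    have hqg : IsPGroup q L := by
      intro g
      obtain ⟨n, hn⟩ := S.isPGroup' ⟨g, by rw [hStop]; trivial⟩
      exact ⟨n, by simpa [Subtype.ext_iff] using hn⟩
    haveI hsolv : Group.IsSolvable L := by
      haveI := hqg.isNilpotent
      infer_instance
    haveI : Nontrivial L := ⟨⟨x₀, 1, fun h => hx₀ (by rw [h, map_one])⟩⟩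
    have hcomm : commutator L < ⊤ := by
      have := Group.IsSolvable.commutator_lt_top_of_nontrivial L
      exact this
    have hcomm_inv : ∀ x ∈ commutator L, α x ∈ commutator L := by
      intro x hx
      have h1 : α x ∈ (commutator L).map α := ⟨x, hx, rfl⟩
      rw [commutator_def, Subgroup.map_commutator] at h1
      exact Subgroup.commutator_mono le_top le_top h1
    have hcomm_le : commutator L ≤ C := fun x hx => hprop _ hcomm.ne hcomm_inv x hx
    haveI hCn : C.Normal := by
      constructor
      intro c hc g
      have h1 : g * c * g⁻¹ * c⁻¹ ∈ C := hcomm_le (Subgroup.commutator_mem_commutator 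
        (Subgroup.mem_top g) (Subgroup.mem_top c))
      have h2 := C.mul_mem h1 hc
      simpa using h2
    -- `C` is central
    have hcen : ∀ c ∈ C, ∀ g, g * c = c * g := by
      have hdmem : ∀ x c, c ∈ C → (α x * x⁻¹) * c = c * (α x * x⁻¹) := by
        intro x c hc
        have h1 : x⁻¹ * c * x ∈ C := by
          have := hCn.conj_mem c hc x⁻¹
          simpa using this
        have h2 : α (x⁻¹ * c * x) = x⁻¹ * c * x := (hC _).1 h1
        rw [map_mul, map_mul, map_inv, (hC c).1 hc] at h2
        calc α x * x⁻¹ * c = α x * (x⁻¹ * c * x) * x⁻¹ := by group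
          _ = α x * ((α x)⁻¹ * c * α x) * x⁻¹ := by rw [h2]
          _ = c * (α x * x⁻¹) := by group
      let D : Subgroup L := Subgroup.centralizer (C : Set L)
      have hDmem : ∀ d, d ∈ D ↔ ∀ c ∈ C, c * d = d * c := fun d => by
        rw [Subgroup.mem_centralizer_iff]
        rfl
      have hDinv : ∀ d ∈ D, α d ∈ D := by
        intro d hd
        rw [hDmem] at hd ⊢
        intro c hc
        have h1 := congrArg α (hd c hc)
        rwa [map_mul, map_mul, (hC c).1 hc] at h1
      have hDtop : D = ⊤ := by
        by_contra hne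
        have hfix := hprop D hne hDinv
        apply hx₀
        have hd : α x₀ * x₀⁻¹ ∈ D := by
          rw [hDmem]
          intro c hc
          exact (hdmem x₀ c hc).symm
        set d := α x₀ * x₀⁻¹ with hd'
        have hdx : α x₀ = d * x₀ := by rw [hd']; group
        have hit := iterate_mul_left α (hfix d hd) x₀ (y := x₀) hdx p
        rw [hα] at hit
        have hpow : d ^ p = 1 := by
          have := congrArg (· * x₀⁻¹) hit
          simpa using this.symm
        have hd1 := eq_one_of_pow_prime hp hpow
        rw [hdx, hd1, one_mul]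
      intro c hc g
      have hg : g ∈ D := by rw [hDtop]; trivial
      exact ((hDmem g).1 hg c hc).symm
    -- the constituent `θ`
    obtain ⟨m, hm, hm'⟩ := isCharacter_decomp hX
    have hval : ∀ g, X g = ∑ ψ : IrrCharacter L, (m ψ : ℂ) * ψ.1 g := by
      intro g
      have := congrFun hm g
      simp only [Finset.sum_apply, Pi.smul_apply, nsmul_eq_mul] at this
      exact this
    set d₀ := α x₀ * x₀⁻¹ with hd₀
    have hd₀1 : d₀ ≠ 1 := by
      intro h
      apply hx₀
      rw [hd₀, mul_inv_eq_one] at h
      exact h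
    have hX0 : X d₀ ≠ X 1 := fun h => hd₀1 (hfaith _ h)
    obtain ⟨θ, hθm, hθ⟩ : ∃ θ : IrrCharacter L, m θ ≠ 0 ∧ θ.1 d₀ ≠ θ.1 1 := by
      by_contra hcon
      push Not at hcon
      apply hX0
      rw [hval, hval]
      refine Finset.sum_congr rfl fun ψ _ => ?_
      by_cases hψ : m ψ = 0
      · simp [hψ]
      · rw [hcon ψ hψ]
    have hdegX : charDegree X = ∑ ψ : IrrCharacter L, m ψ * charDegree ψ.1 := by
      have h1 := hval 1
      rw [one_eq_charDegree hX] at h1
      have h2 : ∀ ψ : IrrCharacter L, (m ψ : ℂ) * ψ.1 1 = ((m ψ * charDegree ψ.1 : ℕ) : ℂ) := by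
        intro ψ
        rw [one_eq_charDegree (isCharacter_of_irr ψ.2)]
        push_cast
        ring
      simp only [h2] at h1
      exact_mod_cast h1
    have hdegpos : ∀ ψ : IrrCharacter L, 1 ≤ charDegree ψ.1 := fun ψ => irr_charDegree_pos ψ.2
    have hθle : charDegree θ.1 ≤ charDegree X := by
      rw [hdegX]
      have h1 := Finset.single_le_sum (f := fun ψ : IrrCharacter L => m ψ * charDegree ψ.1)
        (fun i _ => Nat.zero_le _) (Finset.mem_univ θ)
      refine le_trans ?_ h1
      exact Nat.le_mul_of_pos_left _ (Nat.pos_of_ne_zero hθm)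
    let τ : IrrCharacter L → IrrCharacter L := fun ψ =>
      ⟨ψ.1 ∘ α, isIrrCharacter_comp_of_surjective α hbij.2 ψ.2⟩
    have hτval : ∀ (j : ℕ) (ψ : IrrCharacter L) (g : L), (τ^[j] ψ).1 g = ψ.1 (α^[j] g) := by
      intro j ψ g
      induction j generalizing g with
      | zero => rfl
      | succ j ih =>
        rw [Function.iterate_succ_apply', Function.iterate_succ_apply']
        change (τ^[j] ψ).1 (α g) = ψ.1 (α (α^[j] g))
        rw [ih]
        congr 1
        rw [← Function.iterate_succ_apply (⇑α), Function.iterate_succ_apply' (⇑α)]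
    have hmτ : ∀ ψ, m (τ ψ) = m ψ := by
      intro ψ
      have h1 := hm' (τ ψ)
      have h2 := hm' ψ
      have h3 : classInner X (τ ψ).1 = classInner X ψ.1 := by
        simp only [classInner]
        congr 1
        refine Fintype.sum_bijective α hbij _ _ fun g => ?_
        change X g * conj (ψ.1 (α g)) = X (α g) * conj (ψ.1 (α g))
        rw [hinv]
      rw [h3, h2] at h1
      exact_mod_cast h1.symm
    have hdτ : ∀ ψ, charDegree (τ ψ).1 = charDegree ψ.1 := by
      intro ψ
      change ⌊(ψ.1 (α 1)).re⌋₊ = ⌊(ψ.1 1).re⌋₊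
      rw [map_one]
    have hmit : ∀ (j : ℕ) ψ, m (τ^[j] ψ) = m ψ ∧ charDegree (τ^[j] ψ).1 = charDegree ψ.1 := by
      intro j ψ
      induction j with
      | zero => exact ⟨rfl, rfl⟩
      | succ j ih =>
        rw [Function.iterate_succ_apply', hmτ, hdτ]
        exact ih
    have hper : Function.IsPeriodicPt τ p θ := by
      apply Subtype.ext
      funext g
      rw [hτval, hα]
    have hfixθ : τ θ = θ := by
      rcases (Nat.dvd_prime (Fact.out : p.Prime)).1 hper.minimalPeriod_dvd with h1 | h1
      · exact Function.minimalPeriod_eq_one_iff_isFixedPt.1 h1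
      · exfalso
        let I : Finset (IrrCharacter L) := (Finset.range p).image (fun i => τ^[i] θ)
        have hcard : I.card = p := by
          rw [Finset.card_image_of_injOn, Finset.card_range]
          intro i hi j hj hij
          have hinj' := Function.iterate_injOn_Iio_minimalPeriod (f := τ) (x := θ)
          rw [h1] at hinj'
          exact hinj' (by simpa using hi) (by simpa using hj) hij
        have h2 : p ≤ charDegree X := by
          rw [hdegX, ← hcard, Finset.card_eq_sum_ones]
          refine le_trans ?_ (Finset.sum_le_sum_of_subset (Finset.subset_univ I))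
          refine Finset.sum_le_sum fun ψ hψ => ?_
          obtain ⟨i, -, rfl⟩ := Finset.mem_image.1 hψ
          rw [(hmit i θ).1, (hmit i θ).2]
          exact Nat.mul_pos (Nat.pos_of_ne_zero hθm) (hdegpos θ)
        omega
    have hθα : ∀ g, θ.1 (α g) = θ.1 g := fun g => congrFun (congrArg Subtype.val hfixθ) g
    have hθc := isCharacter_of_irr θ.2
    let K : Subgroup L := charKer θ.1 hθc
    haveI : K.Normal := charKer_normal _ _
    have hKmem : ∀ g, g ∈ K ↔ θ.1 g = θ.1 1 := fun g => Iff.rfl
    let R : Subgroup L := (Subgroup.center (L ⧸ K)).comap (QuotientGroup.mk' K)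
    have hR : ∀ x, x ∈ R ↔ ∀ g, x * g * x⁻¹ * g⁻¹ ∈ K := by
      intro x
      constructor
      · intro hx g
        have h1 : (g : L ⧸ K) * (x : L ⧸ K) = (x : L ⧸ K) * g :=
          Subgroup.mem_center_iff.1 hx (g : L ⧸ K)
        rw [← QuotientGroup.eq_one_iff]
        simp only [QuotientGroup.mk_mul, QuotientGroup.mk_inv]
        rw [← h1]
        group
      · intro hx
        refine Subgroup.mem_center_iff.2 fun q => ?_
        obtain ⟨g, rfl⟩ := QuotientGroup.mk_surjective q
        have h1 := (QuotientGroup.eq_one_iff _).2 (hx g)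
        simp only [QuotientGroup.mk_mul, QuotientGroup.mk_inv] at h1
        have h2 : (x : L ⧸ K) * g = (g : L ⧸ K) * x := by
          have h3 := congrArg (· * ((g : L ⧸ K) * x)) h1
          simpa [mul_assoc] using h3
        exact h2.symm
    have hRinv : ∀ x ∈ R, α x ∈ R := by
      intro x hx
      rw [hR] at hx ⊢
      intro g
      obtain ⟨g', rfl⟩ := hbij.2 g
      have h1 := hx g'
      rw [hKmem] at h1 ⊢
      have h2 : α x * α g' * (α x)⁻¹ * (α g')⁻¹ = α (x * g' * x⁻¹ * g'⁻¹) := by
        simp only [map_mul, map_inv]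
      rw [h2, hθα, h1]
    by_cases hRtop : R = ⊤
    · -- the linear case
      have hcq : ∀ a b : L ⧸ K, a * b = b * a := by
        intro a b
        obtain ⟨x, rfl⟩ := QuotientGroup.mk_surjective a
        have hx : x ∈ R := by rw [hRtop]; trivial
        exact (Subgroup.mem_center_iff.1 hx b).symm
      obtain ⟨χ', hχ', hcomp⟩ := isIrrCharacter_descend (QuotientGroup.mk' K)
        (QuotientGroup.mk'_surjective K) θ.2 (fun k hk => by
          have : k ∈ K := (QuotientGroup.eq_one_iff k).1 hk
          exact this)
      have hd1 : charDegree χ' = 1 := irr_degree_one_of_comm hcq hχ'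
      have hdθ : charDegree θ.1 = 1 := by
        rw [← hd1, ← hcomp]
        change ⌊(χ' ((QuotientGroup.mk' K) 1)).re⌋₊ = ⌊(χ' 1).re⌋₊
        rw [map_one]
      apply hθ
      rw [hd₀, linear_mul hθc hdθ, hθα, ← linear_mul hθc hdθ, mul_inv_cancel]
    · have hRC : ∀ x ∈ R, x ∈ C := fun x hx => (hC x).2 (hprop R hRtop hRinv x hx)
      have hdegn : θ.1 1 = (charDegree θ.1 : ℂ) := one_eq_charDegree hθc
      have hzero : ∀ x, x ∉ C → θ.1 x = 0 := by
        intro x hx
        have h1 : x ∉ R := fun h => hx (hRC x h)
        rw [hR] at h1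
        push Not at h1
        obtain ⟨g, hg⟩ := h1
        set e := g * x * g⁻¹ * x⁻¹ with he
        have heinv : x * g * x⁻¹ * g⁻¹ = e⁻¹ := by rw [he]; group
        have heK : e ∉ K := by
          intro h
          apply hg
          rw [heinv]
          exact K.inv_mem h
        have heC : e ∈ C := hcomm_le (Subgroup.commutator_mem_commutator
          (Subgroup.mem_top g) (Subgroup.mem_top x))
        have hez : e ∈ Subgroup.center L := Subgroup.mem_center_iff.2 fun k => hcen e heC k
        have h2 : θ.1 (e * x) = θ.1 x := by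
          have h3 : e * x = g * x * g⁻¹ := by rw [he]; group
          rw [h3]
          exact isCharacter_conj hθc x g
        have h3 := irr_central_mul θ.2 hez x
        rw [h2, ← hdegn] at h3
        have h4 : θ.1 x * (θ.1 1 - θ.1 e) = 0 := by
          rw [mul_sub, h3]
          ring
        rcases mul_eq_zero.1 h4 with h5 | h5
        · exact h5
        · exact absurd (sub_eq_zero.1 h5).symm heK
      have hcentral : ∀ c ∈ C, ‖θ.1 c‖ ^ 2 = (charDegree θ.1 : ℝ) ^ 2 := by
        intro c hc
        rw [irr_norm_central θ.2 (Subgroup.mem_center_iff.2 fun k => hcen c hc k)]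
      have hsum : (Nat.card L : ℝ) = (Nat.card C : ℝ) * (charDegree θ.1 : ℝ) ^ 2 := by
        rw [← H23.sum_norm_sq_eq θ.2]
        have h1 : ∑ g : L, ‖θ.1 g‖ ^ 2 = ∑ g ∈ Finset.univ.filter (· ∈ C), ‖θ.1 g‖ ^ 2 := by
          rw [Finset.sum_filter]
          refine Finset.sum_congr rfl fun g _ => ?_
          by_cases hg : g ∈ C
          · simp [hg]
          · simp [hg, hzero g hg]
        rw [h1, Finset.sum_congr rfl (fun g hg => hcentral g (by simpa using hg)), Finset.sum_const,
          nsmul_eq_mul]
        congr 2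
        rw [Nat.card_eq_fintype_card, Fintype.card_subtype]
      have hsum' : Nat.card L = Nat.card C * charDegree θ.1 ^ 2 := by exact_mod_cast hsum
      -- the congruence
      have hcong : Nat.card L ≡ Nat.card C [MOD p] := by
        let f : Function.End L := fun x => α x
        have hf : f ^ p ^ 1 = 1 := by
          funext x
          have : (f ^ p ^ 1) x = α^[p] x := by
            rw [pow_one]; rfl
          rw [this, hα]
          rfl
        have h1 := Equiv.Perm.card_fixedPoints_modEq hf
        simp only [Fintype.card_eq_nat_card] at h1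
        have h2 : Nat.card f.fixedPoints = Nat.card C := by
          refine Nat.card_congr (Equiv.subtypeEquivRight fun x => ?_)
          exact Iff.rfl
        rw [h2] at h1
        exact h1
      rw [hsum'] at hcong
      have hpC : Nat.Coprime p (Nat.card C) :=
        ((Nat.Prime.coprime_iff_not_dvd Fact.out).2
          fun hd => hp (hd.trans (Subgroup.card_subgroup_dvd_card C)))
      have hcong2 : charDegree θ.1 ^ 2 ≡ 1 [MOD p] := by
        have h1 : Nat.card C * charDegree θ.1 ^ 2 ≡ Nat.card C * 1 [MOD p] := by
          simpa using hcong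
        exact Nat.ModEq.cancel_left_of_coprime hpC h1
      set dg := charDegree θ.1 with hdg
      have hdg1 : dg ≠ 1 := by
        intro h1
        rw [h1] at hsum'
        simp only [one_pow, mul_one] at hsum'
        exact hCne (Subgroup.eq_top_of_card_eq C hsum'.symm)
      have hdg2 : 2 ≤ dg := by
        have := hdegpos θ
        omega
      have hdvd : p ∣ (dg - 1) * (dg + 1) := by
        have h1 : 1 ≤ dg ^ 2 := Nat.one_le_pow _ _ (by omega)
        have h2 := (Nat.modEq_iff_dvd' h1).1 hcong2.symm
        have h3 : dg ^ 2 - 1 = (dg - 1) * (dg + 1) := by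
          obtain ⟨e, he⟩ : ∃ e, dg = e + 1 := ⟨dg - 1, by omega⟩
          rw [he]
          simp only [Nat.add_sub_cancel]
          have : (e + 1) ^ 2 = e * (e + 1 + 1) + 1 := by ring
          omega
        rwa [h3] at h2
      rcases (Nat.Prime.dvd_mul Fact.out).1 hdvd with h1 | h1
      · have := Nat.le_of_dvd (by omega) h1
        omega
      · have := Nat.le_of_dvd (by omega) h1
        omega

/-- The power version of `fixed_of_small`. -/
theorem fixed_of_small_pow (p : ℕ) [Fact p.Prime] (e : ℕ) :
    ∀ (α : L →* L) (_ : ∀ x, α^[p ^ e] x = x)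
      (_ : ¬ p ∣ Nat.card L) (X : L → ℂ) (_ : IsCharacter L X) (_ : ∀ x, X (α x) = X x)
      (_ : ∀ x, X x = X 1 → x = 1) (_ : charDegree X + 2 ≤ p), ∀ x, α x = x := by
  induction e with
  | zero =>
    intro α hα _ _ _ _ _ _ x
    simpa using hα x
  | succ e ih =>
    intro α hα hp X hX hinv hfaith hdeg
    let α' : Monoid.End L := α
    let β : L →* L := α' ^ (p ^ e)
    have hβ : ∀ x, β x = α^[p ^ e] x := fun x => congrFun (Monoid.End.coe_pow _ α' (p ^ e)) x
    have hβit : ∀ (j : ℕ) x, β^[j] x = α^[p ^ e * j] x := by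
      intro j x
      have hfun : (⇑β) = α^[p ^ e] := funext hβ
      rw [hfun, Function.iterate_mul]
    have hinvit : ∀ (j : ℕ) x, X (α^[j] x) = X x := by
      intro j x
      induction j with
      | zero => rfl
      | succ j ih' => rw [Function.iterate_succ_apply', hinv, ih']
    have h1 := fixed_of_small p (Nat.card L) L β (fun x => by
        rw [hβit, ← pow_succ]; exact hα x) hp X hX (fun x => by rw [hβ, hinvit])
      hfaith hdeg le_rfl
    exact ih α (fun x => by rw [← hβ]; exact h1 x) hp X hX hinv hfaith hdeg

end Fix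

end Cfsg.Agent.H04.Cliff.FT
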