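import Cfsg.Agent.Lib.H04.Cliff.FT2
import Cfsg.Agent.Lib.H01.Transfer2
import Cfsg.Agent.Lib.H06.CharDegree
import Cfsg.Agent.Lib.H22.Degree

/-! Normal Sylow subgroups of groups with a faithful representation of small degree. -/

set_option autoImplicit false
set_option linter.style.haveILetI false
set_option linter.unusedVariables false
set_option linter.unusedSectionVars false
set_option linter.unusedSimpArgs false

open Cfsg Cfsg.Agent.H21
open scoped ComplexConjugate Pointwise

namespace Cfsg.Agent.H04.Cliff.FT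

universe u

section Good

variable {G : Type u} [Group G]

/-- `K` has a largest `p`-subgroup. -/
def Good (p : ℕ) (K : Subgroup G) : Prop :=
  ∃ Q : Subgroup G, Q ≤ K ∧ IsPGroup p Q ∧ ∀ R : Subgroup G, R ≤ K → IsPGroup p R → R ≤ Q

theorem good_of_map {K : Subgroup G} (K' : Subgroup K) {p : ℕ} (h : Good p (K'.map K.subtype)) :
    Good p K' := by
  obtain ⟨Q, hQ, hp, hm⟩ := h
  refine ⟨Q.comap K.subtype, ?_, hp.comap_of_injective _ K.subtype_injective, ?_⟩
  · intro x hx
    obtain ⟨y, hy, hyx⟩ := hQ hx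
    have : y = x := Subtype.ext hyx
    exact this ▸ hy
  · intro R hR hRp x hx
    exact hm (R.map K.subtype) (Subgroup.map_mono hR) (hRp.map _) ⟨x, hx, rfl⟩

theorem good_of_top {K : Subgroup G} {p : ℕ} (h : Good p (⊤ : Subgroup K)) : Good p K := by
  obtain ⟨Q, -, hp, hm⟩ := h
  refine ⟨Q.map K.subtype, ?_, hp.map _, ?_⟩
  · rintro _ ⟨x, -, rfl⟩
    exact x.2
  · intro R hR hRp x hx
    have h1 := hm (R.comap K.subtype) le_top (hRp.comap_of_injective _ K.subtype_injective)
    exact ⟨⟨x, hR hx⟩, h1 hx, rfl⟩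

variable [Finite G] {p : ℕ} [Fact p.Prime]

theorem good_top_of_normal (P : Sylow p G) (h : (P : Subgroup G).Normal) :
    Good p (⊤ : Subgroup G) := by
  refine ⟨P, le_top, P.isPGroup', fun R _ hR => ?_⟩
  obtain ⟨S, hS⟩ := hR.exists_le_sylow
  haveI := h
  have huq := Sylow.unique_of_normal P h
  rw [Subsingleton.elim P S]
  exact hS

theorem good_of_normal (K : Subgroup G) (h : ∀ Q : Sylow p K, (Q : Subgroup K).Normal) :
    Good p K := by
  obtain ⟨Q⟩ : Nonempty (Sylow p K) := inferInstance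
  apply good_of_top
  exact good_top_of_normal Q (h Q)

theorem normal_of_good_top (h : Good p (⊤ : Subgroup G)) (P : Sylow p G) :
    (P : Subgroup G).Normal := by
  obtain ⟨Q, -, hp, hm⟩ := h
  have h1 : (P : Subgroup G) ≤ Q := hm P le_top P.isPGroup'
  have h2 : Q = P := P.is_maximal' hp h1
  constructor
  intro x hx g
  have h3 := hm (P.map (MulAut.conj g).toMonoidHom) le_top (P.isPGroup'.map _)
  rw [h2] at h3
  exact h3 ⟨x, hx, rfl⟩

end Good

section Linear

variable {K : Type*} [Group K] [Fintype K]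

theorem comm_of_linear {X : K → ℂ} (hX : IsCharacter K X)
    (hfaith : ∀ g, X g = X 1 → g = 1)
    (hlin : ∀ ψ : IrrCharacter K, classInner X ψ.1 ≠ 0 → charDegree ψ.1 = 1) :
    ∀ a b : K, a * b = b * a := by
  classical
  haveI : Fintype (IrrCharacter K) := Fintype.ofFinite _
  obtain ⟨m, hm, hm'⟩ := isCharacter_decomp hX
  intro a b
  have hval : ∀ g, X g = ∑ ψ : IrrCharacter K, (m ψ : ℂ) * ψ.1 g := by
    intro g
    have := congrFun hm g
    simp only [Finset.sum_apply, Pi.smul_apply, nsmul_eq_mul] at this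
    exact this
  have h1 : X (a * b * a⁻¹ * b⁻¹) = X 1 := by
    rw [hval, hval]
    refine Finset.sum_congr rfl fun ψ _ => ?_
    by_cases hψ : m ψ = 0
    · simp [hψ]
    · have hd := hlin ψ (by rw [hm' ψ]; exact_mod_cast hψ)
      have hc := isCharacter_of_irr ψ.2
      have hmul := linear_mul hc hd
      have h2 : ψ.1 (a * b * a⁻¹ * b⁻¹) = ψ.1 1 := by
        rw [hmul, hmul, hmul]
        have h3 : ψ.1 a * ψ.1 a⁻¹ = 1 := by
          rw [← hmul, mul_inv_cancel, linear_one hc hd]
        have h4 : ψ.1 b * ψ.1 b⁻¹ = 1 := by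
          rw [← hmul, mul_inv_cancel, linear_one hc hd]
        rw [linear_one hc hd]
        calc ψ.1 a * ψ.1 b * ψ.1 a⁻¹ * ψ.1 b⁻¹ = (ψ.1 a * ψ.1 a⁻¹) * (ψ.1 b * ψ.1 b⁻¹) := by ring
          _ = 1 := by rw [h3, h4, one_mul]
      rw [h2]
  have h2 := hfaith _ h1
  have h3 : a * b * a⁻¹ = b := by
    rw [mul_inv_eq_one] at h2
    exact h2
  rw [mul_inv_eq_iff_eq_mul] at h3
  exact h3

end Linear

section Central

variable {G : Type u} [Group G] [Finite G]

/-- A `p`-element centralizes a normal `p'`-subgroup when there is a faithful character of degree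
at most `p - 2`. -/
theorem comm_of_complement {p : ℕ} [Fact p.Prime] {χ₀ : G → ℂ} (hχ₀ : IsCharacter G χ₀)
    (hfaith : ∀ g, χ₀ g = χ₀ 1 → g = 1) (hdeg : charDegree χ₀ + 2 ≤ p)
    (L : Subgroup G) [hLn : L.Normal] (hL : ¬ p ∣ Nat.card L) (y : G) (e : ℕ)
    (hy : y ^ p ^ e = 1) (l : G) (hl : l ∈ L) : y * l = l * y := by
  let α : L →* L := (MulAut.conjNormal y : MulAut L).toMonoidHom
  have hα : ∀ x : L, ((α x : L) : G) = y * x * y⁻¹ := fun x => by
    simp [α, MulAut.conjNormal_apply]
  have hit : ∀ (j : ℕ) (x : L), ((α^[j] x : L) : G) = y ^ j * x * (y ^ j)⁻¹ := by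
    intro j x
    induction j with
    | zero => simp
    | succ j ih =>
      rw [Function.iterate_succ_apply', hα, ih, pow_succ']
      group
  have h1 := fixed_of_small_pow p e α (fun x => Subtype.ext (by rw [hit, hy]; simp)) hL
    (fun x : L => χ₀ x) (isCharacter_restrict L hχ₀)
    (fun x => by
      rw [hα]
      exact isCharacter_conj hχ₀ _ _)
    (fun x hx => Subtype.ext (hfaith x hx))
    (by
      have : charDegree (fun x : L => χ₀ x) = charDegree χ₀ := rfl
      rw [this]; exact hdeg) ⟨l, hl⟩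
  have h2 := congrArg Subtype.val h1
  rw [hα] at h2
  have h3 : y * l * y⁻¹ = l := h2
  rw [mul_inv_eq_iff_eq_mul] at h3
  exact h3

/-- **The central case**: if a Sylow subgroup which is abelian and whose normal closure is `G`
contains a central element, it is normal. -/
theorem normal_of_central {p : ℕ} [Fact p.Prime] {χ₀ : G → ℂ} (hχ₀ : IsCharacter G χ₀)
    (hfaith : ∀ g, χ₀ g = χ₀ 1 → g = 1) (hdeg : charDegree χ₀ + 2 ≤ p) (P : Sylow p G)
    (hab : ∀ a ∈ (P : Subgroup G), ∀ b ∈ (P : Subgroup G), a * b = b * a)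
    (hcl : ∀ M : Subgroup G, M.Normal → (P : Subgroup G) ≤ M → M = ⊤)
    (hprop : ∀ K : Subgroup G, K ≠ ⊤ → Good p K)
    (z : G) (hzP : z ∈ (P : Subgroup G)) (hzZ : z ∈ Subgroup.center G) (hz1 : z ≠ 1) :
    (P : Subgroup G).Normal := by
  classical
  let A := Abelianization G
  haveI : Finite A := inferInstanceAs (Finite (G ⧸ _))
  let m := ordCompl[p] (Nat.card A)
  let π : G →* A := (powMonoidHom m).comp Abelianization.of
  let L : Subgroup G := π.ker
  haveI hLn : L.Normal := MonoidHom.normal_ker π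
  have htr : (P : Subgroup G) ⊓ commutator G ⊓ Subgroup.center G = ⊥ :=
    H01.hall_inf_commutator_center (G := G) (P : Subgroup G)
      ⟨⟨fun a b => Subtype.ext (hab a a.2 b b.2)⟩⟩ P.card_coprime_index
  have hpp : p.Prime := Fact.out
  have hmcop : Nat.Coprime p m := Nat.coprime_ordCompl hpp Nat.card_pos.ne'
  have hpow_P : ∀ w ∈ (P : Subgroup G), ∃ e, w ^ p ^ e = 1 := by
    intro w hw
    obtain ⟨e, he⟩ := P.isPGroup' ⟨w, hw⟩
    exact ⟨e, by simpa [Subtype.ext_iff] using he⟩
  have hpel : ∀ w ∈ (P : Subgroup G), π w = 1 → w ∈ commutator G := by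
    intro w hwP hw
    obtain ⟨e, he⟩ := hpow_P w hwP
    have h1 : (Abelianization.of w) ^ m = 1 := hw
    have h2 : (Abelianization.of w) ^ p ^ e = 1 := by
      rw [← map_pow, he, map_one]
    have h3 : orderOf (Abelianization.of w) = 1 :=
      Nat.eq_one_of_dvd_coprimes (hmcop.pow_left e) (orderOf_dvd_of_pow_eq_one h2)
        (orderOf_dvd_of_pow_eq_one h1)
    rw [orderOf_eq_one_iff] at h3
    have h4 : w ∈ (Abelianization.of (G := G)).ker := h3
    rwa [Abelianization.ker_of] at h4
  have hLne : L ≠ ⊤ := by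
    intro h
    have h1 : z ∈ L := by rw [h]; trivial
    have h2 : z ∈ (P : Subgroup G) ⊓ commutator G ⊓ Subgroup.center G :=
      ⟨⟨hzP, hpel z hzP h1⟩, hzZ⟩
    rw [htr, Subgroup.mem_bot] at h2
    exact hz1 h2
  obtain ⟨Q, hQL, hQp, hQmax⟩ := hprop L hLne
  haveI hQn : Q.Normal := by
    constructor
    intro x hx g
    have h1 : Q.map (MulAut.conj g).toMonoidHom ≤ L := by
      rintro _ ⟨y, hy, rfl⟩
      exact hLn.conj_mem y (hQL hy) g
    exact hQmax _ h1 (hQp.map _) ⟨x, hx, rfl⟩
  have hQP : Q ≤ (P : Subgroup G) := by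
    have h1 : IsPGroup p (Q ⊔ (P : Subgroup G) : Subgroup G) :=
      hQp.to_sup_of_normal_left P.isPGroup'
    have h2 := P.is_maximal' h1 le_sup_right
    rw [← h2]
    exact le_sup_left
  have hQZ : Q ≤ Subgroup.center G := by
    have h1 : Subgroup.centralizer (Q : Set G) = ⊤ := by
      apply hcl _ inferInstance
      intro y hy
      rw [Subgroup.mem_centralizer_iff]
      intro q hq
      exact hab q (hQP hq) y hy
    intro q hq
    rw [Subgroup.mem_center_iff]
    intro g
    have h2 : g ∈ Subgroup.centralizer (Q : Set G) := by rw [h1]; trivial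
    exact (Subgroup.mem_centralizer_iff.1 h2 q hq).symm
  have hPL : ∀ w, w ∈ (P : Subgroup G) → w ∈ L → w = 1 := by
    intro w hwP hwL
    have h1 : (P : Subgroup G) ⊓ L ≤ Q :=
      hQmax _ inf_le_right (P.isPGroup'.to_le inf_le_left)
    have h2 : w ∈ Q := h1 ⟨hwP, hwL⟩
    have h3 : w ∈ (P : Subgroup G) ⊓ commutator G ⊓ Subgroup.center G :=
      ⟨⟨hwP, hpel w hwP hwL⟩, hQZ h2⟩
    rw [htr, Subgroup.mem_bot] at h3
    exact h3
  have hLp : ¬ p ∣ Nat.card L := by
    intro hd
    obtain ⟨w, hw⟩ := exists_prime_orderOf_dvd_card' (G := L) p hd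
    have hw' : orderOf (w : G) = p := by
      rw [← hw]
      exact Subgroup.orderOf_coe w
    have hzp : IsPGroup p (Subgroup.zpowers (w : G)) :=
      IsPGroup.of_card (n := 1) (by rw [Nat.card_zpowers, hw', pow_one])
    have h1 : Subgroup.zpowers (w : G) ≤ L := by
      rw [Subgroup.zpowers_le]
      exact w.2
    have h2 : (w : G) ∈ Q := hQmax _ h1 hzp (Subgroup.mem_zpowers _)
    have h3 := hPL w (hQP h2) w.2
    rw [h3, orderOf_one] at hw'
    exact hpp.one_lt.ne hw'
  have hcent : ∀ y ∈ (P : Subgroup G), ∀ l ∈ L, y * l = l * y := by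
    intro y hy l hl
    obtain ⟨e, he⟩ := hpow_P y hy
    exact comm_of_complement hχ₀ hfaith hdeg L hLp y e he l hl
  have hsup : L ⊔ (P : Subgroup G) = ⊤ := by
    have hpg : IsPGroup p π.range := by
      rintro ⟨x, g, rfl⟩
      refine ⟨(Nat.card A).factorization p, Subtype.ext ?_⟩
      simp only [SubmonoidClass.coe_pow, OneMemClass.coe_one]
      change ((Abelianization.of g) ^ m) ^ p ^ (Nat.card A).factorization p = 1
      rw [← pow_mul, mul_comm, Nat.ordProj_mul_ordCompl_eq_self, pow_card_eq_one']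
    obtain ⟨b, hb⟩ := IsPGroup.iff_card.1 hpg
    have hidx : L.index = p ^ b := by
      rw [← hb]
      exact Subgroup.index_ker π
    have h1 : (L ⊔ (P : Subgroup G)).index ∣ p ^ b :=
      hidx ▸ Subgroup.index_dvd_of_le le_sup_left
    have h2 : (L ⊔ (P : Subgroup G)).index ∣ (P : Subgroup G).index :=
      Subgroup.index_dvd_of_le le_sup_right
    have h3 : Nat.Coprime (p ^ b) (P : Subgroup G).index :=
      Nat.Coprime.pow_left b ((Nat.Prime.coprime_iff_not_dvd hpp).2 P.not_dvd_index)
    exact Subgroup.index_eq_one.1 (Nat.eq_one_of_dvd_coprimes h3 h1 h2)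
  constructor
  intro x hx g
  have hg : g ∈ L ⊔ (P : Subgroup G) := by rw [hsup]; trivial
  rw [Subgroup.mem_sup_of_normal_left] at hg
  obtain ⟨l, hl, y, hy, rfl⟩ := hg
  have h1 : y * x * y⁻¹ ∈ (P : Subgroup G) :=
    (P : Subgroup G).mul_mem ((P : Subgroup G).mul_mem hy hx) ((P : Subgroup G).inv_mem hy)
  have h2 := hcent _ h1 l hl
  have h3 : l * y * x * (l * y)⁻¹ = y * x * y⁻¹ := by
    calc l * y * x * (l * y)⁻¹ = (l * (y * x * y⁻¹)) * l⁻¹ := by group
      _ = (y * x * y⁻¹ * l) * l⁻¹ := by rw [h2]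
      _ = y * x * y⁻¹ := by group
  rw [h3]
  exact h1

/-- The inductive step. -/
theorem good_top_step {n : ℕ} (ρ : Representation ℂ G (Fin n → ℂ)) (hρ : Function.Injective ρ)
    (p : ℕ) [Fact p.Prime] (hnp : n + 1 < p)
    (halt : (n + 1) ^ 2 ≤ p ∨ (¬ p ^ 2 ∣ Nat.card G → Good p (⊤ : Subgroup G)))
    (hprop : ∀ K : Subgroup G, K ≠ ⊤ → Good p K) : Good p (⊤ : Subgroup G) := by
  classical
  haveI : Fintype G := Fintype.ofFinite _
  haveI : Fintype (IrrCharacter G) := Fintype.ofFinite _
  obtain ⟨P⟩ : Nonempty (Sylow p G) := inferInstance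
  by_contra hng
  have hPn : ¬ (P : Subgroup G).Normal := fun h => hng (good_top_of_normal P h)
  have hpp : p.Prime := Fact.out
  let χ₀ : G → ℂ := ρ.character
  have hχ₀ : IsCharacter G χ₀ := ⟨n, ρ, rfl⟩
  have hfaith : ∀ g, χ₀ g = χ₀ 1 → g = 1 := by
    intro g hg
    have h1 : ρ.character g = ((Module.finrank ℂ (Fin n → ℂ) : ℕ) : ℂ) := by
      rw [← Representation.char_one ρ]
      exact hg
    have h2 := (character_eq_finrank_iff ρ g).1 h1
    exact hρ (by rw [h2, map_one])
  have hdeg₀ : charDegree χ₀ = n := by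
    simp [charDegree, χ₀, Representation.char_one]
  -- Step 1: Sylow subgroups are abelian
  have habS : ∀ S : Sylow p G, ∀ a ∈ (S : Subgroup G), ∀ b ∈ (S : Subgroup G), a * b = b * a := by
    intro S a ha b hb
    haveI : Fintype S := Fintype.ofFinite _
    haveI : Fintype (IrrCharacter S) := Fintype.ofFinite _
    have hX := isCharacter_restrict (S : Subgroup G) hχ₀
    have h1 := comm_of_linear hX (fun g hg => Subtype.ext (hfaith g hg)) (by
      intro ψ hψ
      have h2 := H06.degree_le_of_inner_ne hX ψ hψ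
      have h3 : charDegree (fun x : (S : Subgroup G) => χ₀ x) = n := hdeg₀
      rw [h3] at h2
      obtain ⟨k, hk⟩ := IsPGroup.iff_card.1 S.isPGroup'
      have h4 := H22.charDegree_dvd_card ψ
      rw [hk] at h4
      obtain ⟨i, -, hi⟩ := (Nat.dvd_prime_pow hpp).1 h4
      rcases i with _ | i
      · simpa using hi
      · exfalso
        have h5 : p ≤ charDegree ψ.1 := by
          rw [hi, pow_succ]
          exact Nat.le_mul_of_pos_left _ (pow_pos hpp.pos _)
        omega) ⟨a, ha⟩ ⟨b, hb⟩
    exact congrArg Subtype.val h1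
  -- Step 2: the normal closure
  have hcl : ∀ M : Subgroup G, M.Normal → (P : Subgroup G) ≤ M → M = ⊤ := by
    intro M hM hPM
    by_contra hne
    obtain ⟨Q, hQM, hQp, hQmax⟩ := hprop M hne
    have h1 : (P : Subgroup G) ≤ Q := hQmax _ hPM P.isPGroup'
    have h2 : Q = P := P.is_maximal' hQp h1
    apply hPn
    constructor
    intro x hx g
    have h3 : (P : Subgroup G).map (MulAut.conj g).toMonoidHom ≤ M := by
      rintro _ ⟨y, hy, rfl⟩
      exact hM.conj_mem y (hPM hy) g
    have h4 := hQmax _ h3 (P.isPGroup'.map _)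
    rw [h2] at h4
    exact h4 ⟨x, hx, rfl⟩
  -- Step 3: intersections are central
  have hTI : ∀ S₁ S₂ : Sylow p G, S₁ ≠ S₂ → ∀ x, x ∈ (S₁ : Subgroup G) → x ∈ (S₂ : Subgroup G) →
      x ∈ Subgroup.center G := by
    intro S₁ S₂ hne x hx₁ hx₂
    have htop : Subgroup.centralizer ({x} : Set G) = ⊤ := by
      by_contra hC
      obtain ⟨Q, hQC, hQp, hQmax⟩ := hprop _ hC
      have hle : ∀ S : Sylow p G, x ∈ (S : Subgroup G) →
          (S : Subgroup G) ≤ Subgroup.centralizer ({x} : Set G) := by
        intro S hS y hy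
        rw [Subgroup.mem_centralizer_singleton_iff]
        exact habS S y hy x hS
      have h1 := S₁.is_maximal' hQp (hQmax _ (hle S₁ hx₁) S₁.isPGroup')
      have h2 := S₂.is_maximal' hQp (hQmax _ (hle S₂ hx₂) S₂.isPGroup')
      exact hne (Sylow.ext (h1.symm.trans h2))
    rw [Subgroup.mem_center_iff]
    intro g
    have h1 : g ∈ Subgroup.centralizer ({x} : Set G) := by rw [htop]; trivial
    rw [Subgroup.mem_centralizer_singleton_iff] at h1
    exact h1
  by_cases hZ : (P : Subgroup G) ⊓ Subgroup.center G = ⊥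
  · -- the case of Theorem `part_two`
    obtain ⟨ψ, hψ, hψ1⟩ : ∃ ψ : IrrCharacter G, classInner χ₀ ψ.1 ≠ 0 ∧ charDegree ψ.1 ≠ 1 := by
      by_contra hcon
      push Not at hcon
      have hcomm := comm_of_linear hχ₀ hfaith hcon
      apply hPn
      constructor
      intro x hx g
      have h1 : g * x * g⁻¹ = x := by
        rw [hcomm g x]
        group
      rw [h1]
      exact hx
    have hdle : charDegree ψ.1 ≤ n := hdeg₀ ▸ H06.degree_le_of_inner_ne hχ₀ ψ hψ
    have hψc := isCharacter_of_irr ψ.2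
    have hval : ψ.1 1 = (charDegree ψ.1 : ℂ) := one_eq_charDegree hψc
    have hZS : ∀ a : G, ∀ x, x ∈ (P : Subgroup G).map (MulAut.conj a).toMonoidHom →
        x ∈ Subgroup.center G → x = 1 := by
      rintro a _ ⟨y, hy, rfl⟩ hx
      have h1 : (MulAut.conj a).toMonoidHom y = y := by
        have h4 := Subgroup.mem_center_iff.1 hx a⁻¹
        change a⁻¹ * (a * y * a⁻¹) = (a * y * a⁻¹) * a⁻¹ at h4
        change a * y * a⁻¹ = y
        have h5 : y * a⁻¹ = a * y * a⁻¹ * a⁻¹ := by
          rw [← h4]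
          group
        have h6 := mul_right_cancel (b := a⁻¹) (a := y) (c := a * y * a⁻¹) h5
        exact h6.symm
      rw [h1] at hx ⊢
      have h5 : y ∈ (P : Subgroup G) ⊓ Subgroup.center G := ⟨hy, hx⟩
      rwa [hZ, Subgroup.mem_bot] at h5
    have hconjS : ∀ a : G, ∃ S : Sylow p G,
        (S : Subgroup G) = (P : Subgroup G).map (MulAut.conj a).toMonoidHom := by
      intro a
      refine ⟨a • P, ?_⟩
      rw [Sylow.coe_subgroup_smul, Subgroup.pointwise_smul_def]
      rfl
    have hone : ∀ g : G, g ∉ Subgroup.center G → ∀ a b : G,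
        Subgroup.centralizer ({g} : Set G) ⊓ (P : Subgroup G).map (MulAut.conj a).toMonoidHom ≠ ⊥ →
        Subgroup.centralizer ({g} : Set G) ⊓ (P : Subgroup G).map (MulAut.conj b).toMonoidHom ≠ ⊥ →
        (P : Subgroup G).map (MulAut.conj a).toMonoidHom
          = (P : Subgroup G).map (MulAut.conj b).toMonoidHom := by
      intro g hg a b ha hb
      have hCne : Subgroup.centralizer ({g} : Set G) ≠ ⊤ := by
        intro h
        apply hg
        rw [Subgroup.mem_center_iff]
        intro k
        have h1 : k ∈ Subgroup.centralizer ({g} : Set G) := by rw [h]; trivial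
        rw [Subgroup.mem_centralizer_singleton_iff] at h1
        exact h1
      obtain ⟨Q, hQC, hQp, hQmax⟩ := hprop _ hCne
      obtain ⟨S, hS⟩ := hQp.exists_le_sylow
      have key : ∀ c : G,
          Subgroup.centralizer ({g} : Set G) ⊓ (P : Subgroup G).map (MulAut.conj c).toMonoidHom ≠ ⊥ →
          (P : Subgroup G).map (MulAut.conj c).toMonoidHom = S := by
        intro c hc
        obtain ⟨⟨x, hx⟩, hx1⟩ := Subgroup.ne_bot_iff_exists_ne_one.1 hc
        have hx1' : x ≠ 1 := fun h => hx1 (Subtype.ext h)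
        obtain ⟨Sc, hSc⟩ := hconjS c
        rw [← hSc] at hx ⊢
        have hxQ : x ∈ Q := by
          have hzp : IsPGroup p (Subgroup.zpowers x) :=
            Sc.isPGroup'.to_le (by rw [Subgroup.zpowers_le]; exact hx.2)
          have h1 : Subgroup.zpowers x ≤ Subgroup.centralizer ({g} : Set G) := by
            rw [Subgroup.zpowers_le]; exact hx.1
          exact hQmax _ h1 hzp (Subgroup.mem_zpowers x)
        by_contra hne
        have h2 : Sc ≠ S := fun h => hne (by rw [h])
        have h3 := hTI Sc S h2 x hx.2 (hS hxQ)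
        apply hx1'
        exact hZS c x (by rw [← hSc]; exact hx.2) h3
      rw [key a ha, key b hb]
    have h1 : ψ.1 1 ≠ 1 := by
      rw [hval]
      exact_mod_cast hψ1
    haveI : Fintype (P : Subgroup G) := Fintype.ofFinite _
    have hmain := part_two (P : Subgroup G) (habS P) hZ hone ψ.1 ψ.2 h1 hcl
    rw [hval] at hmain
    simp only [Complex.natCast_re] at hmain
    have hmain' : Nat.card (P : Subgroup G) < (1 + charDegree ψ.1) ^ 2 := by
      have : (Nat.card (P : Subgroup G) : ℝ) < ((1 + charDegree ψ.1 : ℕ) : ℝ) ^ 2 := by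
        push_cast
        exact hmain
      exact_mod_cast this
    have hle2 : (1 + charDegree ψ.1) ^ 2 ≤ (n + 1) ^ 2 :=
      Nat.pow_le_pow_left (by omega) 2
    obtain ⟨k, hk⟩ := IsPGroup.iff_card.1 P.isPGroup'
    by_cases hdvd : p ^ 2 ∣ Nat.card G
    · have h2 := P.pow_dvd_card_of_pow_dvd_card hdvd
      have h3 := Nat.le_of_dvd Nat.card_pos h2
      have h4 : (n + 1) ^ 2 < p ^ 2 := Nat.pow_lt_pow_left hnp (by norm_num)
      change _ ≤ Nat.card (P : Subgroup G) at h3
      omega
    · rcases halt with h2 | h2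
      · have hk0 : k ≠ 0 := by
          intro h0
          rw [h0, pow_zero] at hk
          apply hPn
          have h5 : (P : Subgroup G) = ⊥ := Subgroup.eq_bot_of_card_eq _ hk
          rw [h5]
          infer_instance
        have h3 : p ≤ p ^ k := Nat.le_self_pow hk0 p
        omega
      · exact hng (h2 hdvd)
  · -- the central case
    obtain ⟨⟨z, hz⟩, hz1⟩ := Subgroup.ne_bot_iff_exists_ne_one.1 hZ
    have hz1' : z ≠ 1 := fun h => hz1 (Subtype.ext h)
    exact hPn (normal_of_central hχ₀ hfaith (by omega) P (habS P) hcl hprop z hz.1 hz.2 hz1')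

/-- The main induction. -/
theorem good_top (n p : ℕ) [Fact p.Prime] (hnp : n + 1 < p) :
    ∀ (k : ℕ) (G : Type u) [Group G] [Finite G] (ρ : Representation ℂ G (Fin n → ℂ))
      (_ : Function.Injective ρ)
      (_ : (n + 1) ^ 2 ≤ p ∨ ∀ K : Subgroup G, ¬ p ^ 2 ∣ Nat.card K → Good p K)
      (_ : Nat.card G ≤ k), Good p (⊤ : Subgroup G) := by
  intro k
  induction k with
  | zero =>
    intro G _ _ ρ _ _ hk
    exact absurd hk (by have := Nat.card_pos (α := G); omega)
  | succ k ih =>
    intro G _ _ ρ hρ halt hk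
    refine good_top_step ρ hρ p hnp ?_ ?_
    · rcases halt with h | h
      · exact Or.inl h
      · refine Or.inr fun hd => h ⊤ ?_
        rwa [Subgroup.card_top]
    · intro K hK
      have hcard : Nat.card K ≤ k := by
        have h1 : Nat.card K < Nat.card G := by
          have h0 := K.card_mul_index
          have h2 : K.index ≠ 1 := fun h => hK (Subgroup.index_eq_one.1 h)
          have h3 : K.index ≠ 0 := Subgroup.index_ne_zero_of_finite
          have h4 : 0 < Nat.card K := Nat.card_pos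
          have h5 : 2 ≤ K.index := by omega
          nlinarith
        omega
      apply good_of_top
      refine ih K (ρ.comp K.subtype) (hρ.comp K.subtype_injective) ?_ hcard
      rcases halt with h | h
      · exact Or.inl h
      · refine Or.inr fun K' hK' => good_of_map K' (h _ ?_)
        rwa [Subgroup.card_map_of_injective K.subtype_injective] 

end Central

end Cfsg.Agent.H04.Cliff.FT
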