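import Cfsg.Agent.Lib.H04.Cliff.RelM
import Cfsg.Agent.Lib.H01.Transfer2
import Cfsg.Agent.Lib.H22.Ord2
import Cfsg.Agent.Lib.H06.CharDegree

/-!
# Monomiality of characters irreducible on a normal A-subgroup
-/

set_option autoImplicit false
set_option linter.style.haveILetI false
set_option linter.unusedSectionVars false
set_option linter.unusedSimpArgs false
set_option linter.unusedVariables false

namespace Cfsg.Agent.H04.Cliff

open Cfsg Cfsg.Agent.H21 Cfsg.Agent.H06 Module
open scoped ComplexConjugate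

universe u

section AG

/-- All `p`-subgroups of `N` are abelian. -/
def AG {G : Type u} [Group G] (N : Subgroup G) : Prop :=
  ∀ p : ℕ, p.Prime → ∀ P : Subgroup G, P ≤ N → IsPGroup p P → ∀ a ∈ P, ∀ b ∈ P, a * b = b * a

variable {G : Type u} [Group G]

theorem AG.sub {N : Subgroup G} (h : AG N) (I : Subgroup G) : AG (N.subgroupOf I) := by
  intro p hp P hPN hP a ha b hb
  apply Subtype.ext
  have hinj := I.subtype_injective
  have h1 : P.map I.subtype ≤ N := by
    rintro _ ⟨x, hx, rfl⟩
    exact Subgroup.mem_subgroupOf.mp (hPN hx)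
  have h2 : IsPGroup p (P.map I.subtype) := hP.map _
  exact h p hp _ h1 h2 _ (Subgroup.mem_map_of_mem _ ha) _ (Subgroup.mem_map_of_mem _ hb)

theorem AG.quot [Finite G] {N : Subgroup G} (h : AG N) (A : Subgroup G) [A.Normal] :
    AG (N.map (QuotientGroup.mk' A)) := by
  intro p hp Q hQN hQ a ha b hb
  haveI := Fact.mk hp
  classical
  let M : Subgroup G := Q.comap (QuotientGroup.mk' A) ⊓ N
  let f : M →* Q := ((QuotientGroup.mk' A).comp M.subtype).codRestrict Q (fun x => x.2.1)
  have hf : Function.Surjective f := by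
    intro q
    obtain ⟨n, hn, hnq⟩ := Subgroup.mem_map.mp (hQN q.2)
    refine ⟨⟨n, ?_, hn⟩, ?_⟩
    · show (QuotientGroup.mk' A) n ∈ Q
      rw [hnq]
      exact q.2
    · apply Subtype.ext
      exact hnq
  obtain ⟨P⟩ : Nonempty (Sylow p M) := inferInstance
  let P' : Sylow p Q := P.mapSurjective hf
  have htop : (P' : Subgroup Q) = ⊤ := by
    apply P'.is_maximal' (hQ.to_subgroup ⊤) le_top |>.symm
  have hmem : ∀ q : Q, ∃ x ∈ (P : Subgroup M), f x = q := by
    intro q
    have : q ∈ (P' : Subgroup Q) := by rw [htop]; trivial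
    rw [Sylow.coe_mapSurjective] at this
    obtain ⟨x, hx, hxq⟩ := Subgroup.mem_map.mp this
    exact ⟨x, hx, hxq⟩
  obtain ⟨x, hx, hxa⟩ := hmem ⟨a, ha⟩
  obtain ⟨y, hy, hyb⟩ := hmem ⟨b, hb⟩
  have h1 : (P : Subgroup M).map M.subtype ≤ N := by
    rintro _ ⟨z, -, rfl⟩
    exact z.2.2
  have h2 : IsPGroup p ((P : Subgroup M).map M.subtype) := P.2.map _
  have h3 := h p hp _ h1 h2 _ (Subgroup.mem_map_of_mem _ hx) _ (Subgroup.mem_map_of_mem _ hy)
  have ea : (QuotientGroup.mk' A) x = a := congrArg Subtype.val hxa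
  have eb : (QuotientGroup.mk' A) y = b := congrArg Subtype.val hyb
  rw [← ea, ← eb, ← map_mul, ← map_mul]
  exact congrArg _ h3

/-- `N' ∩ Z(N) = 1` for A-groups, in the form needed. -/
theorem AG.not_central [Finite G] {N : Subgroup G} (h : AG N) {x : G} (hx : x ∈ ⁅N, N⁆)
    (hc : ∀ n ∈ N, n * x = x * n) : x = 1 := by
  have hsyl : ∀ p : ℕ, p.Prime → ∀ P : Sylow p N, IsMulCommutative P := by
    intro p hp P
    refine ⟨⟨fun a b => ?_⟩⟩
    apply Subtype.ext
    apply Subtype.ext
    have h1 : (P : Subgroup N).map N.subtype ≤ N := by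
      rintro _ ⟨z, -, rfl⟩
      exact z.2
    have h2 : IsPGroup p ((P : Subgroup N).map N.subtype) := P.2.map _
    exact h p hp _ h1 h2 _ (Subgroup.mem_map_of_mem _ a.2) _ (Subgroup.mem_map_of_mem _ b.2)
  have h0 := Cfsg.Agent.H01.commutator_inf_center_of_abelian_sylows hsyl
  have hxN : x ∈ N := (Subgroup.commutator_le_self N) hx
  have hxc : (⟨x, hxN⟩ : N) ∈ commutator N := by
    have h1 : (commutator N).map N.subtype = ⁅N, N⁆ := Subgroup.map_subtype_commutator N
    rw [← h1] at hx
    obtain ⟨y, hy, hyx⟩ := Subgroup.mem_map.mp hx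
    have : y = ⟨x, hxN⟩ := Subtype.ext hyx
    exact this ▸ hy
  have hxz : (⟨x, hxN⟩ : N) ∈ Subgroup.center N := by
    rw [Subgroup.mem_center_iff]
    intro n
    apply Subtype.ext
    exact hc n n.2
  have : (⟨x, hxN⟩ : N) ∈ commutator N ⊓ Subgroup.center N := ⟨hxc, hxz⟩
  rw [h0, Subgroup.mem_bot] at this
  exact congrArg Subtype.val this

end AG

section ResIrr

variable {H : Type u} [Group H] [Fintype H]

/-- The isomorphism between the two presentations of `N ∩ I`. -/
def swapInf (N I : Subgroup H) : I.subgroupOf N ≃* N.subgroupOf I where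
  toFun x := ⟨⟨x.1.1, Subgroup.mem_subgroupOf.mp x.2⟩, Subgroup.mem_subgroupOf.mpr x.1.2⟩
  invFun x := ⟨⟨x.1.1, Subgroup.mem_subgroupOf.mp x.2⟩, Subgroup.mem_subgroupOf.mpr x.1.2⟩
  left_inv _ := rfl
  right_inv _ := rfl
  map_mul' _ _ := rfl

theorem relIndex_le_index' (N I : Subgroup H) : I.relIndex N ≤ I.index := by
  have h1 : (I ⊓ N).relIndex N * N.index = (I ⊓ N).index :=
    Subgroup.relIndex_mul_index inf_le_right
  rw [Subgroup.inf_relIndex_right] at h1
  have h2 : (I ⊓ N).index ≤ I.index * N.index := Subgroup.index_inf_le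
  have h3 : 0 < N.index := Nat.pos_of_ne_zero Subgroup.index_ne_zero_of_finite
  rw [← h1] at h2
  exact Nat.le_of_mul_le_mul_right h2 h3

/-- A character of `I` inducing an irreducible character that stays irreducible on the normal
subgroup `N` stays irreducible on `N ∩ I`. -/
theorem res_irr_of_ind (N I : Subgroup H) [hN : N.Normal] {ψ₁ : I → ℂ}
    (hψ₁ : IsIrrCharacter I ψ₁) (hψ : IsIrrCharacter H (indFun I ψ₁))
    (hres : IsIrrCharacter N (fun n : N => indFun I ψ₁ n)) :
    IsIrrCharacter (N.subgroupOf I) (fun x : N.subgroupOf I => ψ₁ x) := by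
  classical
  haveI : Fintype (IrrCharacter H) := Fintype.ofFinite _
  haveI : Fintype (IrrCharacter I) := Fintype.ofFinite _
  haveI : Fintype (IrrCharacter N) := Fintype.ofFinite _
  haveI : Fintype (IrrCharacter (N.subgroupOf I)) := Fintype.ofFinite _
  set ψ : H → ℂ := indFun I ψ₁ with hψdef
  have hψcl := isClassFunction_of_isCharacter (isCharacter_of_irr hψ)
  obtain ⟨Y, hY, hXY⟩ := Cfsg.Agent.H23.exists_constituent (N.subgroupOf I) hψ₁
  -- `ψ₁` is a constituent of `ψ|I`
  have hψI : IsCharacter I (fun x : I => ψ x) := isCharacter_restrict I (isCharacter_of_irr hψ)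
  have h1 : classInner (fun x : I => ψ x) ψ₁ ≠ 0 := by
    have h2 : classInner ψ₁ (fun x : I => ψ x) = 1 := by
      rw [← frobenius_reciprocity I ψ₁ ψ hψcl]
      exact classInner_irr_self hψ
    intro h3
    have h4 := classInner_comm_conj ψ₁ (fun x : I => ψ x)
    rw [h3, h2] at h4
    simp at h4
  -- `Y` is a constituent of `ψ|N∩I`
  let i : N.subgroupOf I →* I := (N.subgroupOf I).subtype
  have h2 : classInner ((fun x : I => ψ x) ∘ i) Y ≠ 0 := by
    have ha := fun τ : IrrCharacter I => classInner_isNat hψI τ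
    choose a ha using ha
    have hb := fun τ : IrrCharacter I =>
      classInner_isNat (isCharacter_comp i (isCharacter_of_irr τ.2)) ⟨Y, hY⟩
    choose b hb using hb
    obtain ⟨c, hc⟩ := classInner_isNat (isCharacter_comp i hψI) ⟨Y, hY⟩
    have hge := inner_comp_ge i hψI (isCharacter_of_irr hY) {⟨ψ₁, hψ₁⟩} a b c ha hb hc
    simp only [Finset.sum_singleton] at hge
    have h3 : a ⟨ψ₁, hψ₁⟩ ≠ 0 := by
      intro h
      apply h1
      rw [ha ⟨ψ₁, hψ₁⟩, h]
      simp
    have h4 : b ⟨ψ₁, hψ₁⟩ ≠ 0 := by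
      intro h
      apply hXY
      have := hb ⟨ψ₁, hψ₁⟩
      rw [h] at this
      have h6 : classInner (ψ₁ ∘ ⇑i) Y = 0 := by simpa using this
      exact h6
    have h5 : c ≠ 0 := by
      intro h
      rw [h] at hge
      have : a ⟨ψ₁, hψ₁⟩ * b ⟨ψ₁, hψ₁⟩ = 0 := Nat.le_zero.mp hge
      exact (mul_ne_zero h3 h4) this
    rw [hc]
    exact_mod_cast h5
  -- transport to `↥N`
  let e := swapInf N I
  let Y' : I.subgroupOf N → ℂ := Y ∘ e
  have hY' : IsIrrCharacter (I.subgroupOf N) Y' :=
    isIrrCharacter_comp_of_surjective e.toMonoidHom e.surjective hY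
  let φ : N → ℂ := fun n => ψ n
  have hφcl := isClassFunction_of_isCharacter (isCharacter_of_irr hres)
  have h3 : classInner (indFun (I.subgroupOf N) Y') φ ≠ 0 := by
    rw [frobenius_reciprocity (I.subgroupOf N) Y' φ hφcl]
    intro h4
    have h5 := classInner_comm_conj Y' (fun x : I.subgroupOf N => φ x)
    rw [h4, map_zero] at h5
    apply h2
    have h6 : classInner ((fun x : I => ψ x) ∘ i) Y = classInner (fun x : I.subgroupOf N => φ x) Y' := by
      unfold classInner
      have hc : Nat.card (N.subgroupOf I) = Nat.card (I.subgroupOf N) :=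
        (Nat.card_congr e.toEquiv).symm
      rw [hc]
      congr 1
      refine (Fintype.sum_equiv e.toEquiv _ _ fun x => ?_).symm
      rfl
    rw [h6]
    exact h5.symm
  have hind' := isCharacter_indFun (I.subgroupOf N) (isCharacter_of_irr hY')
  have h4 := degree_le_of_inner_ne hind' ⟨φ, hres⟩ (by
    intro h
    apply h3
    have h5 := classInner_comm_conj (indFun (I.subgroupOf N) Y') φ
    exact h)
  rw [charDegree_indFun _ (isCharacter_of_irr hY')] at h4
  have h5 : charDegree φ = I.index * charDegree ψ₁ := by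
    have : charDegree φ = charDegree ψ := rfl
    rw [this]
    exact charDegree_indFun I (isCharacter_of_irr hψ₁)
  have h6 : charDegree Y' = charDegree Y := by
    unfold charDegree
    simp [Y']
  have h7 : (I.subgroupOf N).index ≤ I.index := relIndex_le_index' N I
  have h8 : 0 < I.index := Nat.pos_of_ne_zero Subgroup.index_ne_zero_of_finite
  simp only at h4
  rw [h5, h6] at h4
  have h9 : charDegree ψ₁ ≤ charDegree Y := by
    have h10 : I.index * charDegree ψ₁ ≤ I.index * charDegree Y :=
      h4.trans (Nat.mul_le_mul_right _ h7)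
    exact Nat.le_of_mul_le_mul_left h10 h8
  have hX : IsCharacter (N.subgroupOf I) (fun x : N.subgroupOf I => ψ₁ x) :=
    isCharacter_comp i (isCharacter_of_irr hψ₁)
  have h10 : charDegree (fun x : N.subgroupOf I => ψ₁ x) = charDegree ψ₁ := rfl
  have := Cfsg.Agent.H22.eq_of_inner_ne_zero_of_degree_le hX ⟨Y, hY⟩ hXY (by rw [h10]; exact h9)
  rw [this]
  exact hY

end ResIrr

section Main

theorem mono_of_irr_res (n : ℕ) : ∀ (H : Type u) [Group H] [Fintype H] [Group.IsSolvable H]
    (N : Subgroup H) [N.Normal], Nat.card H = n → AG N → ∀ ψ : H → ℂ, IsIrrCharacter H ψ →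
    IsIrrCharacter N (fun x : N => ψ x) →
    ∃ (U : Subgroup H) (lam : U → ℂ), IsCharacter U lam ∧ lam 1 = 1 ∧ indFun U lam = ψ := by
  induction n using Nat.strong_induction_on with
  | _ n ih =>
  intro H _ _ _ N _ hn hAG ψ hψ hres
  classical
  haveI : Fintype (IrrCharacter H) := Fintype.ofFinite _
  have hψc := isCharacter_of_irr hψ
  have hψcl := isClassFunction_of_isCharacter hψc
  by_cases hcomm : ∀ a b : N, a * b = b * a
  · have h1 := irr_degree_one_of_comm hcomm hres
    have h2 : ψ 1 = 1 := by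
      rw [one_eq_charDegree hψc]
      have : charDegree ψ = 1 := h1
      rw [this]
      simp
    exact ⟨⊤, fun x => ψ x, isCharacter_restrict ⊤ hψc, h2, indFun_top_restrict hψcl⟩
  have hD : ⁅N, N⁆ ≠ ⊥ := by
    intro h
    apply hcomm
    intro a b
    have h1 := Subgroup.commutator_mem_commutator a.2 b.2
    rw [h, Subgroup.mem_bot, commutatorElement_eq_one_iff_mul_comm] at h1
    exact Subtype.ext h1
  let S : Set (Subgroup H) := {A | A.Normal ∧ A ≠ ⊥ ∧ A ≤ ⁅N, N⁆}
  obtain ⟨A, hA⟩ := (Set.toFinite S).exists_minimal ⟨⁅N, N⁆, inferInstance, hD, le_rfl⟩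
  obtain ⟨⟨hAn, hAne, hAD⟩, hAmin⟩ := hA
  have hAcomm : ⁅A, A⁆ = ⊥ := by
    by_contra hne
    have hlt := Group.IsSolvable.commutator_lt_of_ne_bot hAne
    have := hAmin ⟨inferInstance, hne, (Subgroup.commutator_le_self A).trans hAD⟩ hlt.le
    exact absurd hlt (not_lt_of_ge this)
  have hAab : ∀ a b : A, a * b = b * a := by
    intro a b
    have h1 := Subgroup.commutator_mem_commutator a.2 b.2
    rw [hAcomm, Subgroup.mem_bot, commutatorElement_eq_one_iff_mul_comm] at h1
    exact Subtype.ext h1
  haveI : Fintype (IrrCharacter A) := Fintype.ofFinite _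
  obtain ⟨lam, hlam, hc⟩ := Cfsg.Agent.H23.exists_constituent A hψ
  have hdeg := irr_degree_one_of_comm hAab hlam
  have hlamc := isCharacter_of_irr hlam
  have hlammul := linear_mul hlamc hdeg
  have hlam1 := linear_one hlamc hdeg
  by_cases hI : inertG A lam = ⊤
  · -- the invariant case
    have hinv : ∀ t : H, twist A lam t = lam := by
      intro t
      have ht : t ∈ inertG A lam := by rw [hI]; trivial
      funext h
      rw [twist_def]
      exact ht h
    have hne : classInner (indFun A lam) ψ ≠ 0 := by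
      rw [frobenius_reciprocity A lam ψ hψcl]
      intro h
      apply hc
      rw [← classInner_comm_conj, h]
      simp
    obtain ⟨e, he, -, hres'⟩ := clifford_restrict A hlam hψ hinv hne
    -- the kernel of `lam` in `H`
    let K : Subgroup H :=
      { carrier := {x | ∃ h : x ∈ A, lam ⟨x, h⟩ = 1}
        mul_mem' := by
          rintro a b ⟨ha, h1⟩ ⟨hb, h2⟩
          refine ⟨A.mul_mem ha hb, ?_⟩
          have := hlammul ⟨a, ha⟩ ⟨b, hb⟩
          rw [h1, h2, one_mul] at this
          exact this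
        one_mem' := ⟨A.one_mem, hlam1⟩
        inv_mem' := by
          rintro a ⟨ha, h1⟩
          refine ⟨A.inv_mem ha, ?_⟩
          have := hlammul ⟨a⁻¹, A.inv_mem ha⟩ ⟨a, ha⟩
          rw [h1, mul_one] at this
          rw [← this]
          have h3 : (⟨a⁻¹, A.inv_mem ha⟩ * ⟨a, ha⟩ : A) = 1 := by
            apply Subtype.ext
            simp
          rw [h3, hlam1] }
    have hKA : K ≤ A := fun x hx => hx.1
    have hKn : K.Normal := by
      refine ⟨fun x hx g => ?_⟩
      obtain ⟨hxA, h1⟩ := hx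
      refine ⟨hAn.conj_mem x hxA g, ?_⟩
      have := congrFun (hinv g) ⟨x, hxA⟩
      rw [twist_def] at this
      rw [← h1]
      exact this
    by_cases hK : K = ⊥
    · -- `A` would be central
      exfalso
      obtain ⟨⟨a, haA⟩, ha1⟩ := Subgroup.ne_bot_iff_exists_ne_one.mp hAne
      apply ha1
      apply Subtype.ext
      apply AG.not_central hAG (hAD haA)
      intro m _
      have h1 : m * a * m⁻¹ * a⁻¹ ∈ K := by
        refine ⟨A.mul_mem (hAn.conj_mem a haA m) (A.inv_mem haA), ?_⟩
        have h2 := hlammul ⟨m * a * m⁻¹, hAn.conj_mem a haA m⟩ ⟨a⁻¹, A.inv_mem haA⟩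
        have h3 := congrFun (hinv m) ⟨a, haA⟩
        rw [twist_def] at h3
        have h3' : lam ⟨m * a * m⁻¹, hAn.conj_mem a haA m⟩ = lam ⟨a, haA⟩ := h3
        have h4 := hlammul ⟨a, haA⟩ ⟨a⁻¹, A.inv_mem haA⟩
        have h5 : (⟨a, haA⟩ * ⟨a⁻¹, A.inv_mem haA⟩ : A) = 1 := by
          apply Subtype.ext
          simp
        rw [h5, hlam1] at h4
        rw [h3', ← h4] at h2
        exact h2
      rw [hK, Subgroup.mem_bot] at h1
      have h2 : m * a * m⁻¹ = a := by
        have := congrArg (· * a) h1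
        simpa using this
      calc m * a = (m * a * m⁻¹) * m := by group
        _ = a * m := by rw [h2]
    have hKAeq : K = A := by
      apply le_antisymm hKA
      exact hAmin ⟨hKn, hK, hKA.trans hAD⟩ hKA
    -- `A` lies in the kernel of `ψ`
    have h1ψ : ψ 1 = e := by
      have := hres' 1
      simp only [hlam1, mul_one] at this
      exact this
    have hker : ∀ a ∈ A, ψ a = ψ 1 := by
      intro a ha
      have h1 := hres' ⟨a, ha⟩
      have h2 : a ∈ K := hKAeq ▸ ha
      obtain ⟨h3, h4⟩ := h2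
      rw [h1ψ]
      simp only at h1
      rw [h1, h4, mul_one]
    -- pass to the quotient
    haveI : Fintype (H ⧸ A) := Fintype.ofFinite _
    let π : H →* H ⧸ A := QuotientGroup.mk' A
    have hπ : Function.Surjective π := QuotientGroup.mk'_surjective A
    obtain ⟨ψ', hψ', hψ'eq⟩ := isIrrCharacter_descend π hπ hψ (by
      intro k hk
      exact hker k ((QuotientGroup.eq_one_iff k).mp hk))
    have hval : ∀ x : H, ψ' (π x) = ψ x := fun x => congrFun hψ'eq x
    let N' : Subgroup (H ⧸ A) := N.map π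
    haveI : N'.Normal := Subgroup.Normal.map inferInstance π hπ
    let fN : N →* N' := π.subgroupMap N
    have hfN : Function.Surjective fN := π.subgroupMap_surjective N
    have hres₁ : IsIrrCharacter N' (fun x : N' => ψ' x) := by
      obtain ⟨χ', hχ', hχ'eq⟩ := isIrrCharacter_descend fN hfN hres (by
        intro k hk
        have h1 : π k = 1 := congrArg Subtype.val hk
        exact hker k ((QuotientGroup.eq_one_iff (k : H)).mp h1))
      have : χ' = fun x : N' => ψ' x := by
        funext x
        obtain ⟨k, rfl⟩ := hfN x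
        have h1 := congrFun hχ'eq k
        simp only [Function.comp_apply] at h1
        rw [h1]
        exact (hval k).symm
      rw [← this]
      exact hχ'
    have hcard : Nat.card (H ⧸ A) < n := by
      rw [← hn]
      have h1 := Subgroup.card_mul_index A
      have h2 : Nat.card A ≠ 1 := fun h => hAne (Subgroup.eq_bot_of_card_eq A h)
      have h3 : 0 < Nat.card A := Nat.card_pos
      have h4 : 0 < A.index := Nat.pos_of_ne_zero Subgroup.index_ne_zero_of_finite
      have h5 : 2 ≤ Nat.card A := by omega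
      have h6 : Nat.card (H ⧸ A) = A.index := rfl
      rw [h6]
      nlinarith
    obtain ⟨U', μ', hμc, hμ1, hμind⟩ := ih _ hcard (H ⧸ A) N' rfl (hAG.quot A) ψ' hψ' hres₁
    let U : Subgroup H := U'.comap π
    have hAU : A ≤ U := by
      intro a ha
      show π a ∈ U'
      have h1 : π a = 1 := (QuotientGroup.eq_one_iff a).mpr ha
      rw [h1]
      exact U'.one_mem
    let g : U →* U' := π.subgroupComap U'
    have hUm : U.map π = U' := Subgroup.map_comap_eq_self_of_surjective hπ U'
    refine ⟨U, μ' ∘ g, isCharacter_comp g hμc, ?_, ?_⟩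
    · simpa using hμ1
    · funext x
      rw [← hval x, ← hμind]
      have h1 := indFun_quotient A U hAU (μ' ∘ g) (fun y : U.map π => μ' ⟨y, hUm ▸ y.2⟩)
        (fun y => rfl) x
      rw [← h1]
      have h2 := indFun_congr_eq hUm (fun y : U.map π => μ' ⟨y, hUm ▸ y.2⟩) μ' (fun y => rfl)
      rw [h2]
  · -- the non-invariant case
    set I := inertG A lam with hIdef
    have hAI : A ≤ I := by
      intro x hx
      rw [hIdef, mem_inertG]
      intro h
      exact isClassFunction_of_isCharacter hlamc h ⟨x, hx⟩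
    obtain ⟨ψ₁, e, hψ₁, he, hψeq, -, -⟩ := clifford_ext A I hAI hlam
      (fun g => Iff.rfl) hψ hc
    have hirr₁ := res_irr_of_ind N I hψ₁ (hψeq ▸ hψ) (hψeq ▸ hres)
    have hcardI : Nat.card I < n := by
      rw [← hn]
      have h1 := Subgroup.card_mul_index I
      have h2 : I.index ≠ 1 := fun h => hI (Subgroup.index_eq_one.mp h)
      have h3 : I.index ≠ 0 := Subgroup.index_ne_zero_of_finite
      have h4 : 0 < Nat.card I := Nat.card_pos
      have h5 : 2 ≤ I.index := by omega
      nlinarith
    haveI : Group.IsSolvable I := Group.isSolvable_of_isSolvable_injective I.subtype_injective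
    obtain ⟨U₁, μ₁, hμc, hμ1, hμind⟩ := ih _ hcardI I (N.subgroupOf I) rfl (hAG.sub I) ψ₁ hψ₁ hirr₁
    let ee : U₁ ≃* U₁.map I.subtype := U₁.equivMapOfInjective I.subtype I.subtype_injective
    refine ⟨U₁.map I.subtype, μ₁ ∘ ee.symm, isCharacter_comp ee.symm.toMonoidHom hμc, ?_, ?_⟩
    · simpa using hμ1
    · rw [ind_through I U₁ μ₁, hμind, ← hψeq]

end Main

end Cfsg.Agent.H04.Cliff
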