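import Cfsg.Agent.Lib.H06.Brauer3

/-!
# Permutation characters
-/

set_option autoImplicit false
set_option linter.style.haveILetI false
set_option linter.unusedSectionVars false
set_option linter.unusedSimpArgs false
set_option linter.unusedVariables false

namespace Cfsg.Agent.H04.Cliff

open Cfsg Cfsg.Agent.H21
open scoped ComplexConjugate

universe u

theorem count_fix {Z : Type*} [Group Z] [Finite Z] (S : Subgroup Z) (u : Z) :
    Nat.card {g : Z // g⁻¹ * u * g ∈ S} = Nat.card {q : Z ⧸ S // u • q = q} * Nat.card S := by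
  classical
  let t : Set (Z ⧸ S) := {q | u • q = q}
  have hiff : ∀ g : Z, g⁻¹ * u * g ∈ S ↔ g ∈ (QuotientGroup.mk ⁻¹' t : Set Z) := by
    intro g
    simp only [Set.mem_preimage, t, Set.mem_ofPred_eq]
    rw [MulAction.Quotient.smul_mk, smul_eq_mul]
    constructor
    · intro h
      apply (QuotientGroup.eq).mpr
      have : (u * g)⁻¹ * g = (g⁻¹ * u * g)⁻¹ := by group
      rw [this]
      exact S.inv_mem h
    · intro h
      have h1 := (QuotientGroup.eq).mp h
      have : (u * g)⁻¹ * g = (g⁻¹ * u * g)⁻¹ := by group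
      rw [this] at h1
      simpa using S.inv_mem h1
  have e1 : {g : Z // g⁻¹ * u * g ∈ S} ≃ (QuotientGroup.mk ⁻¹' t : Set Z) :=
    Equiv.subtypeEquivRight hiff
  rw [Nat.card_congr e1, Nat.card_congr (QuotientGroup.preimageMkEquivSubgroupProdSet _ t),
    Nat.card_prod, mul_comm]
  rfl

theorem indFun_one_eq_count {G : Type*} [Group G] [Fintype G] (S : Subgroup G) (u : G) :
    indFun S (fun _ => 1) u = (Nat.card {g : G // g⁻¹ * u * g ∈ S} : ℂ) * (Nat.card S : ℂ)⁻¹ := by
  classical
  simp only [indFun]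
  rw [mul_comm]
  congr 1
  have h1 : ∀ x : G, extendByZero S (fun _ => (1 : ℂ)) (x⁻¹ * u * x) =
      if x⁻¹ * u * x ∈ S then 1 else 0 := by
    intro x
    split_ifs with h
    · exact extendByZero_coe (H := S) (fun _ => (1 : ℂ)) ⟨_, h⟩
    · exact extendByZero_of_not_mem (H := S) _ h
  simp only [h1]
  rw [Finset.sum_boole, Nat.card_eq_fintype_card, Fintype.card_subtype]

theorem indFun_one_eq_fix {G : Type*} [Group G] [Fintype G] (S : Subgroup G) (u : G) :
    indFun S (fun _ => 1) u = (Nat.card {q : G ⧸ S // u • q = q} : ℂ) := by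
  rw [indFun_one_eq_count, count_fix]
  have : (Nat.card S : ℂ) ≠ 0 := Nat.cast_ne_zero.2 Nat.card_pos.ne'
  push_cast
  field_simp

theorem fix_orbit {G X : Type*} [Group G] [MulAction G X] (x₀ : X) (u : G) :
    Nat.card {q : G ⧸ MulAction.stabilizer G x₀ // u • q = q} =
      Nat.card {x : X // x ∈ MulAction.orbit G x₀ ∧ u • x = x} := by
  classical
  let e := (MulAction.orbitEquivQuotientStabilizer G x₀).symm
  have he : ∀ t : G, ((e (t : G ⧸ MulAction.stabilizer G x₀) : MulAction.orbit G x₀) : X) = t • x₀ :=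
    fun t => by
      have := MulAction.orbitEquivQuotientStabilizer_symm_apply G x₀ t
      exact this
  have hmul : ∀ q : G ⧸ MulAction.stabilizer G x₀,
      ((e (u • q) : MulAction.orbit G x₀) : X) = u • ((e q : MulAction.orbit G x₀) : X) := by
    intro q
    obtain ⟨t, rfl⟩ := QuotientGroup.mk_surjective q
    rw [MulAction.Quotient.smul_mk, smul_eq_mul, he, he, mul_smul]
  refine Nat.card_congr
    { toFun := fun q => ⟨(e q.1 : X), (e q.1).2, ?_⟩
      invFun := fun x => ⟨e.symm ⟨x.1, x.2.1⟩, ?_⟩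
      left_inv := fun q => ?_
      right_inv := fun x => ?_ }
  · rw [← hmul, q.2]
  · apply e.injective
    apply Subtype.ext
    rw [hmul, Equiv.apply_symm_apply]
    exact x.2.2
  · apply Subtype.ext
    simp
  · apply Subtype.ext
    simp

theorem perm_char_decomp {G : Type*} [Group G] [Fintype G] (H K : Subgroup G) :
    ∃ a : Subgroup G → ℕ, (∀ U, a U ≠ 0 → U ≤ H) ∧
      indFun H (fun _ => 1) * indFun K (fun _ => 1) =
        ∑ U : Subgroup G, (a U : ℂ) • indFun U (fun _ => 1) := by
  classical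
  let X := (G ⧸ H) × (G ⧸ K)
  let Ω := MulAction.orbitRel.Quotient G X
  haveI : Fintype X := Fintype.ofFinite _
  haveI : Fintype Ω := Fintype.ofFinite _
  have hrep : ∀ ω : Ω, ∃ x : X, x.1 = ((1 : G) : G ⧸ H) ∧ (Quotient.mk'' x : Ω) = ω := by
    intro ω
    obtain ⟨⟨q, r⟩, rfl⟩ := Quotient.mk''_surjective ω
    obtain ⟨t, rfl⟩ := QuotientGroup.mk_surjective q
    refine ⟨(t⁻¹ • (((t : G ⧸ H), r) : X)), ?_, ?_⟩
    · show t⁻¹ • (t : G ⧸ H) = _
      rw [MulAction.Quotient.smul_mk, smul_eq_mul, inv_mul_cancel]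
    · apply Quotient.sound'
      exact MulAction.orbitRel_apply.2 ⟨t⁻¹, rfl⟩
  choose r hr1 hr2 using hrep
  refine ⟨fun U => Nat.card {ω : Ω // MulAction.stabilizer G (r ω) = U}, ?_, ?_⟩
  · intro U hU t ht
    have hne : Nonempty {ω : Ω // MulAction.stabilizer G (r ω) = U} := by
      by_contra hc
      rw [not_nonempty_iff] at hc
      exact hU Nat.card_of_isEmpty
    obtain ⟨⟨ω, rfl⟩⟩ := hne
    have h1 : t • r ω = r ω := ht
    have h2 : t • (r ω).1 = (r ω).1 := congrArg Prod.fst h1
    rw [hr1, MulAction.Quotient.smul_mk, smul_eq_mul, mul_one] at h2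
    have h3 := QuotientGroup.eq.mp h2
    simpa using H.inv_mem h3
  · funext u
    have hrhs : (∑ U : Subgroup G, ((Nat.card {ω : Ω // MulAction.stabilizer G (r ω) = U} : ℕ) : ℂ) •
        indFun U (fun _ => 1)) u = ∑ ω : Ω, (Nat.card {x : X // x ∈ MulAction.orbit G (r ω) ∧ u • x = x} : ℂ) := by
      simp only [Finset.sum_apply, Pi.smul_apply, smul_eq_mul]
      rw [← Finset.sum_fiberwise (Finset.univ : Finset Ω) (fun ω => MulAction.stabilizer G (r ω))]
      refine Finset.sum_congr rfl fun U _ => ?_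
      have h1 : ∀ ω ∈ Finset.univ.filter (fun ω : Ω => MulAction.stabilizer G (r ω) = U),
          ((Nat.card {x : X // x ∈ MulAction.orbit G (r ω) ∧ u • x = x} : ℕ) : ℂ) =
            indFun U (fun _ => 1) u := by
        intro ω hω
        have hU := (Finset.mem_filter.1 hω).2
        subst hU
        rw [indFun_one_eq_fix, fix_orbit]
      rw [Finset.sum_congr rfl h1, Finset.sum_const, nsmul_eq_mul, Nat.card_eq_fintype_card,
        Fintype.card_subtype]
    rw [hrhs]
    simp only [Pi.mul_apply]
    rw [indFun_one_eq_fix, indFun_one_eq_fix, ← Nat.cast_mul, ← Nat.card_prod]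
    have h2 : Nat.card ({q : G ⧸ H // u • q = q} × {q : G ⧸ K // u • q = q}) =
        Nat.card {x : X // u • x = x} := by
      refine Nat.card_congr
        { toFun := fun p => ⟨(p.1.1, p.2.1), Prod.ext p.1.2 p.2.2⟩
          invFun := fun x => (⟨x.1.1, congrArg Prod.fst x.2⟩, ⟨x.1.2, congrArg Prod.snd x.2⟩)
          left_inv := fun p => rfl
          right_inv := fun x => rfl }
    rw [h2]
    have h3 : Nat.card {x : X // u • x = x} =
        ∑ ω : Ω, Nat.card {x : X // x ∈ MulAction.orbit G (r ω) ∧ u • x = x} := by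
      simp only [Nat.card_eq_fintype_card, Fintype.card_subtype]
      rw [Finset.card_eq_sum_card_fiberwise (f := fun x : X => (Quotient.mk'' x : Ω))
        (s := Finset.univ.filter fun x : X => u • x = x)
        (t := Finset.univ) (fun _ _ => Finset.mem_coe.2 (Finset.mem_univ _))]
      refine Finset.sum_congr rfl fun ω _ => ?_
      congr 1
      ext x
      simp only [Finset.mem_filter, Finset.mem_univ, true_and]
      have hiff : (Quotient.mk'' x : Ω) = ω ↔ x ∈ MulAction.orbit G (r ω) := by
        constructor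
        · intro h
          have := Quotient.exact' (h.trans (hr2 ω).symm)
          exact MulAction.orbitRel_apply.1 this
        · intro h
          exact (Quotient.sound' (MulAction.orbitRel_apply.2 h)).trans (hr2 ω)
      tauto
    rw [h3]
    push_cast
    rfl

end Cfsg.Agent.H04.Cliff
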