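import Cfsg.Agent.Lib.H04.Cliff.QPGroup
import Cfsg.Agent.Lib.H04.Cliff.Mono
import Cfsg.Agent.Lib.H01.CharA

/-!
# Characters induced from maximal subgroups are not quasi-primitive (irreducible case)
-/

set_option autoImplicit false
set_option linter.style.haveILetI false
set_option linter.unusedSectionVars false
set_option linter.unusedSimpArgs false
set_option linter.unusedVariables false

namespace Cfsg.Agent.H04.Cliff.QP

open Cfsg Cfsg.Agent.H21 Cfsg.Agent.H06 Module
open scoped ComplexConjugate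

universe u

section Gen

variable {T : Type u} [Group T] [Fintype T]

/-- A character with irreducible restriction is irreducible. -/
theorem irr_of_res_irr (L₀ : Subgroup T) {X : T → ℂ} (hX : IsCharacter T X)
    (h : IsIrrCharacter L₀ (fun x : L₀ => X x)) : IsIrrCharacter T X := by
  classical
  haveI : Fintype (IrrCharacter T) := Fintype.ofFinite _
  haveI : Fintype (IrrCharacter L₀) := Fintype.ofFinite _
  have h1 : X 1 ≠ 0 := by
    have := irr_one_ne_zero' h
    simpa using this
  obtain ⟨Y, hY⟩ := Cfsg.Agent.H01.exists_constituent hX h1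
  obtain ⟨Y₀, hY₀, hc⟩ := Cfsg.Agent.H23.exists_constituent L₀ Y.2
  let i : L₀ →* T := L₀.subtype
  have hne : classInner (X ∘ i) Y₀ ≠ 0 := by
    have ha := fun τ : IrrCharacter T => classInner_isNat hX τ
    choose a ha using ha
    have hb := fun τ : IrrCharacter T =>
      classInner_isNat (isCharacter_comp i (isCharacter_of_irr τ.2)) ⟨Y₀, hY₀⟩
    choose b hb using hb
    obtain ⟨c, hc'⟩ := classInner_isNat (isCharacter_comp i hX) ⟨Y₀, hY₀⟩
    have hge := inner_comp_ge i hX (isCharacter_of_irr hY₀) {Y} a b c ha hb hc'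
    simp only [Finset.sum_singleton] at hge
    have h3 : a Y ≠ 0 := by
      intro h
      apply hY
      rw [ha Y, h]
      simp
    have h4 : b Y ≠ 0 := by
      intro h
      apply hc
      have := hb Y
      rw [h] at this
      have h6 : classInner ((Y : T → ℂ) ∘ ⇑i) Y₀ = 0 := by simpa using this
      exact h6
    have h5 : c ≠ 0 := by
      intro h
      rw [h] at hge
      have : a Y * b Y = 0 := Nat.le_zero.mp hge
      exact (mul_ne_zero h3 h4) this
    rw [hc']
    exact_mod_cast h5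
  have heq : (fun x : L₀ => X x) = Y₀ := by
    by_contra hne'
    exact hne (classInner_irr_ne h hY₀ hne')
  have hdeg : charDegree Y₀ ≤ charDegree (fun x : L₀ => (Y : T → ℂ) x) :=
    degree_le_of_inner_ne (isCharacter_restrict L₀ (isCharacter_of_irr Y.2)) ⟨Y₀, hY₀⟩ hc
  have h6 : charDegree (fun x : L₀ => (Y : T → ℂ) x) = charDegree (Y : T → ℂ) := rfl
  have h7 : charDegree Y₀ = charDegree X := by
    rw [← heq]
    rfl
  have := Cfsg.Agent.H22.eq_of_inner_ne_zero_of_degree_le hX Y hY (by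
    rw [← h7]
    rw [h6] at hdeg
    exact hdeg)
  rw [this]
  exact Y.2

end Gen

section Sum

variable {G : Type u} [Group G] [Fintype G]

theorem sum_subgroup (T : Subgroup G) [Fintype T] [DecidablePred (· ∈ T)] (F : G → ℂ) :
    ∑ z : T, F z = ∑ z : G, if z ∈ T then F z else 0 := by
  rw [← Finset.sum_filter]
  exact (Finset.sum_subtype (Finset.univ.filter (· ∈ T)) (by simp) F).symm

theorem sum_subgroupR (T : Subgroup G) [Fintype T] [DecidablePred (· ∈ T)] (F : G → ℝ) :
    ∑ z : T, F z = ∑ z : G, if z ∈ T then F z else 0 := by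
  rw [← Finset.sum_filter]
  exact (Finset.sum_subtype (Finset.univ.filter (· ∈ T)) (by simp) F).symm

/-- Frobenius reciprocity cut down to a normal subgroup. -/
theorem frob_normal (H N : Subgroup G) [Fintype H] [hN : N.Normal] [DecidablePred (· ∈ N)]
    (ϑ : H → ℂ) :
    (∑ z : G, if z ∈ N then indFun H ϑ z * conj (indFun H ϑ z) else 0) =
      (H.index : ℂ) * ∑ y : H, if (y : G) ∈ N then ϑ y * conj (indFun H ϑ y) else 0 := by
  classical
  let f : G → ℂ := fun z => if z ∈ N then indFun H ϑ z else 0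
  have hf : IsClassFunction G f := by
    intro g h
    have h1 := indFun_isClass H ϑ g h
    have h2 : h * g * h⁻¹ ∈ N ↔ g ∈ N := by
      constructor
      · intro h3
        have := hN.conj_mem _ h3 h⁻¹
        simpa [mul_assoc] using this
      · intro h3
        exact hN.conj_mem g h3 h
    simp only [f, h2, h1]
  have h1 := frobenius_reciprocity H ϑ f hf
  unfold classInner at h1
  have hG : (Nat.card G : ℂ) ≠ 0 := by exact_mod_cast Nat.card_pos.ne'
  have hH : (Nat.card H : ℂ) ≠ 0 := by exact_mod_cast Nat.card_pos.ne'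
  have hidx : (Nat.card G : ℂ) = (Nat.card H : ℂ) * (H.index : ℂ) := by
    exact_mod_cast (Subgroup.card_mul_index H).symm
  have e1 : ∀ z : G, indFun H ϑ z * conj (f z) =
      if z ∈ N then indFun H ϑ z * conj (indFun H ϑ z) else 0 := by
    intro z
    by_cases hz : z ∈ N <;> simp [f, hz]
  have e2 : ∀ y : H, ϑ y * conj (f y) =
      if (y : G) ∈ N then ϑ y * conj (indFun H ϑ y) else 0 := by
    intro y
    by_cases hy : (y : G) ∈ N <;> simp [f, hy]
  simp only [e1, e2] at h1
  field_simp at h1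
  rw [hidx] at h1
  have h3 : (Nat.card H : ℂ) * ((∑ z : G, if z ∈ N then indFun H ϑ z * conj (indFun H ϑ z) else 0)) =
      (Nat.card H : ℂ) * ((H.index : ℂ) * ∑ y : H, if (y : G) ∈ N then ϑ y * conj (indFun H ϑ y) else 0) := by
    linear_combination h1
  exact mul_left_cancel₀ hH h3

end Sum

section Bound

variable {G : Type u} [Group G] [Fintype G]

/-- The part of `R` mapped into `R` by conjugation with `g⁻¹`. -/
def Tg (R : Subgroup G) (g : G) : Subgroup G where
  carrier := {y | y ∈ R ∧ g⁻¹ * y * g ∈ R}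
  mul_mem' := by
    rintro a b ⟨ha, ha'⟩ ⟨hb, hb'⟩
    refine ⟨R.mul_mem ha hb, ?_⟩
    have := R.mul_mem ha' hb'
    have e : g⁻¹ * a * g * (g⁻¹ * b * g) = g⁻¹ * (a * b) * g := by group
    rwa [e] at this
  one_mem' := ⟨R.one_mem, by simp [R.one_mem]⟩
  inv_mem' := by
    rintro a ⟨ha, ha'⟩
    refine ⟨R.inv_mem ha, ?_⟩
    have := R.inv_mem ha'
    have e : (g⁻¹ * a * g)⁻¹ = g⁻¹ * a⁻¹ * g := by group
    rwa [e] at this

theorem mem_Tg {R : Subgroup G} {g y : G} : y ∈ Tg R g ↔ y ∈ R ∧ g⁻¹ * y * g ∈ R := Iff.rfl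

theorem Tg_le (R : Subgroup G) (g : G) : Tg R g ≤ R := fun _ h => h.1

/-- If `T_g = R` then `g` normalises `R`. -/
theorem mem_normalizer_of_Tg {R : Subgroup G} {g : G} (h : R ≤ Tg R g) :
    g ∈ Subgroup.normalizer (R : Set G) := by
  classical
  have h1 : R.map (MulAut.conj g⁻¹).toMonoidHom ≤ R := by
    rintro _ ⟨y, hy, rfl⟩
    have := (h hy).2
    simpa [MulAut.conj_apply] using this
  have hc : Nat.card (R.map (MulAut.conj g⁻¹).toMonoidHom) = Nat.card R :=
    Nat.card_congr (R.equivMapOfInjective _ (MulAut.conj g⁻¹).injective).symm.toEquiv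
  have h2 : R.map (MulAut.conj g⁻¹).toMonoidHom = R :=
    Subgroup.eq_of_le_of_card_ge h1 (by rw [hc])
  have hg : g⁻¹ ∈ Subgroup.normalizer (R : Set G) := by
    rw [Subgroup.mem_normalizer_iff]
    intro y
    constructor
    · intro hy
      have : g⁻¹ * y * g⁻¹⁻¹ ∈ R.map (MulAut.conj g⁻¹).toMonoidHom :=
        Subgroup.mem_map.mpr ⟨y, hy, by simp [MulAut.conj_apply]⟩
      rwa [h2] at this
    · intro hy
      rw [← h2] at hy
      obtain ⟨z, hz, hzy⟩ := Subgroup.mem_map.mp hy
      have e : z = y := by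
        have hzy' : g⁻¹ * z * g⁻¹⁻¹ = g⁻¹ * y * g⁻¹⁻¹ := by simpa [MulAut.conj_apply] using hzy
        have h3 : g⁻¹ * z * g = g⁻¹ * y * g := by simpa using hzy'
        simpa using h3
      exact e ▸ hz
  simpa using (Subgroup.normalizer (R : Set G)).inv_mem hg

variable (H N R : Subgroup G) [hN : N.Normal] (ϑ : H → ℂ)

open Classical in
/-- The key estimate for a single conjugate. -/
theorem inner_bound (hR : R = N ⊓ H)
    (hsum : ∀ k : G, (∑ y : G, if y ∈ Tg R k then ‖extendByZero H ϑ y‖ ^ 2 else 0) =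
      (Nat.card (Tg R k) : ℝ)) (g : G) :
    ‖∑ y : G, if y ∈ R then extendByZero H ϑ y * conj (extendByZero H ϑ (g⁻¹ * y * g)) else 0‖ ≤
      ((Nat.card (Tg R g) : ℝ) + (Nat.card (Tg R g⁻¹) : ℝ)) / 2 := by
  classical
  set e := extendByZero H ϑ with he
  have hR' : ∀ y, y ∈ R ↔ y ∈ N ∧ y ∈ H := by
    intro y
    rw [hR]
    exact Iff.rfl
  have hzero : ∀ y, y ∈ R → g⁻¹ * y * g ∉ R → e (g⁻¹ * y * g) = 0 := by
    intro y hy hy'
    apply extendByZero_of_not_mem
    intro h
    apply hy'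
    rw [hR']
    refine ⟨?_, h⟩
    have := hN.conj_mem y ((hR' y).mp hy).1 g⁻¹
    simpa using this
  have h1 : ‖∑ y : G, if y ∈ R then e y * conj (e (g⁻¹ * y * g)) else 0‖ ≤
      ∑ y : G, if y ∈ Tg R g then (‖e y‖ ^ 2 + ‖e (g⁻¹ * y * g)‖ ^ 2) / 2 else 0 := by
    refine (norm_sum_le _ _).trans (Finset.sum_le_sum fun y _ => ?_)
    by_cases hy : y ∈ R
    · by_cases hy' : g⁻¹ * y * g ∈ R
      · have hm : y ∈ Tg R g := ⟨hy, hy'⟩
        rw [if_pos hy, if_pos hm, norm_mul, Complex.norm_conj]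
        nlinarith [sq_nonneg (‖e y‖ - ‖e (g⁻¹ * y * g)‖)]
      · have hm : y ∉ Tg R g := fun h => hy' h.2
        rw [if_pos hy, if_neg hm, hzero y hy hy']
        simp
    · have hm : y ∉ Tg R g := fun h => hy h.1
      rw [if_neg hy, if_neg hm]
      simp
  refine h1.trans (le_of_eq ?_)
  have h2 : (∑ y : G, if y ∈ Tg R g then (‖e y‖ ^ 2 + ‖e (g⁻¹ * y * g)‖ ^ 2) / 2 else 0) =
      ((∑ y : G, if y ∈ Tg R g then ‖e y‖ ^ 2 else 0) +
       (∑ y : G, if y ∈ Tg R g then ‖e (g⁻¹ * y * g)‖ ^ 2 else 0)) / 2 := by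
    rw [← Finset.sum_add_distrib, Finset.sum_div]
    refine Finset.sum_congr rfl fun y _ => ?_
    split_ifs <;> simp
  rw [h2, hsum g]
  congr 2
  rw [← hsum g⁻¹]
  -- reindex by conjugation
  let σ : G ≃ G := (MulAut.conj g⁻¹).toEquiv
  refine Fintype.sum_equiv σ _ _ fun y => ?_
  have hσ : σ y = g⁻¹ * y * g := by
    simp [σ, MulAut.conj_apply]
  have hiff : y ∈ Tg R g ↔ σ y ∈ Tg R g⁻¹ := by
    rw [hσ, mem_Tg, mem_Tg]
    constructor
    · rintro ⟨h3, h4⟩
      refine ⟨h4, ?_⟩
      simpa [mul_assoc] using h3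
    · rintro ⟨h3, h4⟩
      refine ⟨?_, h3⟩
      simpa [mul_assoc] using h4
  by_cases hy : y ∈ Tg R g
  · rw [if_pos hy, if_pos (hiff.mp hy), hσ]
  · rw [if_neg hy, if_neg (fun h => hy (hiff.mpr h))]

end Bound

section Main

variable {G : Type u} [Group G] [Fintype G]

open Classical in
theorem main_false (L H : Subgroup G) [hL : L.Normal] (hLH : L ≤ H) (hmax : IsCoatom H)
    (hsolv : Group.IsSolvable (G ⧸ L)) (ϑ : H → ℂ) (hϑ : IsIrrCharacter H ϑ)
    (hϑL : IsIrrCharacter L (fun x : L => ϑ ⟨(x : G), hLH x.2⟩))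
    (hind : IsIrrCharacter G (indFun H ϑ))
    (hall : ∀ M : Subgroup G, M.Normal → L ≤ M → ∃ (φ : M → ℂ) (e : ℕ), IsIrrCharacter M φ ∧
      (fun m : M => indFun H ϑ m) = (e : ℂ) • φ) : False := by
  set χ := indFun H ϑ with hχdef
  set a := H.index with hadef
  have hχcl : IsClassFunction G χ := indFun_isClass H ϑ
  have hχ1 : χ 1 = (a : ℂ) * ϑ 1 := indFun_one H ϑ
  have hϑ1 := irr_one_ne_zero' hϑ
  have hχ1' := irr_one_ne_zero' hind
  have hcardH : Nat.card H * a = Nat.card G := Subgroup.card_mul_index H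
  have hapos : 0 < a := Nat.pos_of_ne_zero Subgroup.index_ne_zero_of_finite
  have hane : a ≠ 1 := fun h => hmax.1 (Subgroup.index_eq_one.mp h)
  -- restrictions of ϑ stay irreducible
  have irrT : ∀ (T : Subgroup G) (hT : T ≤ H), L ≤ T →
      IsIrrCharacter T (fun y : T => ϑ ⟨y, hT y.2⟩) := by
    intro T hT hLT
    apply irr_of_res_irr (L.subgroupOf T)
    · exact isCharacter_comp (Subgroup.inclusion hT) (isCharacter_of_irr hϑ)
    · let e : L.subgroupOf T ≃* L := Subgroup.subgroupOfEquivOfLe hLT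
      exact isIrrCharacter_comp_of_surjective e.toMonoidHom e.surjective hϑL
  set ext := extendByZero H ϑ with hext
  have hextc : ∀ y : H, ext y = ϑ y := fun y => extendByZero_coe H ϑ y
  have hsum : ∀ T : Subgroup G, T ≤ H → L ≤ T →
      (∑ y : G, if y ∈ T then ‖ext y‖ ^ 2 else 0) = (Nat.card T : ℝ) := by
    intro T hT hLT
    have h1 := classInner_irr_self (irrT T hT hLT)
    unfold classInner at h1
    have hT0 : (Nat.card T : ℂ) ≠ 0 := by exact_mod_cast Nat.card_pos.ne'
    have h2 : ∑ y : T, ϑ ⟨y, hT y.2⟩ * conj (ϑ ⟨y, hT y.2⟩) = (Nat.card T : ℂ) := by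
      field_simp at h1
      linear_combination h1
    rw [← sum_subgroupR T (fun y => ‖ext y‖ ^ 2)]
    have h3 : ((∑ y : T, ‖ext y‖ ^ 2 : ℝ) : ℂ) = (Nat.card T : ℂ) := by
      rw [← h2]
      push_cast
      refine Finset.sum_congr rfl fun y _ => ?_
      have h4 := hextc ⟨y, hT y.2⟩
      simp only at h4
      rw [h4, Complex.mul_conj, Complex.normSq_eq_norm_sq]
      push_cast
      rfl
    exact_mod_cast h3
  -- homogeneous normal subgroups
  have hnorm : ∀ (N : Subgroup G) (φ : N → ℂ) (e : ℂ), IsIrrCharacter N φ →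
      (fun m : N => χ m) = e • φ →
      (∑ z : G, if z ∈ N then χ z * conj (χ z) else 0) = e * conj e * (Nat.card N : ℂ) := by
    intro N φ e hφ hres
    rw [← sum_subgroup N (fun z => χ z * conj (χ z))]
    have h1 := classInner_irr_self hφ
    unfold classInner at h1
    have hN0 : (Nat.card N : ℂ) ≠ 0 := by exact_mod_cast Nat.card_pos.ne'
    have h2 : ∑ y : N, φ y * conj (φ y) = (Nat.card N : ℂ) := by
      field_simp at h1
      linear_combination h1
    rw [← h2, Finset.mul_sum]
    refine Finset.sum_congr rfl fun y _ => ?_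
    have h3 : χ y = e * φ y := congrFun hres y
    rw [h3, map_mul]
    ring
  -- the sum over `H` in terms of `G`
  have hHsum : ∀ (N : Subgroup G) (F : G → ℂ),
      (∑ y : H, if (y : G) ∈ N then F y else 0) = ∑ y : G, if y ∈ N ⊓ H then F y else 0 := by
    intro N F
    rw [sum_subgroup H (fun y => if y ∈ N then F y else 0)]
    refine Finset.sum_congr rfl fun y _ => ?_
    by_cases h1 : y ∈ H <;> by_cases h2 : y ∈ N <;> simp [h1, h2, Subgroup.mem_inf]
  -- the core
  let K : Subgroup G := H.normalCore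
  haveI hKn : K.Normal := inferInstance
  have hKH : K ≤ H := H.normalCore_le
  have hLK : L ≤ K := Subgroup.normal_le_normalCore.mpr hLH
  have hKtop : K ≠ ⊤ := fun h => hmax.1 (top_le_iff.mp (h ▸ hKH))
  have hKinfH : K ⊓ H = K := inf_eq_left.mpr hKH
  -- character values on `K`
  have hχK : ∀ y (hy : y ∈ K), χ y = (a : ℂ) * ϑ ⟨y, hKH hy⟩ := by
    obtain ⟨φK, eK, hφK, hK⟩ := hall K hKn hLK
    have hne : (eK : ℂ) ≠ 0 := by
      intro h
      have h1 := congrFun hK 1
      simp only [Pi.smul_apply, smul_eq_mul, h, zero_mul] at h1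
      exact hχ1' h1
    have hϑK := irrT K hKH hLK
    have h1 := hnorm K φK eK hφK hK
    have h2 := frob_normal H K ϑ
    rw [show (∑ z : G, if z ∈ K then indFun H ϑ z * conj (indFun H ϑ z) else 0) =
      ∑ z : G, if z ∈ K then χ z * conj (χ z) else 0 from rfl, h1] at h2
    have hKne : (Nat.card K : ℂ) ≠ 0 := by exact_mod_cast Nat.card_pos.ne'
    have h3 : (∑ y : H, if (y : G) ∈ K then ϑ y * conj (indFun H ϑ y) else 0) =
        (eK : ℂ) * ∑ y : K, ϑ ⟨y, hKH y.2⟩ * conj (φK y) := by
      have h4 := hHsum K (fun y => ext y * conj (χ y))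
      have h5 : (∑ y : H, if (y : G) ∈ K then ϑ y * conj (indFun H ϑ y) else 0) =
          ∑ y : H, if (y : G) ∈ K then ext y * conj (χ y) else 0 := by
        refine Finset.sum_congr rfl fun y _ => ?_
        rw [hextc y]
      rw [h5, h4, hKinfH, ← sum_subgroup K (fun y => ext y * conj (χ y)), Finset.mul_sum]
      refine Finset.sum_congr rfl fun y _ => ?_
      have h6 : χ y = (eK : ℂ) * φK y := congrFun hK y
      have h7 := hextc ⟨y, hKH y.2⟩
      simp only at h7
      rw [h6, h7, map_mul, Complex.conj_natCast]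
      ring
    have h8 : classInner (fun y : K => ϑ ⟨y, hKH y.2⟩) φK ≠ 0 := by
      intro h9
      unfold classInner at h9
      have h10 : ∑ y : K, ϑ ⟨y, hKH y.2⟩ * conj (φK y) = 0 := by
        rcases mul_eq_zero.mp h9 with h | h
        · exact absurd h (inv_ne_zero hKne)
        · exact h
      rw [h3, h10] at h2
      simp only [mul_zero] at h2
      rw [Complex.conj_natCast] at h2
      exact (mul_ne_zero (mul_ne_zero hne hne) hKne) h2
    have heq : (fun y : K => ϑ ⟨y, hKH y.2⟩) = φK := by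
      by_contra hne'
      exact h8 (classInner_irr_ne hϑK hφK hne')
    have hval : ∀ y : K, χ y = (eK : ℂ) * ϑ ⟨y, hKH y.2⟩ := by
      intro y
      have h1 : χ y = (eK : ℂ) * φK y := congrFun hK y
      rw [h1, ← heq]
    have hea : (eK : ℂ) = a := by
      have h1 : χ 1 = (eK : ℂ) * ϑ 1 := hval 1
      rw [hχ1] at h1
      exact (mul_right_cancel₀ hϑ1 h1).symm
    intro y hy
    have := hval ⟨y, hy⟩
    rw [hea] at this
    exact this
  -- solvability
  have hsolvK : Group.IsSolvable (G ⧸ K) := by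
    have : Function.Surjective (QuotientGroup.map L K (MonoidHom.id G) (by
        intro x hx
        exact Subgroup.mem_comap.mpr (hLK hx))) := by
      intro q
      obtain ⟨x, rfl⟩ := QuotientGroup.mk_surjective q
      exact ⟨(x : G ⧸ L), rfl⟩
    exact Group.isSolvable_of_surjective this
  -- index computations
  have hcardsup : ∀ N : Subgroup G, N.Normal → N ⊔ H = ⊤ →
      Nat.card N = a * Nat.card (N ⊓ H : Subgroup G) := by
    intro N hNn hNH
    have h1 : N.relIndex (N ⊔ H) = N.relIndex H := Subgroup.relIndex_sup_left H N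
    have h1' : N.relIndex H = (N ⊓ H).relIndex H := by rw [inf_comm, Subgroup.inf_relIndex_left]
    rw [hNH, Subgroup.relIndex_top_right, h1'] at h1
    have h2 : (⊥ : Subgroup G).relIndex (N ⊓ H) * (N ⊓ H).relIndex H =
        (⊥ : Subgroup G).relIndex H :=
      Subgroup.relIndex_mul_relIndex _ _ _ bot_le inf_le_right
    simp only [Subgroup.relIndex_bot_left] at h2
    have h3 : Nat.card N * N.index = Nat.card G := Subgroup.card_mul_index N
    rw [h1] at h3
    rw [← hcardH, ← h2] at h3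
    have hpos : 0 < (N ⊓ H).relIndex H := Nat.pos_of_ne_zero Subgroup.index_ne_zero_of_finite
    have h4 : Nat.card N * (N ⊓ H).relIndex H = (a * Nat.card (N ⊓ H : Subgroup G)) * (N ⊓ H).relIndex H := by
      rw [h3]
      ring
    exact Nat.eq_of_mul_eq_mul_right hpos h4
  -- the minimal normal subgroup over `K`
  let S : Set (Subgroup G) := {M | M.Normal ∧ K < M}
  obtain ⟨M, hM⟩ := (Set.toFinite S).exists_minimal ⟨⊤, inferInstance, lt_top_iff_ne_top.mpr hKtop⟩
  obtain ⟨⟨hMn, hKM⟩, hMmin⟩ := hM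
  have hMchief : ∀ B : Subgroup G, B.Normal → K ≤ B → B ≤ M → B = K ∨ B = M := by
    intro B hBn hKB hBM
    by_cases h : B = K
    · exact Or.inl h
    · right
      exact le_antisymm hBM (hMmin ⟨hBn, lt_of_le_of_ne hKB (Ne.symm h)⟩ hBM)
  have hcomM : ∀ x ∈ M, ∀ y ∈ M, x * y * x⁻¹ * y⁻¹ ∈ K := by
    apply comm_mod_of_min K M hsolvK hKM Set.univ (fun s _ y hy => hMn.conj_mem y hy s)
    intro B hKB hBM hB
    apply hMchief B ⟨fun x hx g => hB g trivial x hx⟩ hKB hBM
  have hMH : ¬ M ≤ H := by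
    intro h
    have : M ≤ K := Subgroup.normal_le_normalCore.mpr h
    exact absurd hKM (not_lt_of_ge this)
  have hsupM : M ⊔ H = ⊤ := by
    apply hmax.2
    exact lt_of_le_of_ne le_sup_right (fun h => hMH (by rw [h]; exact le_sup_left))
  have hMinf : M ⊓ H = K := by
    have hBn : (M ⊓ H).Normal := by
      apply normal_of_two hsupM
      · rintro m hm y ⟨hy1, hy2⟩
        refine ⟨hMn.conj_mem y hy1 m, ?_⟩
        have h1 := hcomM m hm y⁻¹ (M.inv_mem hy1)
        have h2 := H.mul_mem (hKH h1) hy2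
        have e : m * y⁻¹ * m⁻¹ * y⁻¹⁻¹ * y = m * y⁻¹ * m⁻¹ * y * y := by simp
        have h3 : m * y * m⁻¹ ∈ H := by
          have h4 := hcomM m hm y hy1
          have h5 := H.mul_mem (hKH h4) hy2
          simpa [mul_assoc] using h5
        exact h3
      · rintro h hh y ⟨hy1, hy2⟩
        exact ⟨hMn.conj_mem y hy1 h, H.mul_mem (H.mul_mem hh hy2) (H.inv_mem hh)⟩
    have hKB : K ≤ M ⊓ H := le_inf hKM.le hKH
    rcases hMchief _ hBn hKB inf_le_left with h | h
    · exact h
    · exfalso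
      exact hMH (inf_eq_left.mp h)
  have hcardM : Nat.card M = a * Nat.card K := by
    rw [hcardsup M hMn hsupM, hMinf]
  -- the multiplicity on `M`
  obtain ⟨γ, s, hγ, hresM⟩ := hall M hMn (hLK.trans hKM.le)
  have hKne : (Nat.card K : ℂ) ≠ 0 := by exact_mod_cast Nat.card_pos.ne'
  have hsumK : ∑ y : K, ϑ ⟨y, hKH y.2⟩ * conj (ϑ ⟨y, hKH y.2⟩) = (Nat.card K : ℂ) := by
    have h1 := classInner_irr_self (irrT K hKH hLK)
    unfold classInner at h1
    field_simp at h1
    linear_combination h1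
  have hsa : s ^ 2 = a := by
    have h1 := hnorm M γ s hγ hresM
    have h2 := frob_normal H M ϑ
    rw [show (∑ z : G, if z ∈ M then indFun H ϑ z * conj (indFun H ϑ z) else 0) =
      ∑ z : G, if z ∈ M then χ z * conj (χ z) else 0 from rfl, h1] at h2
    have h3 : (∑ y : H, if (y : G) ∈ M then ϑ y * conj (indFun H ϑ y) else 0) =
        (a : ℂ) * (Nat.card K : ℂ) := by
      have h4 := hHsum M (fun y => ext y * conj (χ y))
      have h5 : (∑ y : H, if (y : G) ∈ M then ϑ y * conj (indFun H ϑ y) else 0) =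
          ∑ y : H, if (y : G) ∈ M then ext y * conj (χ y) else 0 := by
        refine Finset.sum_congr rfl fun y _ => ?_
        rw [hextc y]
      rw [h5, h4, hMinf, ← sum_subgroup K (fun y => ext y * conj (χ y)), ← hsumK, Finset.mul_sum]
      refine Finset.sum_congr rfl fun y _ => ?_
      have h7 := hextc ⟨y, hKH y.2⟩
      simp only at h7
      rw [hχK y y.2, h7, map_mul, Complex.conj_natCast]
      ring
    rw [h3, hcardM, Complex.conj_natCast] at h2
    push_cast at h2
    have ha0 : (a : ℂ) ≠ 0 := by exact_mod_cast hapos.ne'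
    have h6 : (s : ℂ) ^ 2 = a := by
      have h7 : ((s : ℂ) ^ 2 - a) * ((a : ℂ) * (Nat.card K : ℂ)) = 0 := by
        linear_combination h2
      rcases mul_eq_zero.mp h7 with h | h
      · linear_combination h
      · exact absurd h (mul_ne_zero ha0 hKne)
    exact_mod_cast h6
  have hsumG : ∑ z : G, χ z * conj (χ z) = (Nat.card G : ℂ) := by
    have h1 := classInner_irr_self hind
    unfold classInner at h1
    have hG0 : (Nat.card G : ℂ) ≠ 0 := by exact_mod_cast Nat.card_pos.ne'
    field_simp at h1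
    linear_combination h1
  have hKHne : K ≠ H := by
    intro hKH'
    have hMtop : M = ⊤ := by
      rw [← hsupM, ← hKH']
      exact (sup_eq_left.mpr hKM.le).symm
    have h1 := hnorm M γ s hγ hresM
    have h2 : (∑ z : G, if z ∈ M then χ z * conj (χ z) else 0) = ∑ z : G, χ z * conj (χ z) := by
      refine Finset.sum_congr rfl fun z _ => ?_
      rw [if_pos (by rw [hMtop]; trivial)]
    rw [h2, hsumG, Complex.conj_natCast] at h1
    have hcM : Nat.card M = Nat.card G := by
      rw [hMtop]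
      exact Nat.card_congr Subgroup.topEquiv.toEquiv
    rw [hcM] at h1
    have hG0 : (Nat.card G : ℂ) ≠ 0 := by exact_mod_cast Nat.card_pos.ne'
    have h3 : ((s : ℂ) * s - 1) * (Nat.card G : ℂ) = 0 := by linear_combination -h1
    have h4 : (s : ℂ) * s = 1 := by
      rcases mul_eq_zero.mp h3 with h | h
      · linear_combination h
      · exact absurd h hG0
    have h5 : s * s = 1 := by exact_mod_cast h4
    apply hane
    rw [← hsa, pow_two, h5]
  have hKltH : K < H := lt_of_le_of_ne hKH hKHne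
  -- the minimal section of `H` over `K`
  let S' : Set (Subgroup G) := {R | K < R ∧ R ≤ H ∧ ∀ h ∈ H, ∀ y ∈ R, h * y * h⁻¹ ∈ R}
  obtain ⟨R, hR⟩ := (Set.toFinite S').exists_minimal
    ⟨H, hKltH, le_rfl, fun h hh y hy => H.mul_mem (H.mul_mem hh hy) (H.inv_mem hh)⟩
  obtain ⟨⟨hKR, hRH, hRn⟩, hRmin⟩ := hR
  have hRchief : ∀ B : Subgroup G, K ≤ B → B ≤ R → (∀ h ∈ H, ∀ y ∈ B, h * y * h⁻¹ ∈ B) →
      B = K ∨ B = R := by
    intro B hKB hBR hB
    by_cases h : B = K
    · exact Or.inl h
    · right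
      exact le_antisymm hBR (hRmin ⟨lt_of_le_of_ne hKB (Ne.symm h), hBR.trans hRH, hB⟩ hBR)
  have hcomR : ∀ x ∈ R, ∀ y ∈ R, x * y * x⁻¹ * y⁻¹ ∈ K :=
    comm_mod_of_min K R hsolvK hKR (H : Set G) hRn (fun B h1 h2 h3 => hRchief B h1 h2 h3)
  -- the group `N = M R`
  let N : Subgroup G := M ⊔ R
  have hMN : M ≤ N := le_sup_left
  have hRN : R ≤ N := le_sup_right
  have hNsplit : ∀ x ∈ N, ∃ m ∈ M, ∃ r ∈ R, m * r = x := by
    intro x hx
    have h1 : x ∈ ((M ⊔ R : Subgroup G) : Set G) := hx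
    rw [Subgroup.normal_mul] at h1
    obtain ⟨m, hm, r, hr, e⟩ := Set.mem_mul.mp h1
    exact ⟨m, hm, r, hr, e⟩
  have hNn : N.Normal := by
    apply normal_of_two hsupM
    · intro m hm x hx
      obtain ⟨m₁, hm₁, r, hr, rfl⟩ := hNsplit x hx
      have e : m * (m₁ * r) * m⁻¹ = (m * m₁ * (r * m⁻¹ * r⁻¹)) * r := by group
      rw [e]
      exact N.mul_mem (hMN (M.mul_mem (M.mul_mem hm hm₁) (hMn.conj_mem _ (M.inv_mem hm) r))) (hRN hr)
    · intro h hh x hx
      obtain ⟨m₁, hm₁, r, hr, rfl⟩ := hNsplit x hx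
      have e : h * (m₁ * r) * h⁻¹ = (h * m₁ * h⁻¹) * (h * r * h⁻¹) := by group
      rw [e]
      exact N.mul_mem (hMN (hMn.conj_mem _ hm₁ h)) (hRN (hRn h hh r hr))
  have hNinf : N ⊓ H = R := by
    apply le_antisymm
    · rintro x ⟨hx1, hx2⟩
      obtain ⟨m₁, hm₁, r, hr, rfl⟩ := hNsplit x hx1
      have h1 : m₁ ∈ H := by
        have := H.mul_mem hx2 (H.inv_mem (hRH hr))
        simpa using this
      have h2 : m₁ ∈ M ⊓ H := ⟨hm₁, h1⟩
      rw [hMinf] at h2
      exact R.mul_mem (hKR.le h2) hr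
    · exact le_inf hRN hRH
  have hNsup : N ⊔ H = ⊤ := by
    rw [eq_top_iff, ← hsupM]
    exact sup_le_sup_right hMN H
  have hcardN : Nat.card N = a * Nat.card R := by
    rw [hcardsup N hNn hNsup, hNinf]
  have hLN : L ≤ N := (hLK.trans hKM.le).trans hMN
  obtain ⟨φN, d, hφN, hresN⟩ := hall N hNn hLN
  have hLR : L ≤ R := hLK.trans hKR.le
  -- the estimate
  have hdlt : d ^ 2 < a := by
    have h1 := hnorm N φN d hφN hresN
    have h2 := frob_normal H N ϑ
    rw [show (∑ z : G, if z ∈ N then indFun H ϑ z * conj (indFun H ϑ z) else 0) =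
      ∑ z : G, if z ∈ N then χ z * conj (χ z) else 0 from rfl, h1] at h2
    have h4 := hHsum N (fun y => ext y * conj (χ y))
    have h5 : (∑ y : H, if (y : G) ∈ N then ϑ y * conj (indFun H ϑ y) else 0) =
        ∑ y : H, if (y : G) ∈ N then ext y * conj (χ y) else 0 := by
      refine Finset.sum_congr rfl fun y _ => ?_
      rw [hextc y]
    rw [h5, h4, hNinf, hcardN, Complex.conj_natCast] at h2
    push_cast at h2
    set S₀ : ℂ := ∑ y : G, if y ∈ R then ext y * conj (χ y) else 0 with hS₀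
    have ha0 : (a : ℂ) ≠ 0 := by exact_mod_cast hapos.ne'
    have h6 : S₀ = (d : ℂ) ^ 2 * (Nat.card R : ℂ) := by
      have h7 : (a : ℂ) * (S₀ - (d : ℂ) ^ 2 * (Nat.card R : ℂ)) = 0 := by
        linear_combination -h2
      rcases mul_eq_zero.mp h7 with h | h
      · exact absurd h ha0
      · linear_combination h
    have hHne : (Nat.card H : ℂ) ≠ 0 := by exact_mod_cast Nat.card_pos.ne'
    -- expansion of the sum
    have h8 : S₀ = (Nat.card H : ℂ)⁻¹ * ∑ x : G, ∑ y : G,
        if y ∈ R then ext y * conj (ext (x⁻¹ * y * x)) else 0 := by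
      rw [hS₀, Finset.sum_comm, Finset.mul_sum]
      refine Finset.sum_congr rfl fun y _ => ?_
      by_cases hy : y ∈ R
      · simp only [hy, if_true]
        have h9 : χ y = (Nat.card H : ℂ)⁻¹ * ∑ x : G, ext (x⁻¹ * y * x) := rfl
        rw [h9, map_mul, map_sum, map_inv₀, Complex.conj_natCast, Finset.mul_sum, Finset.mul_sum,
          Finset.mul_sum]
        refine Finset.sum_congr rfl fun x _ => ?_
        ring
      · simp [hy]
    have hsumT : ∀ k : G, (∑ y : G, if y ∈ Tg R k then ‖ext y‖ ^ 2 else 0) =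
        (Nat.card (Tg R k) : ℝ) := by
      intro k
      apply hsum _ ((Tg_le R k).trans hRH)
      intro l hl
      refine ⟨hLR hl, hLR ?_⟩
      have := hL.conj_mem l hl k⁻¹
      simpa using this
    have hbound := fun x : G => inner_bound H N R ϑ hNinf.symm hsumT x
    -- cardinalities
    have hcT : ∀ k : G, (Nat.card (Tg R k) : ℝ) ≤ Nat.card R := by
      intro k
      exact_mod_cast Nat.card_le_card_of_injective (Subgroup.inclusion (Tg_le R k))
        (Subgroup.inclusion_injective _)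
    have hcT' : ∀ k : G, k ∉ H → (Nat.card (Tg R k) : ℝ) + 1 ≤ Nat.card R := by
      intro k hk
      have hne : ¬ R ≤ Tg R k := by
        intro hle
        have h9 := mem_normalizer_of_Tg hle
        have h10 : H ≤ Subgroup.normalizer (R : Set G) := by
          intro h hh
          rw [Subgroup.mem_normalizer_iff]
          intro y
          constructor
          · exact fun hy => hRn h hh y hy
          · intro hy
            have := hRn h⁻¹ (H.inv_mem hh) _ hy
            simpa [mul_assoc] using this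
        have h11 : Subgroup.normalizer (R : Set G) = ⊤ := by
          apply hmax.2
          refine lt_of_le_of_ne h10 ?_
          intro h
          exact hk (h ▸ h9)
        have hRnorm : R.Normal := Subgroup.normalizer_eq_top_iff.mp h11
        have : R ≤ K := Subgroup.normal_le_normalCore.mpr hRH
        exact absurd hKR (not_lt_of_ge this)
      have hlt : Tg R k < R := lt_of_le_of_ne (Tg_le R k) (fun h => hne (le_of_eq h.symm))
      have h12 : Nat.card (Tg R k) < Nat.card R := by
        by_contra hcon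
        exact hlt.ne (Subgroup.eq_of_le_of_card_ge hlt.le (not_lt.mp hcon))
      exact_mod_cast h12
    -- the final inequality
    have hnormS : ‖S₀‖ = (d : ℝ) ^ 2 * Nat.card R := by
      rw [h6]
      simp
    have hHr : (0 : ℝ) < Nat.card H := by exact_mod_cast Nat.card_pos
    have hRr : (0 : ℝ) < Nat.card R := by exact_mod_cast Nat.card_pos
    have hle : ‖S₀‖ * Nat.card H ≤ ∑ x : G, ((Nat.card (Tg R x) : ℝ) + (Nat.card (Tg R x⁻¹) : ℝ)) / 2 := by
      rw [h8, norm_mul, norm_inv]
      simp only [Complex.norm_natCast]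
      have h13 := (norm_sum_le (Finset.univ : Finset G) (fun x : G => ∑ y : G,
        if y ∈ R then ext y * conj (ext (x⁻¹ * y * x)) else 0)).trans
        (Finset.sum_le_sum fun x _ => hbound x)
      have hHr' : (Nat.card H : ℝ) ≠ 0 := hHr.ne'
      field_simp
      exact h13
    obtain ⟨g₀, hg₀⟩ : ∃ g : G, g ∉ H := by
      by_contra hcon
      push Not at hcon
      exact hmax.1 (eq_top_iff.mpr fun x _ => hcon x)
    have hlt : ∑ x : G, ((Nat.card (Tg R x) : ℝ) + (Nat.card (Tg R x⁻¹) : ℝ)) / 2 <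
        ∑ x : G, (Nat.card R : ℝ) := by
      apply Finset.sum_lt_sum
      · intro x _
        have := hcT x
        have := hcT x⁻¹
        linarith
      · refine ⟨g₀, Finset.mem_univ _, ?_⟩
        have h14 := hcT' g₀ hg₀
        have h15 := hcT g₀⁻¹
        linarith
    rw [Finset.sum_const, Finset.card_univ, nsmul_eq_mul, ← Nat.card_eq_fintype_card] at hlt
    have h16 : (d : ℝ) ^ 2 * Nat.card R * Nat.card H < Nat.card G * Nat.card R := by
      rw [← hnormS]
      exact lt_of_le_of_lt hle hlt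
    have h17 : (Nat.card G : ℝ) = Nat.card H * a := by exact_mod_cast hcardH.symm
    rw [h17] at h16
    have h18 : ((d : ℝ) ^ 2 - a) * (Nat.card R * Nat.card H) < 0 := by nlinarith
    have h19 : (d : ℝ) ^ 2 < a := by
      by_contra hcon
      push Not at hcon
      have : 0 ≤ ((d : ℝ) ^ 2 - a) * (Nat.card R * Nat.card H) :=
        mul_nonneg (by linarith) (by positivity)
      linarith
    exact_mod_cast h19
  -- trichotomy
  have hMltN : M < N := by
    refine lt_of_le_of_ne hMN ?_
    intro h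
    have h1 : R ≤ M := h ▸ hRN
    have h2 : R ≤ M ⊓ H := le_inf h1 hRH
    rw [hMinf] at h2
    exact absurd hKR (not_lt_of_ge h2)
  have hNchief : ∀ M' : Subgroup G, M'.Normal → M ≤ M' → M' ≤ N → M' = M ∨ M' = N := by
    intro M' hM'n hMM' hM'N
    have hB : M' ⊓ H ≤ R := by
      rw [← hNinf]
      exact inf_le_inf_right H hM'N
    rcases hRchief (M' ⊓ H) (le_inf (hKM.le.trans hMM') hKH) hB (by
      rintro h hh y ⟨hy1, hy2⟩
      exact ⟨hM'n.conj_mem y hy1 h, H.mul_mem (H.mul_mem hh hy2) (H.inv_mem hh)⟩) with h | h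
    · left
      apply le_antisymm _ hMM'
      intro x hx
      obtain ⟨m₁, hm₁, r, hr, rfl⟩ := hNsplit x (hM'N hx)
      have h1 : r ∈ M' := by
        have := M'.mul_mem (M'.inv_mem (hMM' hm₁)) hx
        simpa using this
      have h2 : r ∈ M' ⊓ H := ⟨h1, hRH hr⟩
      rw [h] at h2
      exact M.mul_mem hm₁ (hKM.le h2)
    · right
      apply le_antisymm hM'N
      apply sup_le hMM'
      intro r hr
      rw [← h] at hr
      exact hr.1
  have hNab : ⁅N, N⁆ ≤ M := by
    rw [Subgroup.commutator_le]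
    intro x hx y hy
    obtain ⟨m₁, hm₁, r₁, hr₁, rfl⟩ := hNsplit x hx
    obtain ⟨m₂, hm₂, r₂, hr₂, rfl⟩ := hNsplit y hy
    have hπ : (QuotientGroup.mk' M) (m₁ * r₁) = (QuotientGroup.mk' M) r₁ := by
      have h0 : (QuotientGroup.mk' M) m₁ = 1 := (QuotientGroup.eq_one_iff m₁).mpr hm₁
      rw [map_mul, h0, one_mul]
    have hπ' : (QuotientGroup.mk' M) (m₂ * r₂) = (QuotientGroup.mk' M) r₂ := by
      have h0 : (QuotientGroup.mk' M) m₂ = 1 := (QuotientGroup.eq_one_iff m₂).mpr hm₂
      rw [map_mul, h0, one_mul]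
    apply (QuotientGroup.eq_one_iff _).mp
    show (QuotientGroup.mk' M) _ = 1
    rw [commutatorElement_def]
    simp only [map_mul, map_inv] at hπ hπ' ⊢
    rw [hπ, hπ']
    have h1 := (QuotientGroup.eq_one_iff _).mpr (hKM.le (hcomR r₁ hr₁ r₂ hr₂))
    have h2 : (QuotientGroup.mk' M) (r₁ * r₂ * r₁⁻¹ * r₂⁻¹) = 1 := h1
    simpa only [map_mul, map_inv] using h2
  have hd0 : (d : ℂ) ≠ 0 := by
    intro h
    have h1 := congrFun hresN 1
    simp only [Pi.smul_apply, smul_eq_mul, h, zero_mul] at h1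
    exact hχ1' h1
  have hNinv : ∀ (g : G) (n : N), φN ⟨g * n * g⁻¹, hNn.conj_mem (n : G) n.2 g⟩ = φN n := by
    intro g n
    have h1 : χ (g * n * g⁻¹) = (d : ℂ) * φN ⟨g * n * g⁻¹, hNn.conj_mem (n : G) n.2 g⟩ :=
      congrFun hresN ⟨g * n * g⁻¹, hNn.conj_mem (n : G) n.2 g⟩
    have h2 : χ n = (d : ℂ) * φN n := congrFun hresN n
    have h3 := hχcl n g
    rw [h1, h2] at h3
    exact mul_left_cancel₀ hd0 h3
  haveI : N.Normal := hNn
  haveI : M.Normal := hMn
  have htri := Cfsg.Agent.S0857.result N M hMltN hNchief hNab φN hφN hNinv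
  -- common computation
  have hMne : (Nat.card M : ℂ) ≠ 0 := by exact_mod_cast Nat.card_pos.ne'
  have hsM : (∑ z : G, if z ∈ M then χ z * conj (χ z) else 0) = (a : ℂ) * (Nat.card M : ℂ) := by
    have h1 := hnorm M γ s hγ hresM
    rw [h1, Complex.conj_natCast]
    have h2 : (s : ℂ) * s = a := by
      have : s * s = a := by rw [← hsa]; ring
      exact_mod_cast this
    rw [h2]
  have hres₂ : ∀ x : M, χ x = (d : ℂ) * φN ⟨x, hMltN.le x.2⟩ := fun x =>
    congrFun hresN ⟨x, hMltN.le x.2⟩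
  have hmainrel : a = d ^ 2 * M.relIndex N := by
    rcases htri with h | ⟨φ₂, e, hφ₂, h1, h2⟩ | ⟨F, hF, hc, hs⟩
    · exfalso
      have h3 : (fun m : M => χ m) = (d : ℂ) • (fun x : M => φN ⟨x, hMltN.le x.2⟩) := by
        funext x
        exact hres₂ x
      have h4 := hnorm M _ _ h h3
      rw [hsM, Complex.conj_natCast] at h4
      have h5 := mul_right_cancel₀ hMne h4
      have h6 : a = d * d := by exact_mod_cast h5
      rw [pow_two, ← h6] at hdlt
      exact lt_irrefl _ hdlt
    · have h3 : (fun m : M => χ m) = ((d : ℂ) * e) • φ₂ := by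
        funext x
        have h4 := congrFun h1 x
        simp only [Pi.smul_apply, smul_eq_mul] at h4 ⊢
        rw [hres₂ x, h4]
        ring
      have h4 := hnorm M _ _ hφ₂ h3
      rw [hsM, map_mul, Complex.conj_natCast, Complex.conj_natCast] at h4
      have h5 := mul_right_cancel₀ hMne h4
      have h6 : a = d * e * (d * e) := by exact_mod_cast h5
      rw [← h2, h6]
      ring
    · have hsf : (fun x : M => φN ⟨x, hMltN.le x.2⟩) = ∑ φ ∈ F, φ := hs
      have h3 : classInner (fun x : M => φN ⟨x, hMltN.le x.2⟩) (fun x : M => φN ⟨x, hMltN.le x.2⟩) =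
          (F.card : ℂ) := by
        rw [hsf, classInner_sum_left]
        have h4 : ∀ ψ ∈ F, classInner ψ (∑ φ ∈ F, φ) = 1 := by
          intro ψ hψ
          rw [classInner_sum_right]
          have h5 : ∀ φ ∈ F, classInner ψ φ = if ψ = φ then 1 else 0 := fun φ hφ =>
            classInner_irr_fun (hF ψ hψ) (hF φ hφ)
          rw [Finset.sum_congr rfl h5, Finset.sum_ite_eq F ψ]
          simp [hψ]
        rw [Finset.sum_congr rfl h4]
        simp
      unfold classInner at h3
      have h6 : ∑ x : M, φN ⟨x, hMltN.le x.2⟩ * conj (φN ⟨x, hMltN.le x.2⟩) =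
          (F.card : ℂ) * (Nat.card M : ℂ) := by
        field_simp at h3
        linear_combination h3
      rw [← sum_subgroup M (fun z => χ z * conj (χ z))] at hsM
      have h7 : ∑ z : M, χ z * conj (χ z) =
          (d : ℂ) * d * ∑ x : M, φN ⟨x, hMltN.le x.2⟩ * conj (φN ⟨x, hMltN.le x.2⟩) := by
        rw [Finset.mul_sum]
        refine Finset.sum_congr rfl fun x _ => ?_
        rw [hres₂ x, map_mul, Complex.conj_natCast]
        ring
      rw [h7, h6] at hsM
      have h8 : (a : ℂ) = (d : ℂ) * d * (F.card : ℂ) := by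
        have h9 : ((a : ℂ) - (d : ℂ) * d * (F.card : ℂ)) * (Nat.card M : ℂ) = 0 := by
          linear_combination -hsM
        rcases mul_eq_zero.mp h9 with h | h
        · linear_combination h
        · exact absurd h hMne
      have h9 : a = d * d * F.card := by exact_mod_cast h8
      rw [h9, hc]
      ring
  -- the prime
  have hr1 : M.relIndex N ≠ 1 := by
    intro h
    rw [Subgroup.relIndex_eq_one] at h
    exact absurd hMltN (not_lt_of_ge h)
  obtain ⟨p, hp, hpdvd⟩ := Nat.exists_prime_and_dvd hr1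
  haveI : Fact p.Prime := ⟨hp⟩
  have hpa : p ∣ a := by
    rw [hmainrel]
    exact Dvd.dvd.mul_left hpdvd _
  -- pass to `X = G / K`
  let π : G →* G ⧸ K := QuotientGroup.mk' K
  have hπ : Function.Surjective π := QuotientGroup.mk'_surjective K
  have hπker : ∀ x, π x = 1 ↔ x ∈ K := fun x => QuotientGroup.eq_one_iff x
  let Mb : Subgroup (G ⧸ K) := M.map π
  let Rb : Subgroup (G ⧸ K) := R.map π
  let Hb : Subgroup (G ⧸ K) := H.map π
  haveI hMbn : Mb.Normal := Subgroup.Normal.map hMn π hπ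
  have hcM' : Nat.card Mb * Nat.card K = Nat.card M :=
    Cfsg.Agent.H01.card_map_mk_of_le K M hKM.le
  have hcR' : Nat.card Rb * Nat.card K = Nat.card R :=
    Cfsg.Agent.H01.card_map_mk_of_le K R hKR.le
  have hKpos : 0 < Nat.card K := Nat.card_pos
  have hcMb : Nat.card Mb = a := by
    apply Nat.eq_of_mul_eq_mul_right hKpos
    rw [hcM', hcardM]
  have hcRb : Nat.card Rb = M.relIndex N := by
    have h1 : (⊥ : Subgroup G).relIndex M * M.relIndex N = (⊥ : Subgroup G).relIndex N :=
      Subgroup.relIndex_mul_relIndex _ _ _ bot_le hMN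
    simp only [Subgroup.relIndex_bot_left] at h1
    rw [hcardM, hcardN, ← hcR', mul_assoc] at h1
    have hapos' : 0 < a := hapos
    have h2 := Nat.eq_of_mul_eq_mul_left hapos' h1
    apply Nat.eq_of_mul_eq_mul_right hKpos
    rw [← h2]
    ring
  have hMem : ∀ x, π x ∈ Mb → x ∈ M := by
    intro x hx
    obtain ⟨y, hy, hyx⟩ := Subgroup.mem_map.mp hx
    have h2 : y⁻¹ * x ∈ K := QuotientGroup.eq.mp hyx
    have := M.mul_mem hy (hKM.le h2)
    simpa using this
  have hRem : ∀ x, π x ∈ Rb → x ∈ R := by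
    intro x hx
    obtain ⟨y, hy, hyx⟩ := Subgroup.mem_map.mp hx
    have h2 : y⁻¹ * x ∈ K := QuotientGroup.eq.mp hyx
    have := R.mul_mem hy (hKR.le h2)
    simpa using this
  have hHem : ∀ x, π x ∈ Hb → x ∈ H := by
    intro x hx
    obtain ⟨y, hy, hyx⟩ := Subgroup.mem_map.mp hx
    have h2 : y⁻¹ * x ∈ K := QuotientGroup.eq.mp hyx
    have := H.mul_mem hy (hKH h2)
    simpa using this
  have hcomap_eq : ∀ (B : Subgroup (G ⧸ K)), (B.comap π) = K → B = ⊥ := by
    intro B hB
    rw [eq_bot_iff]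
    intro q hq
    obtain ⟨x, rfl⟩ := hπ q
    have h1 : x ∈ B.comap π := hq
    rw [hB] at h1
    exact (hπker x).mpr h1
  have hKcomap : ∀ (B : Subgroup (G ⧸ K)), K ≤ B.comap π := by
    intro B x hx
    show π x ∈ B
    rw [(hπker x).mpr hx]
    exact B.one_mem
  have hMbab : ∀ x ∈ Mb, ∀ y ∈ Mb, x * y = y * x := by
    rintro _ ⟨x, hx, rfl⟩ _ ⟨y, hy, rfl⟩
    have h1 := (hπker _).mpr (hcomM x hx y hy)
    simp only [map_mul, map_inv] at h1
    rw [← mul_inv_eq_one, ← mul_inv_eq_one]
    simpa [mul_assoc] using h1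
  have hRbab : ∀ x ∈ Rb, ∀ y ∈ Rb, x * y = y * x := by
    rintro _ ⟨x, hx, rfl⟩ _ ⟨y, hy, rfl⟩
    have h1 := (hπker _).mpr (hcomR x hx y hy)
    simp only [map_mul, map_inv] at h1
    rw [← mul_inv_eq_one, ← mul_inv_eq_one]
    simpa [mul_assoc] using h1
  have hMbmin : ∀ A : Subgroup (G ⧸ K), A.Normal → A ≤ Mb → A = ⊥ ∨ A = Mb := by
    intro A hA hAM
    rcases hMchief (A.comap π) (Subgroup.Normal.comap hA π) (hKcomap A)
      (fun x hx => hMem x (hAM hx)) with h | h
    · exact Or.inl (hcomap_eq A h)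
    · right
      show A = M.map π
      rw [← h]
      exact (Subgroup.map_comap_eq_self_of_surjective hπ A).symm
  have hRbmin : ∀ B : Subgroup (G ⧸ K), B ≤ Rb → (∀ s ∈ (Hb : Set (G ⧸ K)), ∀ b ∈ B, s * b * s⁻¹ ∈ B) →
      B = ⊥ ∨ B = Rb := by
    intro B hBR hB
    rcases hRchief (B.comap π) (hKcomap B) (fun x hx => hRem x (hBR hx)) (by
      intro h hh y hy
      have := hB (π h) (Subgroup.mem_map_of_mem π hh) (π y) hy
      show π (h * y * h⁻¹) ∈ B
      simpa [map_mul, map_inv] using this) with h | h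
    · exact Or.inl (hcomap_eq B h)
    · right
      show B = R.map π
      rw [← h]
      exact (Subgroup.map_comap_eq_self_of_surjective hπ B).symm
  have hRbn : ∀ s ∈ Hb, ∀ y ∈ Rb, s * y * s⁻¹ ∈ Rb := by
    rintro _ ⟨h, hh, rfl⟩ _ ⟨y, hy, rfl⟩
    have := Subgroup.mem_map_of_mem π (hRn h hh y hy)
    have e : π h * π y * (π h)⁻¹ = π (h * y * h⁻¹) := by simp [map_mul, map_inv]
    rw [e]
    exact this
  have hMp : IsPGroup p Mb := pgroup_of_min Mb hMbab Set.univ
    (fun s _ a ha => hMbn.conj_mem a ha s)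
    (fun B hBM hB => hMbmin B ⟨fun x hx g => hB g trivial x hx⟩ hBM)
    (by rw [hcMb]; exact hpa)
  have hRp : IsPGroup p Rb := pgroup_of_min Rb hRbab (Hb : Set (G ⧸ K)) hRbn hRbmin
    (by rw [hcRb]; exact hpdvd)
  have hMb0 : Mb ≠ ⊥ := by
    intro h
    have : Nat.card Mb = 1 := by rw [h]; simp
    rw [hcMb] at this
    exact hane this
  have hRb0 : Rb ≠ ⊥ := by
    intro h
    have : Nat.card Rb = 1 := by rw [h]; simp
    rw [hcRb] at this
    exact hr1 this
  refine no_pgroup_pair Hb Mb Rb ?_ ?_ hMbmin hMbab ?_ hRbn hMp hRp hMb0 hRb0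
  · intro A hA hAH
    apply hcomap_eq A
    apply le_antisymm _ (hKcomap A)
    haveI : (A.comap π).Normal := Subgroup.Normal.comap hA π
    apply Subgroup.normal_le_normalCore.mpr
    exact fun x hx => hHem x (hAH hx)
  · have h1 : (M ⊔ H).map π = Mb ⊔ Hb := Subgroup.map_sup M H π
    rw [← h1, hsupM]
    exact (MonoidHom.range_eq_top.mpr hπ ▸ (MonoidHom.range_eq_map π).symm)
  · exact Subgroup.map_mono hRH

end Main

end Cfsg.Agent.H04.Cliff.QP
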