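import Mathlib

/-!
# Group theory for chief factors under a maximal subgroup
-/

set_option autoImplicit false
set_option linter.style.haveILetI false
set_option linter.unusedSectionVars false
set_option linter.unusedSimpArgs false
set_option linter.unusedVariables false

namespace Cfsg.Agent.H04.Cliff.QP

open scoped Pointwise

universe u

variable {X : Type u} [Group X] [Finite X]

/-- Every element of the product of a normal subgroup and a subgroup splits. -/
theorem exists_split {M H : Subgroup X} [hM : M.Normal] (h : M ⊔ H = ⊤) (g : X) :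
    ∃ m ∈ M, ∃ y ∈ H, m * y = g := by
  have h1 : g ∈ ((M ⊔ H : Subgroup X) : Set X) := by rw [h]; trivial
  rw [Subgroup.normal_mul] at h1
  obtain ⟨m, hm, y, hy, e⟩ := Set.mem_mul.mp h1
  exact ⟨m, hm, y, hy, e⟩

/-- Normality from invariance under the two factors. -/
theorem normal_of_two {M H A : Subgroup X} [hM : M.Normal] (h : M ⊔ H = ⊤)
    (h1 : ∀ m ∈ M, ∀ a ∈ A, m * a * m⁻¹ ∈ A) (h2 : ∀ y ∈ H, ∀ a ∈ A, y * a * y⁻¹ ∈ A) : A.Normal := by
  refine ⟨fun a ha g => ?_⟩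
  obtain ⟨m, hm, y, hy, rfl⟩ := exists_split h g
  have := h1 m hm _ (h2 y hy a ha)
  simpa [mul_assoc] using this

/-- The final contradiction: a `p`-group normalised by `H` cannot act on a minimal normal
`p`-subgroup complementing `H` modulo a trivial core. -/
theorem no_pgroup_pair (H₀ M₀ R₀ : Subgroup X) [hM : M₀.Normal]
    (hcore : ∀ A : Subgroup X, A.Normal → A ≤ H₀ → A = ⊥) (hsup : M₀ ⊔ H₀ = ⊤)
    (hmin : ∀ A : Subgroup X, A.Normal → A ≤ M₀ → A = ⊥ ∨ A = M₀)
    (habM : ∀ a ∈ M₀, ∀ b ∈ M₀, a * b = b * a) (hRH : R₀ ≤ H₀)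
    (hRn : ∀ h ∈ H₀, ∀ y ∈ R₀, h * y * h⁻¹ ∈ R₀) {p : ℕ} [hp : Fact p.Prime]
    (hMp : IsPGroup p M₀) (hRp : IsPGroup p R₀) (hM0 : M₀ ≠ ⊥) (hR0 : R₀ ≠ ⊥) : False := by
  classical
  letI : MulAction R₀ M₀ := MulAction.compHom M₀
    ((MulAut.conjNormal : X →* MulAut M₀).comp R₀.subtype)
  have hact : ∀ (r : R₀) (m : M₀), ((r • m : M₀) : X) = r * m * (r : X)⁻¹ := by
    intro r m
    rfl
  have hpM : p ∣ Nat.card M₀ := by
    rcases hMp.card_eq_or_dvd with h | h
    · exact absurd (Subgroup.eq_bot_of_card_eq M₀ h) hM0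
    · exact h
  have h1fix : (1 : M₀) ∈ MulAction.fixedPoints R₀ M₀ := by
    intro r
    apply Subtype.ext
    rw [hact]
    simp
  obtain ⟨b, hb, hb1⟩ := hRp.exists_fixed_point_of_prime_dvd_card_of_fixed_point M₀ hpM h1fix
  -- the centraliser in `M₀`
  let C : Subgroup X :=
    { carrier := {x | x ∈ M₀ ∧ ∀ y ∈ R₀, y * x * y⁻¹ = x}
      mul_mem' := by
        rintro a c ⟨ha, ha'⟩ ⟨hc, hc'⟩
        refine ⟨M₀.mul_mem ha hc, fun y hy => ?_⟩
        calc y * (a * c) * y⁻¹ = (y * a * y⁻¹) * (y * c * y⁻¹) := by group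
          _ = a * c := by rw [ha' y hy, hc' y hy]
      one_mem' := ⟨M₀.one_mem, fun y _ => by simp⟩
      inv_mem' := by
        rintro a ⟨ha, ha'⟩
        refine ⟨M₀.inv_mem ha, fun y hy => ?_⟩
        have := ha' y hy
        calc y * a⁻¹ * y⁻¹ = (y * a * y⁻¹)⁻¹ := by group
          _ = a⁻¹ := by rw [this] }
  have hCn : C.Normal := by
    apply normal_of_two hsup
    · rintro m hm a ⟨ha, ha'⟩
      have e : m * a * m⁻¹ = a := by
        rw [habM m hm a ha]
        group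
      rw [e]
      exact ⟨ha, ha'⟩
    · rintro h hh a ⟨ha, ha'⟩
      refine ⟨hM.conj_mem a ha h, fun y hy => ?_⟩
      have h2 := ha' (h⁻¹ * y * h) (by
        have := hRn h⁻¹ (H₀.inv_mem hh) y hy
        simpa using this)
      calc y * (h * a * h⁻¹) * y⁻¹ = h * ((h⁻¹ * y * h) * a * (h⁻¹ * y * h)⁻¹) * h⁻¹ := by group
        _ = h * a * h⁻¹ := by rw [h2]
  have hCM : C ≤ M₀ := fun x hx => hx.1
  have hCne : C ≠ ⊥ := by
    intro h
    apply hb1
    apply Subtype.ext
    have h3 : (b : X) ∈ C := by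
      refine ⟨b.2, fun y hy => ?_⟩
      have := hb ⟨y, hy⟩
      have h4 := congrArg Subtype.val this
      rw [hact] at h4
      exact h4
    rw [h, Subgroup.mem_bot] at h3
    simp [h3]
  have hCeq : C = M₀ := (hmin C hCn hCM).resolve_left hCne
  -- `R₀` is normal, hence trivial
  have hRnorm : R₀.Normal := by
    apply normal_of_two hsup
    · intro m hm a ha
      have h5 : m ∈ C := hCeq ▸ hm
      have h6 := h5.2 a ha
      have e : m * a * m⁻¹ = a := by
        have h7 : a * m * a⁻¹ = m := h6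
        have h8 : a * m = m * a := by
          calc a * m = a * m * a⁻¹ * a := by group
            _ = m * a := by rw [h7]
        calc m * a * m⁻¹ = a * m * m⁻¹ := by rw [h8]
          _ = a := by group
      rw [e]
      exact ha
    · exact hRn
  exact hR0 (hcore R₀ hRnorm hRH)

/-- A minimal invariant abelian subgroup whose order is divisible by the prime `p` is a `p`-group. -/
theorem pgroup_of_min (A : Subgroup X) (habA : ∀ a ∈ A, ∀ b ∈ A, a * b = b * a) (S : Set X)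
    (hAS : ∀ s ∈ S, ∀ a ∈ A, s * a * s⁻¹ ∈ A)
    (hmin : ∀ B : Subgroup X, B ≤ A → (∀ s ∈ S, ∀ b ∈ B, s * b * s⁻¹ ∈ B) → B = ⊥ ∨ B = A)
    {p : ℕ} [hp : Fact p.Prime] (hdvd : p ∣ Nat.card A) : IsPGroup p A := by
  classical
  let B : Subgroup X :=
    { carrier := {x | x ∈ A ∧ ∃ n : ℕ, x ^ (p ^ n) = 1}
      mul_mem' := by
        rintro a c ⟨ha, n, hn⟩ ⟨hc, k, hk⟩
        refine ⟨A.mul_mem ha hc, n + k, ?_⟩
        have hcomm : Commute a c := habA a ha c hc
        rw [hcomm.mul_pow, pow_add]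
        rw [pow_mul, hn, one_pow, mul_comm (p ^ n), pow_mul, hk, one_pow, one_mul]
      one_mem' := ⟨A.one_mem, 0, by simp⟩
      inv_mem' := by
        rintro a ⟨ha, n, hn⟩
        exact ⟨A.inv_mem ha, n, by rw [inv_pow, hn, inv_one]⟩ }
  have hBA : B ≤ A := fun x hx => hx.1
  have hBS : ∀ s ∈ S, ∀ b ∈ B, s * b * s⁻¹ ∈ B := by
    rintro s hs b ⟨hb, n, hn⟩
    refine ⟨hAS s hs b hb, n, ?_⟩
    rw [conj_pow, hn]
    simp
  have hBne : B ≠ ⊥ := by
    obtain ⟨x, hx⟩ := exists_prime_orderOf_dvd_card' (G := A) p hdvd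
    intro h
    have h1 : (x : X) ∈ B := by
      refine ⟨x.2, 1, ?_⟩
      have h2 : x ^ p = 1 := by rw [← hx]; exact pow_orderOf_eq_one x
      rw [pow_one]
      exact congrArg Subtype.val h2
    rw [h, Subgroup.mem_bot] at h1
    have h3 : x = 1 := Subtype.ext h1
    rw [h3, orderOf_one] at hx
    exact hp.out.one_lt.ne hx
  have hBeq : B = A := (hmin B hBA hBS).resolve_left hBne
  intro a
  have h1 : (a : X) ∈ B := by rw [hBeq]; exact a.2
  obtain ⟨-, n, hn⟩ := h1
  exact ⟨n, Subtype.ext hn⟩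

section Comm

variable {G : Type u} [Group G] [Finite G]

/-- A minimal invariant section of a solvable quotient is abelian. -/
theorem comm_mod_of_min (K T : Subgroup G) [hK : K.Normal] (hsolv : Group.IsSolvable (G ⧸ K))
    (hKT : K < T) (S : Set G) (hT : ∀ s ∈ S, ∀ y ∈ T, s * y * s⁻¹ ∈ T)
    (hmin : ∀ B : Subgroup G, K ≤ B → B ≤ T → (∀ s ∈ S, ∀ b ∈ B, s * b * s⁻¹ ∈ B) →
      B = K ∨ B = T) :
    ∀ a ∈ T, ∀ b ∈ T, a * b * a⁻¹ * b⁻¹ ∈ K := by
  let π : G →* G ⧸ K := QuotientGroup.mk' K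
  let Tb : Subgroup (G ⧸ K) := T.map π
  have hTb : Tb ≠ ⊥ := by
    intro h
    have : T ≤ K := by
      intro x hx
      have h1 : π x ∈ Tb := Subgroup.mem_map_of_mem _ hx
      rw [h, Subgroup.mem_bot] at h1
      exact (QuotientGroup.eq_one_iff x).mp h1
    exact absurd hKT (not_lt_of_ge this)
  have hlt := Group.IsSolvable.commutator_lt_of_ne_bot hTb
  let B : Subgroup G := (⁅Tb, Tb⁆).comap π
  have hKB : K ≤ B := by
    intro x hx
    have h1 : π x = 1 := (QuotientGroup.eq_one_iff x).mpr hx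
    show π x ∈ ⁅Tb, Tb⁆
    rw [h1]
    exact Subgroup.one_mem _
  have hBT : B ≤ T := by
    intro x hx
    have h1 : π x ∈ Tb := hlt.le hx
    obtain ⟨y, hy, hyx⟩ := Subgroup.mem_map.mp h1
    have h2 : y⁻¹ * x ∈ K := QuotientGroup.eq.mp hyx
    have := T.mul_mem hy (hKT.le h2)
    simpa using this
  have hBS : ∀ s ∈ S, ∀ b ∈ B, s * b * s⁻¹ ∈ B := by
    intro s hs b hb
    show π (s * b * s⁻¹) ∈ ⁅Tb, Tb⁆
    have hb' : π b ∈ ⁅Tb, Tb⁆ := hb
    have hconj : ⁅Tb, Tb⁆.map (MulAut.conj (π s)).toMonoidHom ≤ ⁅Tb, Tb⁆ := by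
      rw [Subgroup.map_commutator]
      have hm : Tb.map (MulAut.conj (π s)).toMonoidHom ≤ Tb := by
        rintro _ ⟨z, hz, rfl⟩
        obtain ⟨y, hy, rfl⟩ := Subgroup.mem_map.mp hz
        refine Subgroup.mem_map.mpr ⟨s * y * s⁻¹, hT s hs y hy, ?_⟩
        simp [map_mul, map_inv, MulAut.conj_apply]
      exact Subgroup.commutator_mono hm hm
    have := hconj (Subgroup.mem_map_of_mem _ hb')
    simpa [map_mul, map_inv, MulAut.conj_apply] using this
  have hBK : B = K := by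
    rcases hmin B hKB hBT hBS with h | h
    · exact h
    · exfalso
      apply hlt.ne
      apply le_antisymm hlt.le
      rintro _ ⟨x, hx, rfl⟩
      have : x ∈ B := h ▸ hx
      exact this
  intro a ha b hb
  rw [← hBK]
  show π (a * b * a⁻¹ * b⁻¹) ∈ ⁅Tb, Tb⁆
  have := Subgroup.commutator_mem_commutator (Subgroup.mem_map_of_mem π ha)
    (Subgroup.mem_map_of_mem π hb)
  simpa [commutatorElement_def] using this

end Comm

end Cfsg.Agent.H04.Cliff.QP
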