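import Cfsg.Agent.S0857
import Cfsg.Agent.Lib.H04.Cliff.Chief
import Cfsg.Agent.Lib.H04.Cliff.Basic

/-!
# Relative M-groups (non-square chief factors)
-/

set_option autoImplicit false
set_option linter.style.haveILetI false
set_option linter.unusedSectionVars false
set_option linter.unusedSimpArgs false
set_option linter.unusedVariables false

namespace Cfsg.Agent.H04.Cliff

open Cfsg Cfsg.Agent.H21 Cfsg.Agent.H06 Module
open scoped ComplexConjugate

universe u

section Transport

variable {G : Type u} [Group G] [Fintype G]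

theorem indFun_congr_eq {A B : Subgroup G} (h : A = B) (f : A → ℂ) (g : B → ℂ)
    (hfg : ∀ x : A, f x = g ⟨x, h ▸ x.2⟩) : indFun A f = indFun B g := by
  subst h
  congr
  funext x
  exact hfg x

/-- Inducing from the whole group does nothing to a class function. -/
theorem indFun_top_restrict {χ : G → ℂ} (hχ : IsClassFunction G χ) :
    indFun (⊤ : Subgroup G) (fun x : (⊤ : Subgroup G) => χ x) = χ := by
  funext g
  unfold indFun
  have h1 : ∀ x : G, extendByZero (⊤ : Subgroup G) (fun x : (⊤ : Subgroup G) => χ x) (x⁻¹ * g * x)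
      = χ g := by
    intro x
    have := extendByZero_coe (H := (⊤ : Subgroup G)) (fun x : (⊤ : Subgroup G) => χ x)
      ⟨x⁻¹ * g * x, trivial⟩
    simp only at this
    rw [this]
    have h2 := hχ g x⁻¹
    simpa using h2
  simp only [h1, Finset.sum_const, Finset.card_univ, nsmul_eq_mul]
  rw [← Nat.card_eq_fintype_card]
  have : Nat.card (⊤ : Subgroup G) = Nat.card G := Nat.card_congr Subgroup.topEquiv.toEquiv
  rw [this]
  have hG : (Nat.card G : ℂ) ≠ 0 := by simp [Nat.card_pos.ne']
  field_simp

/-- Transitivity of induction through a subgroup presented as a group. -/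
theorem ind_through (T : Subgroup G) [Fintype T] (H' : Subgroup T) (ψ' : H' → ℂ) :
    indFun (H'.map T.subtype)
      (ψ' ∘ (H'.equivMapOfInjective T.subtype T.subtype_injective).symm) =
      indFun T (indFun H' ψ') := by
  classical
  have hle : H'.map T.subtype ≤ T := by
    rintro _ ⟨x, -, rfl⟩
    exact x.2
  rw [← indFun_trans (H'.map T.subtype) T hle]
  congr 1
  have hsub : (H'.map T.subtype).subgroupOf T = H' := by
    ext x
    simp [Subgroup.mem_subgroupOf]
  apply indFun_congr_eq hsub
  intro x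
  simp only [Function.comp_apply]
  congr 1
  apply Equiv.symm_apply_eq _ |>.mpr
  apply Subtype.ext
  rfl

end Transport

section Main

/-- The hypothesis of the theorem. -/
def NoSq (G : Type u) [Group G] (N : Subgroup G) : Prop :=
  ∀ (H K L : Subgroup G), N ≤ L → L < K → K ≤ H → (∀ h ∈ H, ∀ k ∈ K, h * k * h⁻¹ ∈ K) →
    (∀ h ∈ H, ∀ l ∈ L, h * l * h⁻¹ ∈ L) →
    (∀ M : Subgroup G, L ≤ M → M ≤ K → (∀ h ∈ H, ∀ m ∈ M, h * m * h⁻¹ ∈ M) → M = L ∨ M = K) →
    ¬ IsSquare (L.relIndex K)

theorem NoSq.sub {G : Type u} [Group G] {N : Subgroup G} (h : NoSq G N) (T : Subgroup G)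
    (hNT : N ≤ T) : NoSq T (N.subgroupOf T) := by
  intro H K L hNL hLK hKH hK hL hM
  have hinj := T.subtype_injective
  have hLK' : L.map T.subtype < K.map T.subtype :=
    (Subgroup.map_lt_map_iff_of_injective hinj).mpr hLK
  have := h (H.map T.subtype) (K.map T.subtype) (L.map T.subtype) ?_ hLK'
    (Subgroup.map_mono hKH) ?_ ?_ ?_
  · rwa [Subgroup.relIndex_map_map_of_injective _ _ hinj] at this
  · intro n hn
    exact Subgroup.mem_map.mpr ⟨⟨n, hNT hn⟩, hNL (Subgroup.mem_subgroupOf.mpr hn), rfl⟩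
  · rintro _ ⟨a, ha, rfl⟩ _ ⟨b, hb, rfl⟩
    exact Subgroup.mem_map.mpr ⟨a * b * a⁻¹, hK a ha b hb, by simp⟩
  · rintro _ ⟨a, ha, rfl⟩ _ ⟨b, hb, rfl⟩
    exact Subgroup.mem_map.mpr ⟨a * b * a⁻¹, hL a ha b hb, by simp⟩
  · intro M hLM hMK hMn
    have hMT : M ≤ T := hMK.trans (by rintro _ ⟨x, -, rfl⟩; exact x.2)
    have hcom : (M.subgroupOf T).map T.subtype = M := by
      rw [Subgroup.subgroupOf_map_subtype]
      exact inf_eq_left.mpr hMT
    have h1 : L ≤ M.subgroupOf T := by
      intro x hx
      exact Subgroup.mem_subgroupOf.mpr (hLM (Subgroup.mem_map.mpr ⟨x, hx, rfl⟩))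
    have h2 : M.subgroupOf T ≤ K := by
      intro x hx
      have := hMK (Subgroup.mem_subgroupOf.mp hx)
      obtain ⟨y, hy, hyx⟩ := Subgroup.mem_map.mp this
      have : y = x := Subtype.ext hyx
      exact this ▸ hy
    have h3 : ∀ h ∈ H, ∀ m ∈ M.subgroupOf T, h * m * h⁻¹ ∈ M.subgroupOf T := by
      intro a ha m hm
      rw [Subgroup.mem_subgroupOf]
      exact hMn _ (Subgroup.mem_map.mpr ⟨a, ha, rfl⟩) _ (Subgroup.mem_subgroupOf.mp hm)
    rcases hM _ h1 h2 h3 with h4 | h4
    · left
      rw [← hcom, h4]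
    · right
      rw [← hcom, h4]

theorem rel_m_group (n : ℕ) : ∀ (G : Type u) [Group G] [Fintype G] (N : Subgroup G) [N.Normal],
    Nat.card G = n → Group.IsSolvable (G ⧸ N) → NoSq G N → ∀ χ : G → ℂ, IsIrrCharacter G χ →
    ∃ (H : Subgroup G) (hNH : N ≤ H) (ψ : H → ℂ), IsIrrCharacter H ψ ∧ indFun H ψ = χ ∧
      IsIrrCharacter N (fun n : N => ψ ⟨(n : G), hNH n.2⟩) := by
  induction n using Nat.strong_induction_on with
  | _ n ih =>
  intro G _ _ N _ hn hsolv hsq χ hχ
  classical
  haveI : Fintype (IrrCharacter G) := Fintype.ofFinite _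
  have hχcl := isClassFunction_of_isCharacter (isCharacter_of_irr hχ)
  -- minimal normal `M` with irreducible restriction
  let S : Set (Subgroup G) := {M | M.Normal ∧ N ≤ M ∧ IsIrrCharacter M (fun x : M => χ x)}
  have htop : (⊤ : Subgroup G) ∈ S := by
    refine ⟨inferInstance, le_top, ?_⟩
    exact isIrrCharacter_comp_of_surjective (⊤ : Subgroup G).subtype
      (fun g => ⟨⟨g, trivial⟩, rfl⟩) hχ
  obtain ⟨M, hM⟩ := (Set.toFinite S).exists_minimal ⟨⊤, htop⟩
  obtain ⟨⟨hMn, hNM, hMirr⟩, hMmin⟩ := hM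
  by_cases hMN : M = N
  · -- base case
    subst hMN
    refine ⟨⊤, le_top, fun x => χ x, ?_, indFun_top_restrict hχcl, hMirr⟩
    exact isIrrCharacter_comp_of_surjective (⊤ : Subgroup G).subtype
      (fun g => ⟨⟨g, trivial⟩, rfl⟩) hχ
  have hNltM : N < M := lt_of_le_of_ne hNM (Ne.symm hMN)
  -- maximal `L`
  let S' : Set (Subgroup G) := {L | L.Normal ∧ N ≤ L ∧ L < M}
  obtain ⟨L, hL⟩ := (Set.toFinite S').exists_maximal ⟨N, inferInstance, le_rfl, hNltM⟩
  obtain ⟨⟨hLn, hNL, hLM⟩, hLmax⟩ := hL
  have hchief : ∀ M' : Subgroup G, M'.Normal → L ≤ M' → M' ≤ M → M' = L ∨ M' = M := by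
    intro M' h1 h2 h3
    by_cases h4 : M' = M
    · exact Or.inr h4
    · left
      apply le_antisymm _ h2
      exact hLmax ⟨h1, hNL.trans h2, lt_of_le_of_ne h3 h4⟩ h2
  -- abelian factor
  have hab : ⁅M, M⁆ ≤ L := by
    haveI : Group.IsSolvable (G ⧸ L) := by
      have : Function.Surjective (QuotientGroup.map N L (MonoidHom.id G) (by
          intro x hx
          exact Subgroup.mem_comap.mpr (hNL hx))) := by
        intro q
        obtain ⟨x, rfl⟩ := QuotientGroup.mk_surjective q
        exact ⟨(x : G ⧸ N), rfl⟩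
      exact Group.isSolvable_of_surjective this
    let A : Subgroup (G ⧸ L) := M.map (QuotientGroup.mk' L)
    haveI : A.Normal := Subgroup.Normal.map hMn _ (QuotientGroup.mk'_surjective L)
    have hA : A ≠ ⊥ := by
      intro h
      have : M ≤ L := by
        intro x hx
        have h1 : (QuotientGroup.mk' L) x ∈ A := Subgroup.mem_map_of_mem _ hx
        rw [h, Subgroup.mem_bot] at h1
        exact (QuotientGroup.eq_one_iff x).mp h1
      exact absurd hLM (not_lt_of_ge this)
    have hlt := Group.IsSolvable.commutator_lt_of_ne_bot hA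
    let W : Subgroup G := (⁅A, A⁆).comap (QuotientGroup.mk' L)
    haveI : W.Normal := Subgroup.Normal.comap inferInstance _
    have hLW : L ≤ W := by
      intro x hx
      have : (QuotientGroup.mk' L) x = 1 := (QuotientGroup.eq_one_iff x).mpr hx
      show (QuotientGroup.mk' L) x ∈ ⁅A, A⁆
      rw [this]
      exact Subgroup.one_mem _
    have hWM : W ≤ M := by
      intro x hx
      have h1 : (QuotientGroup.mk' L) x ∈ A := hlt.le hx
      obtain ⟨y, hy, hyx⟩ := Subgroup.mem_map.mp h1
      have h2 : y⁻¹ * x ∈ L := QuotientGroup.eq.mp hyx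
      have := M.mul_mem hy (hLM.le h2)
      simpa using this
    have hWL : W = L := by
      rcases hchief W inferInstance hLW hWM with h | h
      · exact h
      · exfalso
        apply hlt.ne
        apply le_antisymm hlt.le
        rintro _ ⟨x, hx, rfl⟩
        have : x ∈ W := h ▸ hx
        exact this
    rw [Subgroup.commutator_le]
    intro a ha b hb
    rw [← hWL]
    show (QuotientGroup.mk' L) (a * b * a⁻¹ * b⁻¹) ∈ ⁅A, A⁆
    have := Subgroup.commutator_mem_commutator (Subgroup.mem_map_of_mem (QuotientGroup.mk' L) ha)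
      (Subgroup.mem_map_of_mem (QuotientGroup.mk' L) hb)
    simpa [commutatorElement_def] using this
  -- trichotomy
  have hinvϑ : ∀ (g : G) (m : M), (fun x : M => χ x) ⟨g * m * g⁻¹, hMn.conj_mem (m : G) m.2 g⟩ =
      (fun x : M => χ x) m := by
    intro g m
    exact hχcl m g
  have htri := Cfsg.Agent.S0857.result M L hLM hchief hab (fun x : M => χ x) hMirr hinvϑ
  rcases htri with h | ⟨φ, e, hφ, h1, h2⟩ | ⟨F, hF, hc, hs⟩
  · -- smaller `M`
    exfalso
    have : M ≤ L := hMmin ⟨hLn, hNL, h⟩ hLM.le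
    exact absurd hLM (not_lt_of_ge this)
  · -- square index
    exfalso
    refine hsq ⊤ M L hNL hLM le_top (fun h _ k hk => hMn.conj_mem k hk h)
      (fun h _ k hk => hLn.conj_mem k hk h) ?_ ⟨e, ?_⟩
    · intro M' h3 h4 h5
      exact hchief M' ⟨fun x hx g => h5 g trivial x hx⟩ h3 h4
    · rw [← h2]; ring
  · -- the induced case
    have hidx : 1 < L.relIndex M := by
      have hne : L.relIndex M ≠ 1 := by
        intro h
        rw [Subgroup.relIndex_eq_one] at h
        exact absurd hLM (not_lt_of_ge h)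
      have hpos : L.relIndex M ≠ 0 := Subgroup.index_ne_zero_of_finite
      omega
    have hFne : F.Nonempty := by
      rw [← Finset.card_pos, hc]
      omega
    obtain ⟨φ, hφF⟩ := hFne
    have hφ := hF φ hφF
    have hsf : (fun x : L => χ x) = ∑ φ ∈ F, φ := hs
    haveI : Fintype (IrrCharacter L) := Fintype.ofFinite _
    have hinner : ∀ φ₁ ∈ F, classInner (fun x : L => χ x) φ₁ ≠ 0 := by
      intro φ₁ hφ₁
      rw [hsf, classInner_sum_left]
      have : ∀ ψ ∈ F, classInner ψ φ₁ = if ψ = φ₁ then 1 else 0 := fun ψ hψ =>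
        classInner_irr_fun (hF ψ hψ) (hF φ₁ hφ₁)
      rw [Finset.sum_congr rfl this, Finset.sum_ite_eq' F φ₁]
      simp [hφ₁]
    let T : Subgroup G := inertG L φ
    have hLT : L ≤ T := by
      intro x hx
      rw [mem_inertG]
      intro h
      exact isClassFunction_of_isCharacter (isCharacter_of_irr hφ) h ⟨x, hx⟩
    have hNT : N ≤ T := hNL.trans hLT
    have hTne : T ≠ ⊤ := by
      intro hT
      have hall : ∀ φ₁ ∈ F, φ₁ = φ := by
        intro φ₁ hφ₁
        obtain ⟨y, hy⟩ := constituent_conj L hχ hφ (hF φ₁ hφ₁) (hinner φ hφF) (hinner φ₁ hφ₁)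
        rw [hy]
        have hyT : y ∈ T := by rw [hT]; trivial
        funext h
        rw [twist_def]
        exact hyT h
      have : F.card ≤ 1 := by
        rw [Finset.card_le_one]
        intro a ha b hb
        rw [hall a ha, hall b hb]
      omega
    obtain ⟨ψ, e, hψ, he, hχψ, -, -⟩ := clifford_ext L T hLT hφ (fun g => Iff.rfl) hχ (hinner φ hφF)
    -- induction
    have hcardT : Nat.card T < n := by
      rw [← hn]
      have h1 := Subgroup.card_mul_index T
      have h2 : T.index ≠ 1 := fun h => hTne (Subgroup.index_eq_one.mp h)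
      have h3 : T.index ≠ 0 := Subgroup.index_ne_zero_of_finite
      have h4 : 0 < Nat.card T := Nat.card_pos
      have h5 : 2 ≤ T.index := by omega
      nlinarith
    haveI : (N.subgroupOf T).Normal := inferInstance
    have hsolvT : Group.IsSolvable (T ⧸ N.subgroupOf T) := by
      have hinj : Function.Injective (QuotientGroup.map (N.subgroupOf T) N T.subtype (by
          intro x hx
          exact Subgroup.mem_comap.mpr (Subgroup.mem_subgroupOf.mp hx))) := by
        intro a b
        obtain ⟨x, rfl⟩ := QuotientGroup.mk_surjective a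
        obtain ⟨y, rfl⟩ := QuotientGroup.mk_surjective b
        intro h
        have h1 : ((x : G) : G ⧸ N) = ((y : G) : G ⧸ N) := h
        have h2 := QuotientGroup.eq.mp h1
        apply QuotientGroup.eq.mpr
        rw [Subgroup.mem_subgroupOf]
        simpa using h2
      exact Group.isSolvable_of_isSolvable_injective hinj
    obtain ⟨H', hNH', ψ', hψ', hind, hres⟩ := ih _ hcardT T (N.subgroupOf T) rfl hsolvT
      (hsq.sub T hNT) ψ hψ
    let ee : H' ≃* H'.map T.subtype := H'.equivMapOfInjective T.subtype T.subtype_injective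
    have hNH : N ≤ H'.map T.subtype := by
      intro x hx
      exact Subgroup.mem_map.mpr ⟨⟨x, hNT hx⟩, hNH' (Subgroup.mem_subgroupOf.mpr hx), rfl⟩
    refine ⟨H'.map T.subtype, hNH, ψ' ∘ ee.symm, ?_, ?_, ?_⟩
    · exact isIrrCharacter_comp_of_surjective (ee.symm.toMonoidHom) ee.symm.surjective hψ'
    · rw [ind_through T H' ψ', hind, ← hχψ]
    · -- restriction to `N`
      let f : N →* N.subgroupOf T := (Subgroup.subgroupOfEquivOfLe hNT).symm.toMonoidHom
      have hf : Function.Surjective f := (Subgroup.subgroupOfEquivOfLe hNT).symm.surjective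
      have := isIrrCharacter_comp_of_surjective f hf hres
      convert this using 1
      funext x
      simp only [Function.comp_apply]
      congr 1
      apply Equiv.symm_apply_eq _ |>.mpr
      apply Subtype.ext
      rfl

end Main

end Cfsg.Agent.H04.Cliff
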