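import Cfsg.Agent.Lib.H22.Local
import Cfsg.Agent.Lib.H22.CharCore
import Cfsg.Agent.Lib.H21.ModP
import Cfsg.Agent.Lib.H21.Second4

/-!
# Congruences for character values on sections
-/

set_option autoImplicit false
set_option linter.style.haveILetI false
set_option linter.unusedSectionVars false
set_option linter.unusedSimpArgs false
set_option linter.unusedVariables false

namespace Cfsg.Agent.H04.Cliff

open Cfsg Cfsg.Agent.H21
open scoped ComplexConjugate

universe u

variable {G : Type*} [Group G] [Finite G] {p : ℕ} {M : Ideal AlgInt}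

/-- `χ(uv) ≡ χ(v)` modulo `M` when `u` is a `p`-element commuting with the `p`-regular `v`. -/
theorem char_section_congr (hM : IsPModular p M) {χ : G → ℂ} (hχ : IsCharacter G χ) {u v : G}
    (hc : Commute u v) {k : ℕ} (hu : orderOf u = p ^ k) (hv : ¬ p ∣ orderOf v) :
    MemLocalIdeal M (χ (u * v) - χ v) := by
  classical
  haveI hMp : M.IsPrime := pmod_isPrime hM
  obtain ⟨n, ρ, rfl⟩ := hχ
  have hp : p.Prime := hM.1
  haveI : Fact p.Prime := ⟨hp⟩
  have hcop : (p ^ k).Coprime (orderOf v) :=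
    Nat.Coprime.pow_left k ((Nat.Prime.coprime_iff_not_dvd hp).2 hv)
  obtain ⟨t, ht0, ht1⟩ := Nat.chineseRemainder hcop 0 1
  set x := u * v with hx
  have hxt : x ^ (t : ℕ) = v := by
    rw [hx, hc.mul_pow]
    have h1 : u ^ (t : ℕ) = 1 :=
      orderOf_dvd_iff_pow_eq_one.1 (hu ▸ (Nat.modEq_zero_iff_dvd.1 ht0))
    have h2 : v ^ (t : ℕ) = v := by
      have h3 := pow_eq_pow_mod (t : ℕ) (pow_orderOf_eq_one v)
      rw [h3, ht1, ← pow_eq_pow_mod 1 (pow_orderOf_eq_one v), pow_one]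
    rw [h1, h2, one_mul]
  obtain ⟨ι, _, b, μ, hb, hμ, -, -⟩ := exists_eigenbasis ρ x
  have hcharx : ρ.character x = ∑ i, μ i := by
    have := H22.character_eq_sum_pow ρ b μ x hb 1
    simpa using this
  have hcharv : ρ.character v = ∑ i, μ i ^ (t : ℕ) := by
    have := H22.character_eq_sum_pow ρ b μ x hb t
    rwa [hxt] at this
  have hbne : ∀ i, b i ≠ 0 := fun i => b.ne_zero i
  have hμne : ∀ i, μ i ≠ 0 := by
    intro i h0
    have h1 := hμ i
    rw [h0, zero_pow (orderOf_pos x).ne'] at h1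
    exact zero_ne_one h1
  have hact : ∀ (e : ℕ) (i : ι), ρ (x ^ e) (b i) = μ i ^ e • b i := by
    intro e i
    induction e with
    | zero => simp
    | succ e ih =>
      rw [pow_succ, map_mul, Module.End.mul_apply, hb, map_smul, ih, smul_smul, pow_succ, mul_comm]
  rw [hcharx, hcharv, ← Finset.sum_sub_distrib]
  refine H22.mli_sum _ _ fun i _ => ?_
  -- the eigenvalue of `u`
  set ν : ℂ := μ i * (μ i ^ (t : ℕ))⁻¹ with hν
  have hνp : ν ^ (p ^ k) = 1 := by
    have h1 : x ^ (p ^ k) = v ^ (p ^ k) := by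
      rw [hx, hc.mul_pow, ← hu, pow_orderOf_eq_one, one_mul]
    have h2 : (v ^ (p ^ k)) = x ^ ((t : ℕ) * p ^ k) := by
      rw [pow_mul, hxt]
    have h3 : μ i ^ (p ^ k) = μ i ^ ((t : ℕ) * p ^ k) := by
      have h4 := hact (p ^ k) i
      have h5 := hact ((t : ℕ) * p ^ k) i
      rw [← h2, ← h1, h4] at h5
      exact smul_left_injective ℂ (hbne i) h5
    rw [hν, mul_pow, inv_pow, ← pow_mul, ← h3]
    exact mul_inv_cancel₀ (pow_ne_zero _ (hμne i))
  obtain ⟨hz, hz1⟩ := root_sub_one_mem hM ν k hνp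
  have hint : IsIntegral ℤ (μ i ^ (t : ℕ)) := by
    apply IsIntegral.pow
    exact IsIntegral.of_pow (orderOf_pos x) (by rw [hμ i]; exact isIntegral_one)
  have e1 : μ i - μ i ^ (t : ℕ) = ((toAlgInt _ hint * (toAlgInt ν hz - 1) : AlgInt) : ℂ) := by
    have h5 : ((toAlgInt _ hint : AlgInt) : ℂ) = μ i ^ (t : ℕ) := rfl
    have h6 : ((toAlgInt ν hz : AlgInt) : ℂ) = ν := rfl
    push_cast
    rw [h5, h6, hν]
    have := pow_ne_zero (t : ℕ) (hμne i)
    field_simp
  rw [e1]
  exact H22.mli_of_mem (M.mul_mem_left _ hz1)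

end Cfsg.Agent.H04.Cliff
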