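import Cfsg.Agent.Lib.H04.Cliff.Perm

/-!
# Solomon's induction theorem
-/

set_option autoImplicit false
set_option linter.style.haveILetI false
set_option linter.unusedSectionVars false
set_option linter.unusedSimpArgs false
set_option linter.unusedVariables false

namespace Cfsg.Agent.H04.Cliff

open Cfsg Cfsg.Agent.H21
open scoped ComplexConjugate

universe u

/-- Quasi-elementary subgroups. -/
def QE (p : ℕ) {G : Type*} [Group G] (H : Subgroup G) : Prop :=
  ∃ C : Subgroup G, C ≤ H ∧ H ≤ Subgroup.normalizer (C : Set G) ∧ IsCyclic C ∧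
    Nat.Coprime (Nat.card C) p ∧ ∃ k : ℕ, C.relIndex H = p ^ k

theorem count_index {Z : Type*} [Group Z] [Finite Z] (p : ℕ) [hp : Fact p.Prime] (Q : Subgroup Z)
    (hQ : ¬ p ∣ Q.index) (u : Z) (a : ℕ) (hu : u ^ (p ^ a) = 1) :
    ∃ n : ℕ, ¬ p ∣ n ∧ Nat.card {g : Z // g⁻¹ * u * g ∈ Q} = n * Nat.card Q := by
  classical
  let U : Subgroup Z := Subgroup.zpowers u
  have hU : IsPGroup p U := by
    rintro ⟨_, i, rfl⟩
    refine ⟨a, Subtype.ext ?_⟩
    simp only [SubmonoidClass.coe_pow, OneMemClass.coe_one]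
    rw [← zpow_natCast, ← zpow_mul, mul_comm, zpow_mul, zpow_natCast, hu, one_zpow]
  let t : Set (Z ⧸ Q) := {q | u • q = q}
  have hfix : MulAction.fixedPoints U (Z ⧸ Q) = t := by
    ext q
    constructor
    · intro h
      exact h ⟨u, Subgroup.mem_zpowers u⟩
    · intro (h : u • q = q)
      rintro ⟨_, i, rfl⟩
      have : u ∈ MulAction.stabilizer Z q := h
      have h2 : u ^ i ∈ MulAction.stabilizer Z q := Subgroup.zpow_mem _ this i
      exact h2
  have hmod := IsPGroup.card_modEq_card_fixedPoints hU (Z ⧸ Q)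
  rw [hfix] at hmod
  have hndvd : ¬ p ∣ Nat.card t := by
    intro h
    have h2 := (hmod.dvd_iff (dvd_refl p)).mpr h
    rw [Subgroup.index_eq_card] at hQ
    exact hQ h2
  exact ⟨Nat.card t, hndvd, count_fix Q u⟩

/-- Statement S0871. -/
theorem exists_QE {G : Type*} [Group G] [Fintype G] (x : G) (p : ℕ) (hp : p.Prime) :
    ∃ H : Subgroup G, QE p H ∧ ∃ n : ℕ, indFun H (fun _ => 1) x = (n : ℂ) ∧ ¬ p ∣ n := by
  classical
  haveI : Fact p.Prime := ⟨hp⟩
  obtain ⟨m, a, e, hcard, hm, he1, he2, he3, he4⟩ := Cfsg.Agent.H06.Brauer.exists_decomp (G := G) p hp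
  set v : G := x ^ e with hvdef
  have hv : v ^ m = 1 := he3 x
  set u : G := v⁻¹ * x with hudef
  have hu : u ^ (p ^ a) = 1 := he4 x
  have hx : x = v * u := by simp [hudef]
  have hvu : Commute v u := by
    have h1 : Commute x v := (Commute.refl x).pow_right e
    have h2 : Commute v x := h1.symm
    exact ((Commute.refl v).inv_right).mul_right h2
  let C : Subgroup G := Subgroup.zpowers v
  let N : Subgroup G := Subgroup.normalizer (C : Set G)
  have hCN : C ≤ N := Subgroup.le_normalizer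
  have huN : u ∈ N := by
    refine Subgroup.mem_normalizer_iff.2 fun n => ?_
    constructor
    · rintro ⟨i, rfl⟩
      refine ⟨i, ?_⟩
      simp only
      have : Commute u (v ^ i) := (hvu.symm.zpow_right i)
      rw [this.eq]
      simp
    · rintro ⟨i, hi⟩
      refine ⟨i, ?_⟩
      simp only at hi ⊢
      have h1 : u * n * u⁻¹ = v ^ i := hi.symm
      have : Commute u (v ^ i) := (hvu.symm.zpow_right i)
      have h2 : u * n = v ^ i * u := by rw [← h1]; group
      have h3 : u * n = u * v ^ i := by rw [h2, this.eq]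
      exact (mul_left_cancel h3).symm
  let P₀ : Sylow p N := default
  let C' : Subgroup N := C.subgroupOf N
  haveI hC'n : C'.Normal := Subgroup.normal_in_normalizer
  let Hs : Subgroup N := (P₀ : Subgroup N) ⊔ C'
  let H : Subgroup G := Hs.map N.subtype
  have hC'map : C'.map N.subtype = C := by
    show (C.subgroupOf N).map N.subtype = C
    rw [Subgroup.map_subgroupOf_eq_of_le hCN]
  have hCH : C ≤ H := by
    rw [← hC'map]
    exact Subgroup.map_mono le_sup_right
  have hHN : H ≤ N := by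
    rintro _ ⟨y, -, rfl⟩
    exact y.2
  have hcopm : Nat.Coprime (orderOf v) p := by
    have h1 : orderOf v ∣ m := orderOf_dvd_of_pow_eq_one hv
    have h2 : ¬ p ∣ orderOf v := fun h => hm (h.trans h1)
    exact ((Nat.Prime.coprime_iff_not_dvd hp).2 h2).symm
  obtain ⟨k, hk⟩ : ∃ k : ℕ, C.relIndex H = p ^ k := by
    have h1 : C.relIndex H = C'.relIndex Hs := by
      rw [← hC'map]
      exact Subgroup.relIndex_map_map_of_injective _ _ Subtype.val_injective
    have h2 : C'.relIndex Hs = C'.relIndex (P₀ : Subgroup N) := Subgroup.relIndex_sup_right _ _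
    have h3 : C'.relIndex (P₀ : Subgroup N) ∣ Nat.card (P₀ : Subgroup N) := by
      rw [Subgroup.relIndex]
      exact Subgroup.index_dvd_card _
    obtain ⟨l, hl⟩ := IsPGroup.iff_card.1 P₀.isPGroup'
    rw [hl] at h3
    obtain ⟨k, -, hk⟩ := (Nat.dvd_prime_pow hp).1 h3
    exact ⟨k, by rw [h1, h2, hk]⟩
  refine ⟨H, ⟨C, hCH, hHN, inferInstance, ?_, k, hk⟩, ?_⟩
  · rw [Nat.card_zpowers]; exact hcopm
  -- the count
  let u' : N := ⟨u, huN⟩
  have hu' : u' ^ (p ^ a) = 1 := Subtype.ext hu
  have hidx : ¬ p ∣ Hs.index := fun h =>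
    P₀.not_dvd_index (h.trans (Subgroup.index_dvd_of_le le_sup_left))
  obtain ⟨n, hn, hcount⟩ := count_index p Hs hidx u' a hu'
  refine ⟨n, ?_, hn⟩
  have hCmem : ∀ g : G, g⁻¹ * v * g ∈ C → g ∈ N := by
    intro g hg
    have hg1 : ∀ c ∈ C, g⁻¹ * c * g ∈ C := by
      rintro _ ⟨i, rfl⟩
      have := C.zpow_mem hg i
      simp only [conj_zpow, inv_inv] at this ⊢
      have h2 := conj_zpow (a := g⁻¹) (b := v) (i := i)
      simp only [inv_inv] at h2
      rw [← h2]
      exact this
    have hsurj : Function.Surjective (fun c : C => (⟨g⁻¹ * c * g, hg1 c c.2⟩ : C)) := by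
      apply Finite.surjective_of_injective
      intro c d h
      have h1 := congrArg Subtype.val h
      simp only at h1
      apply Subtype.ext
      simpa using h1
    have : g⁻¹ ∈ N := by
      refine Subgroup.mem_normalizer_iff.2 fun n => ?_
      rw [inv_inv]
      constructor
      · exact hg1 n
      · intro hn'
        obtain ⟨c, hc⟩ := hsurj ⟨_, hn'⟩
        have h1 := congrArg Subtype.val hc
        simp only at h1
        have h2 : (c : G) = n := by simpa [mul_assoc] using h1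
        rw [← h2]
        exact c.2
    simpa using N.inv_mem this
  have hvC : v ∈ C := Subgroup.mem_zpowers v
  have hfil : ∀ g : G, g⁻¹ * x * g ∈ H ↔ ∃ hg : g ∈ N, (⟨g, hg⟩ : N)⁻¹ * u' * ⟨g, hg⟩ ∈ Hs := by
    intro g
    constructor
    · intro hw
      -- `g⁻¹ v g ∈ C`
      have h1 : g⁻¹ * v * g ∈ H := by
        have h2 := Cfsg.Agent.H06.Brauer.conj_pow' g x e
        rw [← hvdef] at h2
        rw [← h2]
        exact H.pow_mem hw e
      have h3 : (g⁻¹ * v * g) ^ m = 1 := by
        rw [Cfsg.Agent.H06.Brauer.conj_pow', hv]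
        group
      have h4 : g⁻¹ * v * g ∈ C := by
        set w := g⁻¹ * v * g with hwdef
        haveI hnC : (C.subgroupOf H).Normal := Subgroup.normal_subgroupOf_of_le_normalizer hHN
        have h5 : (⟨w, h1⟩ : H) ^ (C.subgroupOf H).index ∈ C.subgroupOf H :=
          Subgroup.pow_index_mem _ _
        have h6 : w ^ (p ^ k) ∈ C := by
          have h7 : (C.subgroupOf H).index = p ^ k := hk
          rw [h7] at h5
          have := Subgroup.mem_subgroupOf.1 h5
          simpa using this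
        have hc : Nat.Coprime (p ^ k) m :=
          Nat.Coprime.pow_left k ((Nat.Prime.coprime_iff_not_dvd hp).2 hm)
        have hgcd := Nat.gcd_eq_gcd_ab (p ^ k) m
        rw [hc.gcd_eq_one] at hgcd
        have h8 : w = (w ^ (p ^ k)) ^ (Nat.gcdA (p ^ k) m) * (w ^ m) ^ (Nat.gcdB (p ^ k) m) := by
          rw [← zpow_natCast w (p ^ k), ← zpow_natCast w m, ← zpow_mul, ← zpow_mul, ← zpow_add, ← hgcd]
          simp
        rw [h8, h3, one_zpow, mul_one]
        exact C.zpow_mem h6 _
      have hgN := hCmem g h4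
      refine ⟨hgN, ?_⟩
      have h9 : g⁻¹ * u * g ∈ H := by
        have : g⁻¹ * u * g = (g⁻¹ * v * g)⁻¹ * (g⁻¹ * x * g) := by
          rw [hudef]; group
        rw [this]
        exact H.mul_mem (H.inv_mem h1) hw
      have h10 : N.subtype ((⟨g, hgN⟩ : N)⁻¹ * u' * ⟨g, hgN⟩) ∈ H := h9
      exact (Subgroup.mem_map_iff_mem Subtype.val_injective).1 h10
    · rintro ⟨hg, h⟩
      have h5 : N.subtype ((⟨g, hg⟩ : N)⁻¹ * u' * ⟨g, hg⟩) ∈ H := Subgroup.mem_map_of_mem _ h
      have h6 : g⁻¹ * u * g ∈ H := h5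
      have h7 : g⁻¹ * v * g ∈ H := by
        apply hCH
        have := (Subgroup.mem_normalizer_iff.1 (N.inv_mem hg) v).1 hvC
        simpa using this
      have : g⁻¹ * x * g = (g⁻¹ * v * g) * (g⁻¹ * u * g) := by
        rw [hx]; group
      rw [this]
      exact H.mul_mem h7 h6
  let ε : {g : G // g⁻¹ * x * g ∈ H} ≃ {g : N // g⁻¹ * u' * g ∈ Hs} :=
    { toFun := fun g => ⟨⟨g.1, ((hfil g.1).1 g.2).1⟩, ((hfil g.1).1 g.2).2⟩
      invFun := fun g => ⟨g.1.1, (hfil g.1.1).2 ⟨g.1.2, g.2⟩⟩
      left_inv := fun g => rfl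
      right_inv := fun g => rfl }
  have hHcard : Nat.card H = Nat.card Hs :=
    Nat.card_congr (Subgroup.equivMapOfInjective _ _ Subtype.val_injective).symm.toEquiv
  rw [indFun_one_eq_count, Nat.card_congr ε, hcount, hHcard]
  have : (Nat.card Hs : ℂ) ≠ 0 := Nat.cast_ne_zero.2 Nat.card_pos.ne'
  push_cast
  field_simp

/-- Subgroups of quasi-elementary subgroups are quasi-elementary. -/
theorem QE.mono {p : ℕ} (hp : p.Prime) {G : Type*} [Group G] [Finite G] {H U : Subgroup G} (h : QE p H)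
    (hU : U ≤ H) : QE p U := by
  obtain ⟨C, hCH, hHN, hcyc, hcop, k, hk⟩ := h
  refine ⟨C ⊓ U, inf_le_right, ?_, ?_, ?_, ?_⟩
  · intro y hy
    refine Subgroup.mem_normalizer_iff.2 fun n => ?_
    have h1 := Subgroup.mem_normalizer_iff.1 (hHN (hU hy)) n
    simp only [SetLike.mem_coe, Subgroup.mem_inf] at h1 ⊢
    constructor
    · rintro ⟨h2, h3⟩
      exact ⟨h1.1 h2, U.mul_mem (U.mul_mem hy h3) (U.inv_mem hy)⟩
    · rintro ⟨h2, h3⟩
      refine ⟨h1.2 h2, ?_⟩
      have := U.mul_mem (U.mul_mem (U.inv_mem hy) h3) hy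
      simpa [mul_assoc] using this
  · have : IsCyclic ((C ⊓ U).subgroupOf C) := inferInstance
    exact isCyclic_of_surjective _ (Subgroup.subgroupOfEquivOfLe (inf_le_left : C ⊓ U ≤ C)).surjective
  · have h1 : Nat.card ↥(C ⊓ U) ∣ Nat.card C := Subgroup.card_dvd_of_le inf_le_left
    exact Nat.Coprime.coprime_dvd_left h1 hcop
  · -- the index
    haveI : Fact p.Prime := ⟨hp⟩
    have h0 : (C ⊓ U).relIndex U = C.relIndex U := by
      rw [Subgroup.inf_relIndex_right]
    rw [h0]
    have h1 : C.relIndex U ∣ C.relIndex H := by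
      haveI hn : (C.subgroupOf H).Normal := Subgroup.normal_subgroupOf_of_le_normalizer hHN
      rw [← Subgroup.relIndex_subgroupOf hU]
      exact Subgroup.relIndex_dvd_index_of_normal _ _
    rw [hk] at h1
    obtain ⟨l, -, hl⟩ := (Nat.dvd_prime_pow hp).1 h1
    exact ⟨l, hl⟩

end Cfsg.Agent.H04.Cliff
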