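import Cfsg.Agent.Lib.H04.Cliff.Solomon

/-!
# Solomon's induction theorem, part 2
-/

set_option autoImplicit false
set_option linter.style.haveILetI false
set_option linter.unusedSectionVars false
set_option linter.unusedSimpArgs false
set_option linter.unusedVariables false

namespace Cfsg.Agent.H04.Cliff

open Cfsg Cfsg.Agent.H21
open scoped ComplexConjugate

universe u

variable {G : Type*} [Group G] [Fintype G]

/-- The `ℤ`-span of the permutation characters of quasi-elementary subgroups. -/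
def VQ (p : ℕ) (G : Type*) [Group G] [Fintype G] : AddSubgroup (G → ℂ) :=
  AddSubgroup.closure {f | ∃ H : Subgroup G, QE p H ∧ f = indFun H (fun _ => 1)}

theorem VQ_of_decomp {p : ℕ} (a : Subgroup G → ℕ) (hU : ∀ U, a U ≠ 0 → QE p U) :
    ∑ U : Subgroup G, (a U : ℂ) • indFun U (fun _ => 1) ∈ VQ p G := by
  classical
  refine AddSubgroup.sum_mem _ fun U _ => ?_
  by_cases h : a U = 0
  · simp [h, (VQ p G).zero_mem]
  · have h1 : (a U : ℂ) • indFun U (fun _ => 1) = a U • indFun U (fun _ => (1 : ℂ)) := by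
      rw [Nat.cast_smul_eq_nsmul]
    rw [h1]
    have h2 : indFun U (fun _ => (1 : ℂ)) ∈ VQ p G := AddSubgroup.subset_closure ⟨U, hU U h, rfl⟩
    exact AddSubgroup.nsmul_mem _ h2 _

theorem VQ_mul {p : ℕ} (hp : p.Prime) {f h : G → ℂ} (hf : f ∈ VQ p G) (hh : h ∈ VQ p G) :
    f * h ∈ VQ p G := by
  induction hf using AddSubgroup.closure_induction with
  | mem f hf =>
    obtain ⟨H, hH, rfl⟩ := hf
    induction hh using AddSubgroup.closure_induction with
    | mem h hh =>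
      obtain ⟨K, hK, rfl⟩ := hh
      obtain ⟨a, ha, he⟩ := perm_char_decomp H K
      rw [he]
      exact VQ_of_decomp a fun U hU => hH.mono hp (ha U hU)
    | zero => rw [mul_zero]; exact (VQ p G).zero_mem
    | add _ _ _ _ h1 h2 => rw [mul_add]; exact (VQ p G).add_mem h1 h2
    | neg _ _ h => rw [mul_neg]; exact (VQ p G).neg_mem h
  | zero => rw [zero_mul]; exact (VQ p G).zero_mem
  | add _ _ _ _ h1 h2 => rw [add_mul]; exact (VQ p G).add_mem h1 h2
  | neg _ _ h => rw [neg_mul]; exact (VQ p G).neg_mem h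

/-- Integer-valued functions in the span. -/
def WQ (p : ℕ) (G : Type*) [Group G] [Fintype G] : Set (G → ℤ) :=
  {F | (fun g => (F g : ℂ)) ∈ VQ p G}

theorem WQ_zero {p : ℕ} : (0 : G → ℤ) ∈ WQ p G := by
  have : (fun g => (((0 : G → ℤ) g : ℤ) : ℂ)) = 0 := by funext g; simp
  show (fun g => _) ∈ VQ p G
  rw [this]
  exact (VQ p G).zero_mem

theorem WQ_add {p : ℕ} {F F' : G → ℤ} (h : F ∈ WQ p G) (h' : F' ∈ WQ p G) : F + F' ∈ WQ p G := by
  have : (fun g => (((F + F') g : ℤ) : ℂ)) = (fun g => (F g : ℂ)) + (fun g => (F' g : ℂ)) := by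
    funext g; simp
  show (fun g => _) ∈ VQ p G
  rw [this]
  exact (VQ p G).add_mem h h'

theorem WQ_neg {p : ℕ} {F : G → ℤ} (h : F ∈ WQ p G) : -F ∈ WQ p G := by
  have : (fun g => (((-F) g : ℤ) : ℂ)) = -(fun g => (F g : ℂ)) := by
    funext g; simp
  show (fun g => _) ∈ VQ p G
  rw [this]
  exact (VQ p G).neg_mem h

theorem WQ_mul {p : ℕ} (hp : p.Prime) {F F' : G → ℤ} (h : F ∈ WQ p G) (h' : F' ∈ WQ p G) :
    F * F' ∈ WQ p G := by
  have : (fun g => (((F * F') g : ℤ) : ℂ)) = (fun g => (F g : ℂ)) * (fun g => (F' g : ℂ)) := by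
    funext g; simp
  show (fun g => _) ∈ VQ p G
  rw [this]
  exact VQ_mul hp h h'

theorem WQ_zsmul {p : ℕ} (c : ℤ) {F : G → ℤ} (h : F ∈ WQ p G) : c • F ∈ WQ p G := by
  have : (fun g => (((c • F) g : ℤ) : ℂ)) = c • (fun g => (F g : ℂ)) := by
    funext g; simp
  show (fun g => _) ∈ VQ p G
  rw [this]
  exact AddSubgroup.zsmul_mem _ h _

theorem WQ_pow {p : ℕ} (hp : p.Prime) {F : G → ℤ} (h : F ∈ WQ p G) {n : ℕ} (hn : n ≠ 0) :
    F ^ n ∈ WQ p G := by
  induction n with
  | zero => exact absurd rfl hn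
  | succ n ih =>
    by_cases h0 : n = 0
    · subst h0
      simpa using h
    · rw [pow_succ]
      exact WQ_mul hp (ih h0) h

theorem exists_WQ_point (p : ℕ) (hp : p.Prime) (x : G) :
    ∃ F ∈ WQ p G, ((F x : ℤ) : ZMod p) ≠ 0 := by
  classical
  obtain ⟨H, hH, n, hn, hnp⟩ := exists_QE x p hp
  let F : G → ℤ := fun g => (Nat.card {q : G ⧸ H // g • q = q} : ℕ)
  have hF : (fun g => (F g : ℂ)) = indFun H (fun _ => 1) := by
    funext g
    rw [indFun_one_eq_fix]
    simp [F]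
  refine ⟨F, ?_, ?_⟩
  · show (fun g => (F g : ℂ)) ∈ VQ p G
    rw [hF]
    exact AddSubgroup.subset_closure ⟨H, hH, rfl⟩
  · have h1 : (F x : ℂ) = n := by
      rw [← hn, ← hF]
    have h2 : F x = n := by exact_mod_cast h1
    rw [h2]
    haveI : Fact p.Prime := ⟨hp⟩
    simpa [ZMod.natCast_eq_zero_iff] using hnp

theorem exists_WQ_one (p : ℕ) (hp : p.Prime) (s : Finset G) :
    ∃ F ∈ WQ p G, ∀ y ∈ s, ((F y : ℤ) : ZMod p) = 1 := by
  classical
  haveI : Fact p.Prime := ⟨hp⟩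
  induction s using Finset.induction_on with
  | empty => exact ⟨0, WQ_zero, by simp⟩
  | insert x s hx ih =>
    obtain ⟨h, hh, hs⟩ := ih
    obtain ⟨f, hf, hfx⟩ := exists_WQ_point p hp x
    have hpne : p - 1 ≠ 0 := by have := hp.two_le; omega
    let g := f ^ (p - 1)
    have hg : g ∈ WQ p G := WQ_pow hp hf hpne
    have hgv : ∀ y, ((g y : ℤ) : ZMod p) = 0 ∨ ((g y : ℤ) : ZMod p) = 1 := by
      intro y
      by_cases h0 : ((f y : ℤ) : ZMod p) = 0
      · left
        simp [g, h0, zero_pow hpne]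
      · right
        simp only [g, Pi.pow_apply, Int.cast_pow]
        exact ZMod.pow_card_sub_one_eq_one h0
    have hgx : ((g x : ℤ) : ZMod p) = 1 := by
      simp only [g, Pi.pow_apply, Int.cast_pow]
      exact ZMod.pow_card_sub_one_eq_one hfx
    refine ⟨h + g + -(h * g), WQ_add (WQ_add hh hg) (WQ_neg (WQ_mul hp hh hg)), ?_⟩
    intro y hy
    simp only [Pi.add_apply, Pi.neg_apply, Pi.mul_apply, Int.cast_add, Int.cast_neg, Int.cast_mul]
    rcases Finset.mem_insert.1 hy with rfl | hy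
    · rw [hgx]; ring
    · rw [hs y hy]; ring

theorem exists_WQ_const (p : ℕ) (hp : p.Prime) {h : G → ℤ} (hh : h ∈ WQ p G) (T : Finset ℤ) :
    ∃ F ∈ WQ p G, ∀ y, h y ∈ T → F y = ∏ a ∈ T, a := by
  classical
  induction T using Finset.induction_on with
  | empty =>
    exact ⟨0, WQ_zero, by simp⟩
  | insert a T ha ih =>
    obtain ⟨F, hF, hFv⟩ := ih
    rw [Finset.prod_insert ha]
    refine ⟨(∏ b ∈ T, b) • h + -(F * h) + a • F,
      WQ_add (WQ_add (WQ_zsmul _ hh) (WQ_neg (WQ_mul hp hF hh))) (WQ_zsmul _ hF), ?_⟩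
    intro y hy
    simp only [Pi.add_apply, Pi.neg_apply, Pi.mul_apply, Pi.smul_apply, smul_eq_mul]
    rcases Finset.mem_insert.1 hy with h1 | h1
    · rw [h1]; ring
    · rw [hFv y h1]; ring

theorem exists_VQ_coeff {p : ℕ} {f : G → ℂ} (hf : f ∈ VQ p G) :
    ∃ a : Subgroup G → ℤ, (∀ H, a H ≠ 0 → QE p H) ∧
      f = ∑ H : Subgroup G, (a H : ℂ) • indFun H (fun _ => 1) := by
  classical
  induction hf using AddSubgroup.closure_induction with
  | mem f hf =>
    obtain ⟨H, hH, rfl⟩ := hf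
    refine ⟨fun U => if U = H then 1 else 0, ?_, ?_⟩
    · intro U hU
      by_cases h : U = H
      · rw [h]; exact hH
      · simp [h] at hU
    · rw [Finset.sum_eq_single H]
      · simp
      · intro b _ hb
        simp [hb]
      · simp
  | zero => exact ⟨0, by simp, by simp⟩
  | add f g _ _ h1 h2 =>
    obtain ⟨a, ha, rfl⟩ := h1
    obtain ⟨b, hb, rfl⟩ := h2
    refine ⟨a + b, ?_, ?_⟩
    · intro H hH
      by_cases h : a H = 0
      · apply hb
        intro h'
        simp [h, h'] at hH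
      · exact ha H h
    · rw [← Finset.sum_add_distrib]
      refine Finset.sum_congr rfl fun H _ => ?_
      simp [add_smul]
  | neg f _ h =>
    obtain ⟨a, ha, rfl⟩ := h
    refine ⟨-a, ?_, ?_⟩
    · intro H hH
      apply ha
      simpa using hH
    · rw [← Finset.sum_neg_distrib]
      refine Finset.sum_congr rfl fun H _ => ?_
      simp

/-- Statement S0872. -/
theorem solomon (p : ℕ) (hp : p.Prime) :
    ∃ (m : ℤ) (a : Subgroup G → ℤ), ¬ (p : ℤ) ∣ m ∧ (∀ H, a H ≠ 0 → QE p H) ∧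
      (fun _ : G => (m : ℂ)) = ∑ H : Subgroup G, (a H : ℂ) • indFun H (fun _ => 1) := by
  classical
  haveI : Fact p.Prime := ⟨hp⟩
  obtain ⟨h, hh, hone⟩ := exists_WQ_one (G := G) p hp Finset.univ
  obtain ⟨F, hF, hFv⟩ := exists_WQ_const p hp hh (Finset.univ.image h)
  set m : ℤ := ∏ a ∈ Finset.univ.image h, a with hm
  have hFc : (fun g => (F g : ℂ)) = fun _ => (m : ℂ) := by
    funext g
    rw [hFv g (Finset.mem_image_of_mem _ (Finset.mem_univ _))]
  have hF' : (fun _ : G => (m : ℂ)) ∈ VQ p G := by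
    rw [← hFc]; exact hF
  obtain ⟨a, ha, he⟩ := exists_VQ_coeff hF'
  refine ⟨m, a, ?_, ha, he⟩
  rw [← ZMod.intCast_zmod_eq_zero_iff_dvd m p]
  rw [hm, Int.cast_prod]
  apply Finset.prod_ne_zero_iff.2
  intro b hb
  obtain ⟨y, -, rfl⟩ := Finset.mem_image.1 hb
  rw [hone y (Finset.mem_univ _)]
  exact one_ne_zero

end Cfsg.Agent.H04.Cliff
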